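import Mathlib

/-!
# Facts on `A₅` checked by evaluation (Hall-Janko Sylow rows)
-/

set_option autoImplicit false

namespace Cfsg.Agent.Lib.HallJanko.D

abbrev A5 := alternatingGroup (Fin 5)

set_option maxRecDepth 100000 in
theorem a5_cent5 : ∀ a b : A5, a ^ 5 = 1 → a ≠ 1 → a * b = b * a →
    b = 1 ∨ b = a ∨ b = a ^ 2 ∨ b = a ^ 3 ∨ b = a ^ 4 := by decide

set_option maxRecDepth 100000 in
theorem a5_cent3 : ∀ a b : A5, a ^ 3 = 1 → a ≠ 1 → a * b = b * a →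
    b = 1 ∨ b = a ∨ b = a ^ 2 := by decide

set_option maxRecDepth 100000 in
theorem a5_no : ∀ a b : A5, a ^ 5 = 1 → a ≠ 1 → b * a * b⁻¹ ≠ a ^ 2 ∧ b * a * b⁻¹ ≠ a ^ 3 := by
  decide

set_option maxRecDepth 100000 in
theorem a5_inv5 : ∀ a : A5, a ^ 5 = 1 → ∃ c : A5, c * a * c⁻¹ = a ^ 4 := by decide

set_option maxRecDepth 100000 in
theorem a5_conj3 : ∀ a b : A5, a ^ 3 = 1 → a ≠ 1 → b ^ 3 = 1 → b ≠ 1 → ∃ c : A5, c * a * c⁻¹ = b := by
  decide

set_option maxRecDepth 100000 in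
theorem a5_ex5 : ∃ a : A5, a ^ 5 = 1 ∧ a ≠ 1 := by decide

set_option maxRecDepth 100000 in
theorem a5_ex3 : ∃ a : A5, a ^ 3 = 1 ∧ a ≠ 1 := by decide

set_option maxRecDepth 100000 in
theorem a5_pow25 : ∀ a : A5, a ^ 25 = 1 → a ^ 5 = 1 := by decide

set_option maxRecDepth 100000 in
theorem a5_center : ∀ a : A5, (∀ b : A5, a * b = b * a) → a = 1 := by decide

set_option maxRecDepth 100000 in
theorem a5_card : Nat.card A5 = 60 := by
  rw [Nat.card_eq_fintype_card]; decide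

end Cfsg.Agent.Lib.HallJanko.D
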