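import Mathlib

/-!
# Hall-Janko type groups: the structural package

`Pkg G` collects what the 2-local analysis of a group of Hall-Janko type yields.  The main chain
(`helper51`) produces a term of `Pkg G` from the hypotheses of S1721; the Sylow rows S1722, S1723,
S1724 then follow from `Pkg G` alone (Sylow counting, `wip/halljanko/ROUTE.md`).
-/

set_option autoImplicit false

namespace Cfsg.Agent.Lib.HallJanko

open Subgroup

/-- The structural package of a group of Hall-Janko type.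

`C(t) = V × T1` with `V = {1, t, t₂, t t₂}`, `T1 ≃ A₅`, `z ∈ T1`, and
`N(V) = (V ⟨y'⟩) × T1 ≃ A₄ × A₅`. -/
structure Pkg (G : Type*) [Group G] where
  z : G
  t : G
  t₂ : G
  y' : G
  T1 : Subgroup G
  θ : T1 ≃* alternatingGroup (Fin 5)
  z_sq : z * z = 1
  z_ne : z ≠ 1
  t_sq : t * t = 1
  t_ne : t ≠ 1
  t₂_sq : t₂ * t₂ = 1
  t₂_ne : t₂ ≠ 1
  t₂_ne_t : t₂ ≠ t
  t_t₂ : t * t₂ = t₂ * t
  not_conj : ¬ IsConj t z
  all_inv : ∀ w : G, w * w = 1 → w ≠ 1 → IsConj w z ∨ IsConj w t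
  card_G : Nat.card G = 604800
  card_Cz : Nat.card (centralizer ({z} : Set G)) = 1920
  card_Ct : Nat.card (centralizer ({t} : Set G)) = 240
  z_mem : z ∈ T1
  t_comm : ∀ x ∈ T1, t * x = x * t
  t₂_comm : ∀ x ∈ T1, t₂ * x = x * t₂
  t_notMem : t ∉ T1
  t₂_notMem : t₂ ∉ T1
  tt₂_notMem : t * t₂ ∉ T1
  /-- `C(t) = V T1`. -/
  mem_Ct : ∀ g : G, g * t = t * g →
    ∃ x ∈ T1, g = x ∨ g = t * x ∨ g = t₂ * x ∨ g = t * t₂ * x
  y'_cube : y' * y' * y' = 1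
  y'_ne : y' ≠ 1
  y'_comm : ∀ x ∈ T1, y' * x = x * y'
  y'_t : y' * t * y'⁻¹ = t₂
  y'_t₂ : y' * t₂ * y'⁻¹ = t * t₂
  /-- `N(V) = ⟨y'⟩ V T1`: an element normalizing `V` is a product `y'^i v x`, `v ∈ V`, `x ∈ T1`. -/
  mem_NV : ∀ g : G, (g * t * g⁻¹ ∈ ({t, t₂, t * t₂} : Set G)) →
    (g * t₂ * g⁻¹ ∈ ({t, t₂, t * t₂} : Set G)) →
    ∃ i : ℕ, ∃ x ∈ T1, g = y' ^ i * x ∨ g = y' ^ i * (t * x) ∨ g = y' ^ i * (t₂ * x) ∨
      g = y' ^ i * (t * t₂ * x)
  /-- An element of order `5` of `C(z)` has centralizer of order `10` in `C(z)`. -/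
  cent5 : ∀ f : G, f * z = z * f → orderOf f = 5 →
    Nat.card (centralizer ({z} : Set G) ⊓ centralizer ({f} : Set G) : Subgroup G) = 10
  /-- An element of order `3` of `C(z)` has centralizer of order `24` in `C(z)`. -/
  cent3 : ∀ y : G, y * z = z * y → orderOf y = 3 →
    Nat.card (centralizer ({z} : Set G) ⊓ centralizer ({y} : Set G) : Subgroup G) = 24
  /-- `y'` is inverted in `C(z)`. -/
  y'_inv : ∃ c : G, c * z = z * c ∧ c * y' * c⁻¹ = y'⁻¹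

end Cfsg.Agent.Lib.HallJanko
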