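import Mathlib
import Cfsg.Agent.Lib.Basic.Conj
import Cfsg.Agent.Lib.HallJanko.Pkg
import Cfsg.Agent.Lib.HallJanko.DA5
import Cfsg.Agent.Lib.HallJanko.V4

/-!
# Hall-Janko type groups: basics for the Sylow rows (from `Pkg G`)
-/

set_option autoImplicit false
set_option linter.unusedSectionVars false
set_option linter.unusedVariables false

namespace Cfsg.Agent.Lib.HallJanko.D

open Subgroup

variable {G : Type*} [Group G]

/-! ### General lemmas -/

/-- conjugate of a subgroup -/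
abbrev cj (g : G) (W : Subgroup G) : Subgroup G := W.map (MulAut.conj g).toMonoidHom

theorem mem_cj {g x : G} {W : Subgroup G} : x ∈ cj g W ↔ g⁻¹ * x * g ∈ W :=
  Cfsg.Agent.Lib.Basic.Conj.mem_map_conj_iff

theorem conj_mem_cj {g x : G} {W : Subgroup G} (hx : x ∈ W) : g * x * g⁻¹ ∈ cj g W :=
  Cfsg.Agent.Lib.Basic.Conj.conj_mem_map_conj hx

theorem card_cj (g : G) (W : Subgroup G) : Nat.card (cj g W) = Nat.card W :=
  Cfsg.Agent.Lib.Basic.Conj.card_map_conj g W

theorem mem_cent {x y : G} : y ∈ centralizer ({x} : Set G) ↔ y * x = x * y :=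
  Subgroup.mem_centralizer_singleton_iff

theorem centralizer_conj_eq (g x : G) :
    centralizer ({g * x * g⁻¹} : Set G) = cj g (centralizer ({x} : Set G)) := by
  ext y
  rw [mem_cj, mem_cent, mem_cent]
  constructor
  · intro hy
    have : g⁻¹ * (y * (g * x * g⁻¹)) * g = g⁻¹ * ((g * x * g⁻¹) * y) * g := by rw [hy]
    simpa [mul_assoc] using this
  · intro hy
    have : g * (g⁻¹ * y * g * x) * g⁻¹ = g * (x * (g⁻¹ * y * g)) * g⁻¹ := by rw [hy]
    simpa [mul_assoc] using this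

theorem card_centralizer_conj (g x : G) :
    Nat.card (centralizer ({g * x * g⁻¹} : Set G)) = Nat.card (centralizer ({x} : Set G)) := by
  rw [centralizer_conj_eq, card_cj]

theorem card_centralizer_of_isConj {x y : G} (h : IsConj x y) :
    Nat.card (centralizer ({x} : Set G)) = Nat.card (centralizer ({y} : Set G)) := by
  obtain ⟨c, hc⟩ := isConj_iff.1 h
  rw [← hc, card_centralizer_conj]

theorem comm_of_mem_zpowers {a g x : G} (hx : x ∈ zpowers a) (hg : g * a = a * g) :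
    g * x = x * g := by
  obtain ⟨k, rfl⟩ := mem_zpowers_iff.1 hx
  have : Commute g a := hg
  exact (this.zpow_right k)

theorem card_subgroupOf_of_le {A H : Subgroup G} (h : A ≤ H) :
    Nat.card (A.subgroupOf H) = Nat.card A :=
  Nat.card_congr (Subgroup.subgroupOfEquivOfLe h).toEquiv

theorem factorization_of {p a m : ℕ} (hp : p.Prime) (hm : ¬ p ∣ m) :
    (p ^ a * m).factorization p = a := by
  have hm0 : m ≠ 0 := by rintro rfl; exact hm (dvd_zero _)
  rw [Nat.factorization_mul (pow_ne_zero _ hp.ne_zero) hm0]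
  simp [Nat.factorization_eq_zero_of_not_dvd hm, hp.factorization_self]

theorem exists_conj_le [Finite G] {H A B : Subgroup G} {p a m : ℕ} [hp : Fact p.Prime]
    (hAH : A ≤ H) (hBH : B ≤ H) (hA : Nat.card A = p ^ a) (hH : Nat.card H = p ^ a * m)
    (hm : ¬ p ∣ m) (hB : IsPGroup p B) : ∃ k ∈ H, ∀ x ∈ B, k * x * k⁻¹ ∈ A := by
  have hA' : Nat.card (A.subgroupOf H) = p ^ (Nat.card H).factorization p := by
    rw [card_subgroupOf_of_le hAH, hA, hH, factorization_of hp.out hm]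
  let S : Sylow p H := Sylow.ofCard (A.subgroupOf H) hA'
  have hB' : IsPGroup p (B.subgroupOf H) := hB.comap_of_injective H.subtype H.subtype_injective
  obtain ⟨Q, hQ⟩ := hB'.exists_le_sylow
  obtain ⟨k, hk⟩ := MulAction.exists_smul_eq H Q S
  refine ⟨k, k.2, fun x hx => ?_⟩
  have hxQ : (⟨x, hBH hx⟩ : H) ∈ Q := hQ (by simpa [mem_subgroupOf] using hx)
  have h2 : k * (⟨x, hBH hx⟩ : H) * k⁻¹ ∈ (S : Subgroup H) := by
    rw [← hk, Sylow.smul_def, Sylow.pointwise_smul_def]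
    exact Cfsg.Agent.Lib.Basic.Conj.conj_mem_conj_smul hxQ
  have h3 : (k * (⟨x, hBH hx⟩ : H) * k⁻¹) ∈ A.subgroupOf H := h2
  rw [mem_subgroupOf] at h3
  simpa using h3

theorem card_sylow_of [Finite G] {p a m : ℕ} [hp : Fact p.Prime] (hG : Nat.card G = p ^ a * m)
    (hm : ¬ p ∣ m) (P : Sylow p G) : Nat.card P = p ^ a := by
  rw [P.card_eq_multiplicity, hG, factorization_of hp.out hm]

/-- A `p`-element is conjugate into any Sylow `p`-subgroup. -/
theorem exists_conj_mem_sylow [Finite G] {p : ℕ} [hp : Fact p.Prime] (P : Sylow p G) {x : G}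
    (hx : IsPGroup p (zpowers x)) : ∃ g : G, g * x * g⁻¹ ∈ P := by
  obtain ⟨Q, hQ⟩ := hx.exists_le_sylow
  obtain ⟨g, hg⟩ := MulAction.exists_smul_eq G Q P
  refine ⟨g, ?_⟩
  have h2 : g * x * g⁻¹ ∈ (P : Subgroup G) := by
    rw [← hg, Sylow.smul_def, Sylow.pointwise_smul_def]
    exact Cfsg.Agent.Lib.Basic.Conj.conj_mem_conj_smul (hQ (mem_zpowers x))
  exact h2

/-- A `p`-subgroup is conjugate into any Sylow `p`-subgroup. -/
theorem exists_cj_le_sylow [Finite G] {p : ℕ} [hp : Fact p.Prime] (P : Sylow p G) {W : Subgroup G}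
    (hW : IsPGroup p W) : ∃ g : G, cj g W ≤ P := by
  obtain ⟨Q, hQ⟩ := hW.exists_le_sylow
  obtain ⟨g, hg⟩ := MulAction.exists_smul_eq G Q P
  refine ⟨g, ?_⟩
  rw [← hg, Sylow.smul_def, Sylow.pointwise_smul_def]
  exact fun x hx => by
    obtain ⟨w, hw, rfl⟩ := hx
    exact Cfsg.Agent.Lib.Basic.Conj.conj_mem_conj_smul (hQ hw)

theorem isPGroup_zpowers_of_pow {p n : ℕ} [hp : Fact p.Prime] {x : G} (h : x ^ p ^ n = 1) :
    IsPGroup p (zpowers x) := by
  refine IsPGroup.of_card (n := (orderOf x).factorization p) ?_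
  rw [Nat.card_zpowers]
  obtain ⟨k, hk, hx⟩ := (Nat.dvd_prime_pow hp.out).1 (orderOf_dvd_of_pow_eq_one h)
  rw [hx, hp.out.factorization_pow]
  simp

theorem orderOf_odd_of_mem {a w : G} (hw : w ∈ zpowers a) (hodd : Odd (orderOf a)) (hww : w * w = 1) :
    w = 1 := by
  have h1 : orderOf w ∣ orderOf a := orderOf_dvd_of_mem_zpowers hw
  have h2 : orderOf w ∣ 2 := orderOf_dvd_of_pow_eq_one (by rw [pow_two]; exact hww)
  have h3 : orderOf w ∣ Nat.gcd (orderOf a) 2 := Nat.dvd_gcd h1 h2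
  have h4 : Nat.gcd (orderOf a) 2 = 1 := by
    exact Nat.coprime_two_right.2 hodd
  rw [h4] at h3
  exact orderOf_eq_one_iff.1 (Nat.dvd_one.1 h3)

/-! ### Basics of the package -/

namespace Pk

variable (h : Pkg G)

theorem t_inv : h.t⁻¹ = h.t := inv_eq_of_mul_eq_one_left h.t_sq
theorem t₂_inv : h.t₂⁻¹ = h.t₂ := inv_eq_of_mul_eq_one_left h.t₂_sq

/-- The four-group `V`. -/
def V : Subgroup G where
  carrier := {x | x = 1 ∨ x = h.t ∨ x = h.t₂ ∨ x = h.t * h.t₂}
  one_mem' := Or.inl rfl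
  mul_mem' := by
    have tt := h.t_sq
    have ss := h.t₂_sq
    have ts := h.t_t₂
    have e1 : h.t * (h.t * h.t₂) = h.t₂ := by rw [← mul_assoc, tt, one_mul]
    have e2 : h.t₂ * h.t = h.t * h.t₂ := ts.symm
    have e3 : h.t₂ * (h.t * h.t₂) = h.t := by rw [← mul_assoc, ← ts, mul_assoc, ss, mul_one]
    have e4 : h.t * h.t₂ * h.t = h.t₂ := by rw [ts, mul_assoc, tt, mul_one]
    have e5 : h.t * h.t₂ * h.t₂ = h.t := by rw [mul_assoc, ss, mul_one]
    have e6 : h.t * h.t₂ * (h.t * h.t₂) = 1 := by rw [mul_assoc, e3, tt]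
    rintro a b (rfl | rfl | rfl | rfl) (rfl | rfl | rfl | rfl) <;>
      simp [tt, ss, e1, e2, e3, e4, e5, e6]
  inv_mem' := by
    have tt := h.t_sq
    have ss := h.t₂_sq
    have ts := h.t_t₂
    rintro a (rfl | rfl | rfl | rfl)
    · simp
    · right; left; exact inv_eq_of_mul_eq_one_left tt
    · right; right; left; exact inv_eq_of_mul_eq_one_left ss
    · right; right; right
      apply inv_eq_of_mul_eq_one_left
      rw [mul_assoc, ← mul_assoc h.t₂, ← ts, mul_assoc, ss, mul_one, tt]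

theorem mem_V {x : G} : x ∈ V h ↔ x = 1 ∨ x = h.t ∨ x = h.t₂ ∨ x = h.t * h.t₂ := Iff.rfl

theorem tt₂_ne_one : h.t * h.t₂ ≠ 1 := by
  intro e
  apply h.t₂_ne_t
  have : h.t₂ = h.t⁻¹ := (eq_inv_of_mul_eq_one_right e)
  rw [this, t_inv]

theorem tt₂_ne_t : h.t * h.t₂ ≠ h.t := by
  intro e
  exact h.t₂_ne (by simpa using e)

theorem tt₂_ne_t₂ : h.t * h.t₂ ≠ h.t₂ := by
  intro e
  exact h.t_ne (by simpa using e)

theorem card_V : Nat.card (V h) = 4 := by
  classical
  have : ((V h : Subgroup G) : Set G) = (({1, h.t, h.t₂, h.t * h.t₂} : Finset G) : Set G) := by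
    ext x; simp [mem_V]
  have h2 : Nat.card (V h) = (({1, h.t, h.t₂, h.t * h.t₂} : Finset G)).card := by
    have h3 : Nat.card (V h) = Nat.card ((V h : Subgroup G) : Set G) := rfl
    rw [h3, this, Nat.card_coe_set_eq, Set.ncard_coe_finset]
  rw [h2]
  have n1 : (1 : G) ≠ h.t := h.t_ne.symm
  have n2 : (1 : G) ≠ h.t₂ := h.t₂_ne.symm
  have n3 : (1 : G) ≠ h.t * h.t₂ := (tt₂_ne_one h).symm
  have n4 : h.t ≠ h.t₂ := h.t₂_ne_t.symm
  have n5 : h.t ≠ h.t * h.t₂ := (tt₂_ne_t h).symm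
  have n6 : h.t₂ ≠ h.t * h.t₂ := (tt₂_ne_t₂ h).symm
  simp [Finset.card_insert_of_notMem, n1, n2, n3, n4, n5, n6]

theorem V_conj_t {v : G} (hv : v ∈ V h) (hv1 : v ≠ 1) : IsConj v h.t := by
  rcases hv with rfl | rfl | rfl | rfl
  · exact absurd rfl hv1
  · exact IsConj.refl _
  · exact (isConj_iff.2 ⟨h.y', h.y'_t⟩).symm
  · have e1 : IsConj h.t h.t₂ := isConj_iff.2 ⟨h.y', h.y'_t⟩
    have e2 : IsConj h.t₂ (h.t * h.t₂) := isConj_iff.2 ⟨h.y', h.y'_t₂⟩
    exact (e1.trans e2).symm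

/-- Involutions of a subgroup containing `V` and with Sylow `2`-subgroup `V` are conjugate to `t`. -/
theorem invol_conj_t [Finite G] {H : Subgroup G} (ht : h.t ∈ H) (ht₂ : h.t₂ ∈ H)
    (h8 : ¬ 8 ∣ Nat.card H) {u : G} (hu : u ∈ H) (huu : u * u = 1) (hu1 : u ≠ 1) :
    IsConj u h.t := by
  have hVH : V h ≤ H := by
    rintro x (rfl | rfl | rfl | rfl)
    · exact H.one_mem
    · exact ht
    · exact ht₂
    · exact H.mul_mem ht ht₂
  have hdvd : 4 ∣ Nat.card H := by
    rw [← card_V h]; exact Subgroup.card_dvd_of_le hVH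
  obtain ⟨m, hm⟩ := hdvd
  have hm2 : ¬ 2 ∣ m := by
    rintro ⟨n, rfl⟩
    exact h8 ⟨n, by rw [hm]; ring⟩
  have : Fact (Nat.Prime 2) := ⟨Nat.prime_two⟩
  have huH : zpowers u ≤ H := by
    rw [zpowers_le]; exact hu
  have hp : IsPGroup 2 (zpowers u) :=
    isPGroup_zpowers_of_pow (n := 1) (by rw [pow_one, pow_two]; exact huu)
  obtain ⟨k, hk, hku⟩ := exists_conj_le (p := 2) (a := 2) (m := m) hVH huH
    (by rw [card_V]; norm_num) (by rw [hm]; norm_num) hm2 hp
  have h1 := hku u (mem_zpowers u)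
  have h2 : k * u * k⁻¹ ≠ 1 := by
    intro e
    apply hu1
    have : k * u = k := by
      have := congrArg (· * k) e
      simpa using this
    simpa using this
  have h3 := V_conj_t h h1 h2
  exact (isConj_iff.2 ⟨k, rfl⟩).trans h3

/-! ### Transport from `A₅` -/

/-- image in `A₅` -/
noncomputable def tA {a : G} (ha : a ∈ h.T1) : A5 := h.θ ⟨a, ha⟩

theorem tA_inj {a b : G} {ha : a ∈ h.T1} {hb : b ∈ h.T1} (e : tA h ha = tA h hb) : a = b := by
  have := h.θ.injective e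
  exact congrArg Subtype.val this

theorem tA_mul {a b : G} (ha : a ∈ h.T1) (hb : b ∈ h.T1) :
    tA h (h.T1.mul_mem ha hb) = tA h ha * tA h hb := by
  unfold tA
  rw [← map_mul]
  rfl

theorem tA_pow {a : G} (ha : a ∈ h.T1) (n : ℕ) :
    tA h (h.T1.pow_mem ha n) = tA h ha ^ n := by
  unfold tA
  rw [← map_pow]
  rfl

theorem tA_inv {a : G} (ha : a ∈ h.T1) :
    tA h (h.T1.inv_mem ha) = (tA h ha)⁻¹ := by
  unfold tA
  rw [← map_inv]
  rfl

theorem tA_one : tA h (h.T1.one_mem) = 1 := by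
  unfold tA
  exact map_one h.θ

theorem tA_eq_one {a : G} {ha : a ∈ h.T1} (e : a = 1) : tA h ha = 1 := by
  subst e; exact tA_one h

theorem tA_ne_one {a : G} {ha : a ∈ h.T1} (e : a ≠ 1) : tA h ha ≠ 1 := by
  intro e2
  apply e
  have : tA h ha = tA h h.T1.one_mem := by rw [e2, tA_one]
  exact tA_inj h this

theorem tA_pow_eq_one {a : G} (ha : a ∈ h.T1) {n : ℕ} (e : a ^ n = 1) : tA h ha ^ n = 1 := by
  rw [← tA_pow]
  exact tA_eq_one h e

theorem tA_surj (α : A5) : ∃ (a : G) (ha : a ∈ h.T1), tA h ha = α := by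
  refine ⟨(h.θ.symm α).1, (h.θ.symm α).2, ?_⟩
  unfold tA
  simp

theorem T1_cent5 {a x : G} (ha : a ∈ h.T1) (hx : x ∈ h.T1) (h5 : a ^ 5 = 1) (h1 : a ≠ 1)
    (hc : a * x = x * a) : x ∈ zpowers a := by
  have hc' : tA h ha * tA h hx = tA h hx * tA h ha := by
    rw [← tA_mul, ← tA_mul]
    congr 1
  have key := a5_cent5 _ _ (tA_pow_eq_one h ha h5) (tA_ne_one h h1) hc'
  have aux : ∀ n : ℕ, tA h hx = tA h ha ^ n → x ∈ zpowers a := by
    intro n e
    rw [← tA_pow] at e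
    rw [tA_inj h e]
    exact npow_mem_zpowers a n
  rcases key with e | e | e | e | e
  · exact aux 0 (by simpa using e)
  · exact aux 1 (by simpa using e)
  · exact aux 2 e
  · exact aux 3 e
  · exact aux 4 e

theorem T1_cent3 {a x : G} (ha : a ∈ h.T1) (hx : x ∈ h.T1) (h3 : a ^ 3 = 1) (h1 : a ≠ 1)
    (hc : a * x = x * a) : x ∈ zpowers a := by
  have hc' : tA h ha * tA h hx = tA h hx * tA h ha := by
    rw [← tA_mul, ← tA_mul]
    congr 1
  have key := a5_cent3 _ _ (tA_pow_eq_one h ha h3) (tA_ne_one h h1) hc'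
  have aux : ∀ n : ℕ, tA h hx = tA h ha ^ n → x ∈ zpowers a := by
    intro n e
    rw [← tA_pow] at e
    rw [tA_inj h e]
    exact npow_mem_zpowers a n
  rcases key with e | e | e
  · exact aux 0 (by simpa using e)
  · exact aux 1 (by simpa using e)
  · exact aux 2 e

theorem tA_conj {a c : G} (ha : a ∈ h.T1) (hc : c ∈ h.T1) :
    tA h (h.T1.mul_mem (h.T1.mul_mem hc ha) (h.T1.inv_mem hc)) =
      tA h hc * tA h ha * (tA h hc)⁻¹ := by
  rw [tA_mul h (h.T1.mul_mem hc ha) (h.T1.inv_mem hc), tA_mul h hc ha, tA_inv h hc]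

theorem T1_no {a c : G} (ha : a ∈ h.T1) (hc : c ∈ h.T1) (h5 : a ^ 5 = 1) (h1 : a ≠ 1) :
    c * a * c⁻¹ ≠ a ^ 2 ∧ c * a * c⁻¹ ≠ a ^ 3 := by
  have key := a5_no (tA h ha) (tA h hc) (tA_pow_eq_one h ha h5) (tA_ne_one h h1)
  constructor
  · intro e
    apply key.1
    rw [← tA_conj, ← tA_pow]
    congr 1
  · intro e
    apply key.2
    rw [← tA_conj, ← tA_pow]
    congr 1

theorem T1_inv5 {a : G} (ha : a ∈ h.T1) (h5 : a ^ 5 = 1) : ∃ c ∈ h.T1, c * a * c⁻¹ = a ^ 4 := by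
  obtain ⟨γ, hγ⟩ := a5_inv5 (tA h ha) (tA_pow_eq_one h ha h5)
  obtain ⟨c, hc, rfl⟩ := tA_surj h γ
  refine ⟨c, hc, ?_⟩
  rw [← tA_conj, ← tA_pow] at hγ
  exact tA_inj h hγ

theorem T1_conj3 {a b : G} (ha : a ∈ h.T1) (hb : b ∈ h.T1) (h3 : a ^ 3 = 1) (h1 : a ≠ 1)
    (h3' : b ^ 3 = 1) (h1' : b ≠ 1) : ∃ c ∈ h.T1, c * a * c⁻¹ = b := by
  obtain ⟨γ, hγ⟩ := a5_conj3 (tA h ha) (tA h hb) (tA_pow_eq_one h ha h3) (tA_ne_one h h1)
    (tA_pow_eq_one h hb h3') (tA_ne_one h h1')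
  obtain ⟨c, hc, rfl⟩ := tA_surj h γ
  refine ⟨c, hc, ?_⟩
  rw [← tA_conj] at hγ
  exact tA_inj h hγ

theorem ex5 : ∃ f ∈ h.T1, f ^ 5 = 1 ∧ f ≠ 1 := by
  obtain ⟨α, h5, h1⟩ := a5_ex5
  obtain ⟨a, ha, rfl⟩ := tA_surj h α
  refine ⟨a, ha, ?_, ?_⟩
  · rw [← tA_pow] at h5
    exact tA_inj h (h5.trans (tA_one h).symm)
  · rintro rfl
    exact h1 (tA_one h)

theorem ex3 : ∃ f ∈ h.T1, f ^ 3 = 1 ∧ f ≠ 1 := by
  obtain ⟨α, h5, h1⟩ := a5_ex3
  obtain ⟨a, ha, rfl⟩ := tA_surj h α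
  refine ⟨a, ha, ?_, ?_⟩
  · rw [← tA_pow] at h5
    exact tA_inj h (h5.trans (tA_one h).symm)
  · rintro rfl
    exact h1 (tA_one h)

/-! ### Centralizers in `C(t)` -/

theorem comm_cases {a g : G} (ha : a ∈ h.T1) (hgt : g * h.t = h.t * g) (hga : g * a = a * g) :
    ∃ x ∈ h.T1, a * x = x * a ∧
      (g = x ∨ g = h.t * x ∨ g = h.t₂ * x ∨ g = h.t * h.t₂ * x) := by
  obtain ⟨x, hx, hg⟩ := h.mem_Ct g hgt
  refine ⟨x, hx, ?_, hg⟩
  have ht := h.t_comm a ha
  have ht₂ := h.t₂_comm a ha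
  have aux : ∀ v : G, v * a = a * v → v * x * a = a * (v * x) → a * x = x * a := by
    intro v hv e
    have : v * (a * x) = v * (x * a) := by
      rw [← mul_assoc, hv, mul_assoc, ← e, mul_assoc]
    exact mul_left_cancel this
  rcases hg with rfl | rfl | rfl | rfl
  · exact hga.symm
  · exact aux _ ht hga
  · exact aux _ ht₂ hga
  · refine aux _ ?_ hga
    rw [mul_assoc, ht₂, ← mul_assoc, ht, mul_assoc]

section Quot

variable [Finite G] {a : G}

/-- The centralizer of `a` modulo `⟨a⟩`. -/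
theorem normal_zpowers : ((zpowers a).subgroupOf (centralizer ({a} : Set G))).Normal := by
  constructor
  intro n hn g
  rw [mem_subgroupOf] at hn ⊢
  have e : (g : G) * n * (g : G)⁻¹ = n := by
    have := comm_of_mem_zpowers hn (mem_cent.1 g.2)
    rw [this, mul_assoc, mul_inv_cancel, mul_one]
  simpa [e] using hn

theorem quot_cases (ha : a ∈ h.T1) (hodd : Odd (orderOf a))
    (hcent : ∀ x ∈ h.T1, a * x = x * a → x ∈ zpowers a) :
    Nat.card (centralizer ({a} : Set G)) = 12 * orderOf a ∨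
      (Nat.card (centralizer ({a} : Set G)) = 60 * orderOf a ∧
        ∃ φ : centralizer ({a} : Set G) →* A5, Function.Surjective φ ∧
          φ.ker = (zpowers a).subgroupOf (centralizer ({a} : Set G))) := by
  set H := centralizer ({a} : Set G) with hH
  set N : Subgroup H := (zpowers a).subgroupOf H with hN
  have hNn : N.Normal := normal_zpowers
  have haH : a ∈ H := mem_cent.2 rfl
  have hzH : zpowers a ≤ H := by rw [zpowers_le]; exact haH
  have hcardN : Nat.card N = orderOf a := by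
    rw [hN, card_subgroupOf_of_le hzH, Nat.card_zpowers]
  have hcard : Nat.card H = Nat.card (H ⧸ N) * orderOf a := by
    rw [← hcardN]; exact Subgroup.card_eq_card_quotient_mul_card_subgroup N
  have mem_T1_H : ∀ {x : G}, (x * a = a * x) → x ∈ H := fun hx => mem_cent.2 hx
  have ht : h.t ∈ H := mem_T1_H (h.t_comm a ha)
  have ht₂ : h.t₂ ∈ H := mem_T1_H (h.t₂_comm a ha)
  have hy : h.y' ∈ H := mem_T1_H (h.y'_comm a ha)
  let t' : H := ⟨h.t, ht⟩
  let s' : H := ⟨h.t₂, ht₂⟩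
  let y' : H := ⟨h.y', hy⟩
  let π : H →* H ⧸ N := QuotientGroup.mk' N
  have hπ1 : ∀ x : H, π x = 1 ↔ (x : G) ∈ zpowers a := by
    intro x
    rw [QuotientGroup.mk'_apply, QuotientGroup.eq_one_iff, hN, mem_subgroupOf]
  have hπinv : ∀ x : H, (x : G) * x = 1 → (x : G) ≠ 1 → π x ≠ 1 := by
    intro x hxx hx1 e
    exact hx1 (orderOf_odd_of_mem ((hπ1 x).1 e) hodd hxx)
  have hcomm : (∀ x : H, ∀ n : G, n ∈ zpowers a → (x : G) * n = n * x) := fun x n hn =>
    comm_of_mem_zpowers hn (mem_cent.1 x.2)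
  have key := Cfsg.Agent.Lib.HallJanko.V4.v4_cases (π t') (π s') (π y')
    (by rw [← map_mul, (hπ1 _)]; show h.t * h.t ∈ _; rw [h.t_sq]; exact one_mem _)
    (by rw [← map_mul, (hπ1 _)]; show h.t₂ * h.t₂ ∈ _; rw [h.t₂_sq]; exact one_mem _)
    (by rw [← map_mul, ← map_mul]; congr 1; exact Subtype.ext h.t_t₂)
    (hπinv t' h.t_sq h.t_ne)
    (hπinv s' h.t₂_sq h.t₂_ne)
    (by
      intro e
      have e2 : π (t' * s') = 1 := by rw [map_mul, ← e, ← map_mul]; rw [hπ1]; show h.t * h.t ∈ _; rw [h.t_sq]; exact one_mem _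
      have tt : ((t' * s' : H) : G) * (t' * s' : H) = 1 := by
        show h.t * h.t₂ * (h.t * h.t₂) = 1
        rw [mul_assoc, ← mul_assoc h.t₂, ← h.t_t₂, mul_assoc, h.t₂_sq, mul_one, h.t_sq]
      exact hπinv (t' * s') tt (tt₂_ne_one h) e2)
    (by
      rw [← map_mul, ← map_mul]
      have : ((y' * y' * y' : H) : G) = 1 := by
        show h.y' * h.y' * h.y' = 1
        exact h.y'_cube
      rw [(hπ1 _).2 (by rw [this]; exact one_mem _)])
    (by
      rw [← map_inv, ← map_mul, ← map_mul]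
      congr 1
      exact Subtype.ext h.y'_t)
    (by
      rw [← map_inv, ← map_mul, ← map_mul, ← map_mul]
      congr 1
      exact Subtype.ext h.y'_t₂)
    (by
      intro X hX
      obtain ⟨x, rfl⟩ := QuotientGroup.mk'_surjective N X
      rw [← map_mul, ← map_mul] at hX
      have h1 : ((x * t' : H) : G)⁻¹ * ((t' * x : H) : G) ∈ zpowers a := by
        have := (QuotientGroup.eq (s := N) (a := x * t') (b := t' * x)).1 hX
        rw [hN, mem_subgroupOf] at this
        simpa using this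
      set n : G := ((x * t' : H) : G)⁻¹ * ((t' * x : H) : G) with hn
      have hnt : h.t * n = n * h.t := (hcomm t' n h1)
      have hx' : h.t * (x : G) = x * h.t * n := by
        rw [hn]
        show h.t * (x : G) = (x : G) * h.t * (((x : G) * h.t)⁻¹ * (h.t * x))
        group
      have hnn : n * n = 1 := by
        -- `x⁻¹ t x = t n`
        have e1 : (x : G)⁻¹ * h.t * x = h.t * n := by
          rw [mul_assoc, hx']; group
        have e2 : ((x : G)⁻¹ * h.t * x) * ((x : G)⁻¹ * h.t * x) = 1 := by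
          have : ((x : G)⁻¹ * h.t * x) * ((x : G)⁻¹ * h.t * x) = (x : G)⁻¹ * (h.t * h.t) * x := by
            group
          rw [this, h.t_sq]; group
        rw [e1] at e2
        have e3 : h.t * n * (h.t * n) = n * n := by
          rw [mul_assoc, ← mul_assoc n, ← hnt, mul_assoc, ← mul_assoc, h.t_sq, one_mul]
        rwa [e3] at e2
      have hn1 : n = 1 := orderOf_odd_of_mem h1 hodd hnn
      rw [hn1, mul_one] at hx'
      obtain ⟨y, hy, hay, hcases⟩ := comm_cases h ha hx'.symm (mem_cent.1 x.2)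
      have hyH : y ∈ H := mem_cent.2 hay.symm
      have hyz : π ⟨y, hyH⟩ = 1 := (hπ1 _).2 (hcent y hy hay)
      rcases hcases with e | e | e | e
      · left
        have : x = ⟨y, hyH⟩ := Subtype.ext e
        rw [this, hyz]
      · right; left
        have : x = t' * ⟨y, hyH⟩ := Subtype.ext e
        rw [this, map_mul, hyz, mul_one]
      · right; right; left
        have : x = s' * ⟨y, hyH⟩ := Subtype.ext e
        rw [this, map_mul, hyz, mul_one]
      · right; right; right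
        have : x = t' * s' * ⟨y, hyH⟩ := Subtype.ext e
        rw [this, map_mul, map_mul, hyz, mul_one])
  rcases key with e | ⟨e, ⟨iso⟩⟩
  · left; rw [hcard, e]
  · right
    refine ⟨by rw [hcard, e], iso.toMonoidHom.comp π, ?_, ?_⟩
    · exact iso.surjective.comp (QuotientGroup.mk'_surjective N)
    · ext x
      rw [MonoidHom.mem_ker, MonoidHom.comp_apply]
      show iso (π x) = 1 ↔ x ∈ N
      rw [map_eq_one_iff iso iso.injective]
      simp [QuotientGroup.eq_one_iff, π]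

end Quot

end Pk

end Cfsg.Agent.Lib.HallJanko.D
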