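import Mathlib
import Cfsg.Agent.Lib.HallJanko.DBase

/-!
# Hall-Janko type groups: the `5`-part
-/

set_option autoImplicit false
set_option linter.unusedSectionVars false
set_option linter.unusedVariables false
set_option linter.style.haveILetI false

namespace Cfsg.Agent.Lib.HallJanko.D

open Subgroup
open scoped Pointwise

variable {G : Type*} [Group G]

/-! ### More general lemmas -/

instance fact5 : Fact (Nat.Prime 5) := ⟨by norm_num⟩
instance fact3 : Fact (Nat.Prime 3) := ⟨by norm_num⟩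
instance fact2' : Fact (Nat.Prime 2) := ⟨by norm_num⟩
instance fact7 : Fact (Nat.Prime 7) := ⟨by norm_num⟩


/-- Orbit-stabilizer for conjugation by a subgroup, on elements. -/
theorem exists_orbit_finset [Finite G] (Γ : Subgroup G) (x : G) :
    ∃ O : Finset G, (∀ y, y ∈ O ↔ ∃ γ ∈ Γ, y = γ * x * γ⁻¹) ∧
      Nat.card Γ = O.card * Nat.card (Γ ⊓ centralizer ({x} : Set G) : Subgroup G) := by
  classical
  letI act : MulAction Γ G := MulAction.compHom G ((MulAut.conj : G →* MulAut G).comp Γ.subtype)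
  have hsmul : ∀ (γ : Γ) (y : G), γ • y = (γ : G) * y * (γ : G)⁻¹ := fun γ y => rfl
  haveI : Finite (MulAction.orbit Γ x) := Finite.of_injective _ Subtype.val_injective
  haveI : Fintype (MulAction.orbit Γ x) := Fintype.ofFinite _
  refine ⟨(MulAction.orbit Γ x).toFinset, ?_, ?_⟩
  · intro y
    rw [Set.mem_toFinset, MulAction.mem_orbit_iff]
    constructor
    · rintro ⟨γ, rfl⟩
      exact ⟨γ, γ.2, rfl⟩
    · rintro ⟨γ, hγ, rfl⟩
      exact ⟨⟨γ, hγ⟩, rfl⟩
  · haveI : Fintype Γ := Fintype.ofFinite _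
    haveI : Fintype (MulAction.stabilizer Γ x) := Fintype.ofFinite _
    have h1 := MulAction.card_orbit_mul_card_stabilizer_eq_card_group Γ x
    have h2 : Nat.card (MulAction.stabilizer Γ x) =
        Nat.card (Γ ⊓ centralizer ({x} : Set G) : Subgroup G) := by
      refine Nat.card_congr ⟨fun γ => ⟨γ.1.1, γ.1.2, ?_⟩, fun γ => ⟨⟨γ.1, γ.2.1⟩, ?_⟩, ?_, ?_⟩
      · show γ.1.1 ∈ centralizer ({x} : Set G)
        rw [mem_cent]
        have : (γ.1 : Γ) • x = x := γ.2
        rw [hsmul] at this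
        calc γ.1.1 * x = (γ.1.1 * x * γ.1.1⁻¹) * γ.1.1 := by group
          _ = x * γ.1.1 := by rw [this]
      · rw [MulAction.mem_stabilizer_iff, hsmul]
        have := mem_cent.1 γ.2.2
        show γ.1 * x * γ.1⁻¹ = x
        rw [this]
        simp
      · intro γ; rfl
      · intro γ; rfl
    rw [← h2, Set.toFinset_card]
    simp only [Nat.card_eq_fintype_card]
    exact h1.symm

theorem mem_normalizer_of_cj_le [Finite G] {P : Subgroup G} {x : G} (hx : cj x P ≤ P) :
    x ∈ normalizer (P : Set G) := by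
  have h1 : cj x P = P := Subgroup.eq_of_le_of_card_ge hx (by rw [card_cj])
  rw [mem_normalizer_iff]
  intro y
  constructor
  · intro hy
    rw [← h1]
    exact conj_mem_cj hy
  · intro hy
    rw [← h1] at hy
    have := mem_cj.1 hy
    simpa [mul_assoc] using this

theorem conj_mem_of_mem_normalizer {P : Subgroup G} {x y : G} (hx : x ∈ normalizer (P : Set G))
    (hy : y ∈ P) : x * y * x⁻¹ ∈ P := (mem_normalizer_iff.1 hx y).1 hy

/-- Fixed points of an element of order `p` modulo `p`. -/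
theorem card_modEq_fixed [Finite G] (A : Subgroup G) (g : G) {p : ℕ} [hp : Fact p.Prime]
    (hg : g ^ p = 1) (hn : ∀ a ∈ A, g * a * g⁻¹ ∈ A) :
    Nat.card A ≡ Nat.card (A ⊓ centralizer ({g} : Set G) : Subgroup G) [MOD p] := by
  classical
  haveI : Fintype A := Fintype.ofFinite _
  let f : Function.End A := fun a => ⟨g * a * g⁻¹, hn a a.2⟩
  have hpow : ∀ n : ℕ, ∀ a : A, ((f ^ n) a : G) = g ^ n * a * (g ^ n)⁻¹ := by
    intro n
    induction n with
    | zero => intro a; simp; rfl
    | succ n ih =>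
      intro a
      rw [pow_succ']
      show g * ((f ^ n) a : G) * g⁻¹ = _
      rw [ih]
      group
  have hf : f ^ p ^ 1 = 1 := by
    funext a
    apply Subtype.ext
    rw [pow_one, hpow, hg]
    simp
    rfl
  have key := Equiv.Perm.card_fixedPoints_modEq (p := p) (n := 1) hf
  haveI : Fintype (Function.fixedPoints f) := Fintype.ofFinite _
  have e1 : Nat.card (A ⊓ centralizer ({g} : Set G) : Subgroup G) =
      Nat.card (Function.fixedPoints f) := by
    refine Nat.card_congr ⟨fun a => ⟨⟨a.1, a.2.1⟩, ?_⟩, fun a => ⟨a.1.1, a.1.2, ?_⟩, ?_, ?_⟩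
    · show f ⟨a.1, a.2.1⟩ = ⟨a.1, a.2.1⟩
      apply Subtype.ext
      show g * a.1 * g⁻¹ = a.1
      have := mem_cent.1 a.2.2
      rw [← this]
      simp
    · show a.1.1 ∈ centralizer ({g} : Set G)
      rw [mem_cent]
      have : f a.1 = a.1 := a.2
      have h2 : g * (a.1 : G) * g⁻¹ = a.1 := congrArg Subtype.val this
      calc (a.1 : G) * g = (g * (a.1 : G) * g⁻¹) * g := by rw [h2]
        _ = g * a.1 := by group
    · intro a; rfl
    · intro a; rfl
  rw [e1, Nat.card_eq_fintype_card, Nat.card_eq_fintype_card]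
  convert key

/-- A family of lines in a group of order `25`. -/
theorem lines_le_six [Finite G] {P : Subgroup G} (hP : Nat.card P = 25) (S : Finset (Subgroup G))
    (hS : ∀ W ∈ S, W ≤ P ∧ Nat.card W = 5) : S.card ≤ 6 := by
  classical
  haveI : Fintype G := Fintype.ofFinite G
  let A : Subgroup G → Finset G := fun W => (W : Set G).toFinset \ {1}
  have hA : ∀ W ∈ S, (A W).card = 4 := by
    intro W hW
    have h5 := (hS W hW).2
    have h1 : ((W : Set G).toFinset).card = 5 := by
      rw [← h5, Nat.card_eq_fintype_card]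
      rw [Set.toFinset_card]
      rfl
    have h2 : (1 : G) ∈ (W : Set G).toFinset := by simp [W.one_mem]
    have : (A W).card = ((W : Set G).toFinset).card - 1 := by
      simp only [A]
      rw [Finset.card_sdiff_of_subset (by simp [h2])]
      simp
    omega
  have hd : ∀ W ∈ S, ∀ W' ∈ S, W ≠ W' → Disjoint (A W) (A W') := by
    intro W hW W' hW' hne
    rw [Finset.disjoint_left]
    intro x hx hx'
    simp only [A, Finset.mem_sdiff, Set.mem_toFinset, Finset.mem_singleton, SetLike.mem_coe] at hx hx'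
    apply hne
    haveI : Fact (Nat.Prime 5) := ⟨by norm_num⟩
    have hz : ∀ U ∈ S, x ∈ U → U = zpowers x := by
      intro U hU hxU
      have hc : Nat.card U = 5 := (hS U hU).2
      have hle : zpowers x ≤ U := by rw [zpowers_le]; exact hxU
      refine (Subgroup.eq_of_le_of_card_ge hle ?_).symm
      rw [hc]
      have hdvd : Nat.card (zpowers x) ∣ 5 := hc ▸ Subgroup.card_dvd_of_le hle
      rcases (Nat.dvd_prime (by norm_num : Nat.Prime 5)).1 hdvd with h1 | h1
      · exfalso
        have := Nat.card_zpowers x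
        rw [h1] at this
        exact hx.2 (orderOf_eq_one_iff.1 this.symm)
      · omega
    rw [hz W hW hx.1, hz W' hW' hx'.1]
  have hsub : (S.biUnion A) ⊆ (P : Set G).toFinset \ {1} := by
    intro x hx
    obtain ⟨W, hW, hxW⟩ := Finset.mem_biUnion.1 hx
    simp only [A, Finset.mem_sdiff, Set.mem_toFinset, Finset.mem_singleton, SetLike.mem_coe] at hxW ⊢
    exact ⟨(hS W hW).1 hxW.1, hxW.2⟩
  have hcardP : (((P : Set G).toFinset) \ {1}).card = 24 := by
    have h1 : ((P : Set G).toFinset).card = 25 := by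
      rw [← hP, Nat.card_eq_fintype_card, Set.toFinset_card]
      rfl
    have h2 : (1 : G) ∈ (P : Set G).toFinset := by simp [P.one_mem]
    rw [Finset.card_sdiff_of_subset (by simp [h2])]
    simp [h1]
  have h3 := Finset.card_le_card hsub
  rw [hcardP, Finset.card_biUnion hd, Finset.sum_congr rfl hA] at h3
  simp at h3
  omega

/-- Index-two criterion. -/
theorem card_eq_two_mul [Finite G] {A B : Subgroup G} (hBA : B ≤ A) {c : G} (hc : c ∈ A)
    (hcB : c ∉ B) (hcov : ∀ x ∈ A, x ∈ B ∨ c⁻¹ * x ∈ B) : Nat.card A = 2 * Nat.card B := by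
  have hidx : (B.subgroupOf A).index = 2 := by
    rw [Subgroup.index_eq_two_iff]
    refine ⟨⟨c, hc⟩, ?_⟩
    intro x
    simp only [mem_subgroupOf, coe_mul]
    by_cases hx : (x : G) ∈ B
    · right
      refine ⟨hx, fun hxc => hcB ?_⟩
      have := B.mul_mem (B.inv_mem hx) hxc
      simpa using this
    · left
      refine ⟨?_, hx⟩
      rcases hcov (x : G)⁻¹ (A.inv_mem x.2) with h1 | h1
      · exact absurd (by simpa using B.inv_mem h1) hx
      · have := B.inv_mem h1
        simpa using this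
  have := Subgroup.card_mul_index (B.subgroupOf A)
  rw [card_subgroupOf_of_le hBA, hidx] at this
  omega

/-! ### The `5`-part -/

theorem zpowers_eq_of_prime [Finite G] {x y : G} {p : ℕ} (hp : p.Prime) (hy : orderOf y = p)
    (hx : x ∈ zpowers y) (hx1 : x ≠ 1) : zpowers x = zpowers y := by
  have hle : zpowers x ≤ zpowers y := by rw [zpowers_le]; exact hx
  refine Subgroup.eq_of_le_of_card_ge hle ?_
  rw [Nat.card_zpowers, Nat.card_zpowers, hy]
  have h1 : orderOf x ∣ p := hy ▸ orderOf_dvd_of_mem_zpowers hx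
  rcases (Nat.dvd_prime hp).1 h1 with h2 | h2
  · exact absurd (orderOf_eq_one_iff.1 h2) hx1
  · omega

/-- The count `|N_K(P)| = 50` from a surjection `K → A₅` with kernel inside `P`. -/
theorem norm_card_of_hom [Finite G] {K P : Subgroup G} (hPK : P ≤ K) (hcardP : Nat.card P = 25)
    (hK : Nat.card K = 300) (φ : K →* A5) (hφ : Function.Surjective φ)
    (hkerle : φ.ker ≤ P.subgroupOf K) :
    Nat.card (normalizer (P : Set G) ⊓ K : Subgroup G) = 50 := by
  set PK : Subgroup K := P.subgroupOf K with hPKdef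
  have hcardPK : Nat.card PK = 25 := by
    rw [hPKdef, card_subgroupOf_of_le hPK, hcardP]
  set F : Subgroup A5 := PK.map φ with hF
  have hcomap : F.comap φ = PK := by
    rw [hF, Subgroup.comap_map_eq_self]
    exact hkerle
  have hidx : PK.index = F.index := by
    rw [← hcomap, Subgroup.index_comap_of_surjective _ hφ]
  have h1 := Subgroup.card_mul_index PK
  have h2 := Subgroup.card_mul_index F
  rw [hcardPK, hK] at h1
  rw [a5_card] at h2
  have hi : PK.index = 12 := by omega
  have hFc : Nat.card F = 5 := by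
    rw [← hidx, hi] at h2
    omega
  -- the Sylow count in `A₅`
  have hnF : (normalizer ((F : Subgroup A5) : Set A5)).index = 6 := by
    have hc : Nat.card F = 5 ^ (Nat.card A5).factorization 5 := by
      rw [hFc, a5_card]
      have : (60 : ℕ).factorization 5 = 1 := by
        have := factorization_of (p := 5) (a := 1) (m := 12) (by norm_num) (by norm_num)
        simpa using this
      rw [this]; norm_num
    let S : Sylow 5 A5 := Sylow.ofCard F hc
    have h3 : Nat.card (Sylow 5 A5) = (normalizer ((S : Subgroup A5) : Set A5)).index :=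
      S.card_eq_index_normalizer
    have h4 := card_sylow_modEq_one 5 A5
    have h5 : Nat.card (Sylow 5 A5) ∣ (S : Subgroup A5).index := S.card_dvd_index
    have h6 : (S : Subgroup A5).index = 12 := by
      have := Subgroup.card_mul_index (S : Subgroup A5)
      have e : (S : Subgroup A5) = F := rfl
      rw [e, hFc, a5_card] at this
      rw [e]
      omega
    rw [h6] at h5
    have h7 : Nat.card (Sylow 5 A5) = 1 ∨ Nat.card (Sylow 5 A5) = 6 := by
      have h8 : Nat.card (Sylow 5 A5) ≤ 12 := Nat.le_of_dvd (by norm_num) h5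
      unfold Nat.ModEq at h4
      interval_cases (Nat.card (Sylow 5 A5)) <;> omega
    rcases h7 with h7 | h7
    · exfalso
      rw [h7] at h3
      have h8 : normalizer ((F : Subgroup A5) : Set A5) = ⊤ := Subgroup.index_eq_one.1 h3.symm
      have h9 : F.Normal := Subgroup.normalizer_eq_top_iff.1 h8
      rcases (alternatingGroup.isSimpleGroup_five).eq_bot_or_eq_top_of_normal F h9 with e | e
      · rw [e] at hFc
        simp at hFc
      · rw [e] at hFc
        rw [Subgroup.card_top, a5_card] at hFc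
        omega
    · rw [h7] at h3
      exact h3.symm
  have hnPK : normalizer ((PK : Subgroup K) : Set K) = (normalizer ((F : Subgroup A5) : Set A5)).comap φ := by
    rw [← hcomap]
    exact (Subgroup.comap_normalizer_eq_of_surjective F hφ).symm
  have hindex : (normalizer ((PK : Subgroup K) : Set K)).index = 6 := by
    rw [hnPK, Subgroup.index_comap_of_surjective _ hφ, hnF]
  have hcard50 : Nat.card (normalizer ((PK : Subgroup K) : Set K)) = 50 := by
    have := Subgroup.card_mul_index (normalizer ((PK : Subgroup K) : Set K))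
    rw [hindex, hK] at this
    omega
  rw [← hcard50]
  refine Nat.card_congr ⟨fun x => ⟨⟨x.1, x.2.2⟩, ?_⟩, fun x => ⟨x.1.1, ?_, x.1.2⟩, ?_, ?_⟩
  · show (⟨x.1, x.2.2⟩ : K) ∈ normalizer ((PK : Subgroup K) : Set K)
    refine mem_normalizer_iff.2 (fun y => ?_)
    have hx1 := x.2.1
    have := mem_normalizer_iff.1 hx1 y.1
    simp only [hPKdef, mem_subgroupOf]
    exact this
  · apply mem_normalizer_of_cj_le
    intro y hy
    obtain ⟨p, hp, rfl⟩ := hy
    have hpK' : p ∈ K := hPK hp
    have hx := (mem_normalizer_iff.1 x.2 ⟨p, hpK'⟩).1 (by rw [hPKdef, mem_subgroupOf]; exact hp)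
    exact hx
  · intro x; rfl
  · intro x; rfl


theorem cj_mul (a b : G) (W : Subgroup G) : cj (a * b) W = cj a (cj b W) := by
  ext x
  rw [mem_cj, mem_cj, mem_cj]
  have : (a * b)⁻¹ * x * (a * b) = b⁻¹ * (a⁻¹ * x * a) * b := by group
  rw [this]

theorem cj_one (W : Subgroup G) : cj 1 W = W := by
  ext x
  rw [mem_cj]
  simp

theorem cj_inv_cj (a : G) (W : Subgroup G) : cj a⁻¹ (cj a W) = W := by
  rw [← cj_mul, inv_mul_cancel, cj_one]

theorem cj_cj_inv (a : G) (W : Subgroup G) : cj a (cj a⁻¹ W) = W := by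
  rw [← cj_mul, mul_inv_cancel, cj_one]

/-- If no conjugate of `A` is `B`, then conjugates of `A` and `B` differ. -/
theorem cj_ne_of (A B : Subgroup G) (hAB : ∀ c : G, cj c A ≠ B) (a b : G) : cj a A ≠ cj b B := by
  intro e
  apply hAB (b⁻¹ * a)
  rw [cj_mul, e, cj_inv_cj]

theorem card_seven {α : Type*} [DecidableEq α] {a b c d e f g : α} (h1 : a ≠ b) (h2 : a ≠ c)
    (h3 : a ≠ d) (h4 : a ≠ e) (h5 : a ≠ f) (h6 : a ≠ g) (h7 : b ≠ c) (h8 : b ≠ d) (h9 : b ≠ e)
    (h10 : b ≠ f) (h11 : b ≠ g) (h12 : c ≠ d) (h13 : c ≠ e) (h14 : c ≠ f) (h15 : c ≠ g)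
    (h16 : d ≠ e) (h17 : d ≠ f) (h18 : d ≠ g) (h19 : e ≠ f) (h20 : e ≠ g) (h21 : f ≠ g) :
    ({a, b, c, d, e, f, g} : Finset α).card = 7 := by
  simp [Finset.card_insert_of_notMem, *]

/-- A subset of `P \ {1}` for `|P| = 25`. -/
theorem card_le_24 [Finite G] {P : Subgroup G} (hP : Nat.card P = 25) (S : Finset G)
    (hS : ∀ x ∈ S, x ∈ P ∧ x ≠ 1) : S.card ≤ 24 := by
  classical
  haveI : Fintype G := Fintype.ofFinite G
  have hsub : S ⊆ (P : Set G).toFinset \ {1} := by
    intro x hx
    simp only [Finset.mem_sdiff, Set.mem_toFinset, Finset.mem_singleton, SetLike.mem_coe]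
    exact hS x hx
  have hcardP : (((P : Set G).toFinset) \ {1}).card = 24 := by
    have h1 : ((P : Set G).toFinset).card = 25 := by
      rw [← hP, Nat.card_eq_fintype_card, Set.toFinset_card]
      rfl
    have h2 : (1 : G) ∈ (P : Set G).toFinset := by simp [P.one_mem]
    rw [Finset.card_sdiff_of_subset (by simp)]
    simp [h1]
  have h3 := Finset.card_le_card hsub
  omega

/-- Structure of a group with a self-centralizing involution. -/
theorem invol_struct {X : Type*} [Group X] [Finite X] (τ : X) (hτ : τ * τ = 1) (hτ1 : τ ≠ 1)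
    (hC : ∀ x : X, x * τ = τ * x → x = 1 ∨ x = τ) :
    ∃ K : Subgroup X, K.Normal ∧ Nat.card K * 2 = Nat.card X ∧ ¬ 2 ∣ Nat.card K ∧
      (∀ x ∈ K, ∀ y ∈ K, x * y = y * x) ∧ (∀ x : X, Odd (orderOf x) → x ∈ K) := by
  have hpg : IsPGroup 2 (zpowers τ) :=
    isPGroup_zpowers_of_pow (n := 1) (by rw [pow_one, pow_two]; exact hτ)
  obtain ⟨S, hS⟩ := hpg.exists_le_sylow
  have hτS : τ ∈ S := hS (mem_zpowers τ)
  -- `τ` is central in `S`
  have hcen : ∀ s ∈ (S : Subgroup X), s * τ = τ * s := by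
    haveI : Nontrivial S := ⟨⟨⟨τ, hτS⟩, 1, fun e => hτ1 (congrArg Subtype.val e)⟩⟩
    have hnt := S.isPGroup'.center_nontrivial
    obtain ⟨c, hc⟩ := exists_ne (1 : Subgroup.center S)
    have hcτ := (Subgroup.mem_center_iff.1 c.2) ⟨τ, hτS⟩
    have hcτ' : τ * (c : S) = (c : S) * τ := congrArg Subtype.val hcτ
    have hc1 : ((c : S) : X) ≠ 1 := by
      intro e
      apply hc
      apply Subtype.ext
      apply Subtype.ext
      exact e
    have hcτ2 : ((c : S) : X) = τ := (hC _ hcτ'.symm).resolve_left hc1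
    intro s hs
    have := (Subgroup.mem_center_iff.1 c.2) ⟨s, hs⟩
    have h3 : s * ((c : S) : X) = ((c : S) : X) * s := congrArg Subtype.val this
    rw [hcτ2] at h3
    exact h3
  have hSmem : ∀ s ∈ (S : Subgroup X), s = 1 ∨ s = τ := fun s hs => hC s (hcen s hs)
  have hN : normalizer ((S : Subgroup X) : Set X) ≤ centralizer ((S : Subgroup X) : Set X) := by
    intro n hn
    rw [Subgroup.mem_centralizer_iff]
    intro s hs
    have hnτ : n * τ * n⁻¹ ∈ (S : Subgroup X) := (mem_normalizer_iff.1 hn τ).1 hτS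
    have hnτ' : n * τ * n⁻¹ = τ := by
      rcases hSmem _ hnτ with e | e
      · exfalso
        apply hτ1
        have : n * τ = n := by
          have := congrArg (· * n) e
          simpa using this
        simpa using this
      · exact e
    have hnc : n * τ = τ * n := by
      have := congrArg (· * n) hnτ'
      simpa using this
    rcases hSmem s hs with rfl | rfl
    · simp
    · exact hnc.symm
  have hcomp := MonoidHom.ker_transferSylow_isComplement' S hN
  set K := (MonoidHom.transferSylow S hN).ker with hK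
  have hKn : K.Normal := MonoidHom.normal_ker _
  have hcardS : Nat.card S = 2 := by
    have hle : Nat.card S ≤ 2 := by
      classical
      have : Nat.card S = Nat.card ((S : Subgroup X) : Set X) := rfl
      rw [this, Nat.card_coe_set_eq]
      have h2 : ((S : Subgroup X) : Set X) ⊆ (({1, τ} : Finset X) : Set X) := by
        intro s hs
        simpa using hSmem s hs
      calc _ ≤ (({1, τ} : Finset X) : Set X).ncard := Set.ncard_le_ncard h2 (Finset.finite_toSet _)
        _ = _ := Set.ncard_coe_finset _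
        _ ≤ 2 := Finset.card_le_two
    have h2 : 2 ∣ Nat.card S := by
      have h5 : Nat.card (zpowers τ) = 2 := by
        rw [Nat.card_zpowers]
        exact orderOf_eq_prime (by rw [pow_two]; exact hτ) hτ1
      have := Subgroup.card_dvd_of_le hS
      rwa [h5] at this
    have hpos : 0 < Nat.card S := Nat.card_pos
    have := Nat.le_of_dvd hpos h2
    omega
  have hcardK : Nat.card K * 2 = Nat.card X := by
    have := hcomp.card_mul_card
    rwa [hcardS] at this
  have hτK : τ ∉ K := by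
    intro hk
    have hdis := hcomp.disjoint
    have := Subgroup.disjoint_def.1 hdis hk hτS
    exact hτ1 this
  have hodd : ¬ 2 ∣ Nat.card K := by
    intro hd
    have h2 := S.not_dvd_index
    apply h2
    have := Subgroup.card_mul_index (S : Subgroup X)
    have h3 : (S : Subgroup X).index = Nat.card K := by
      rw [hcardS] at this
      omega
    rw [h3]
    exact hd
  -- the automorphism of `K`
  let φ : K →* K :=
    { toFun := fun x => ⟨τ * x * τ⁻¹, hKn.conj_mem _ x.2 τ⟩
      map_one' := by apply Subtype.ext; simp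
      map_mul' := by
        intro x y
        apply Subtype.ext
        show τ * (x * y) * τ⁻¹ = (τ * x * τ⁻¹) * (τ * y * τ⁻¹)
        group }
  have hφf : MonoidHom.FixedPointFree φ := by
    intro x hx
    have h1 : τ * (x : X) * τ⁻¹ = x := congrArg Subtype.val hx
    have h2 : (x : X) * τ = τ * x := by
      have := congrArg (· * τ) h1
      simpa using this.symm
    rcases hC _ h2 with e | e
    · exact Subtype.ext e
    · exact absurd (e ▸ x.2) hτK
  have hτinv : τ⁻¹ = τ := inv_eq_of_mul_eq_one_left hτ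
  have hφ2 : φ^[2] = _root_.id := by
    funext x
    apply Subtype.ext
    show τ * (τ * x * τ⁻¹) * τ⁻¹ = x
    rw [hτinv]
    calc τ * (τ * (x : X) * τ) * τ = (τ * τ) * x * (τ * τ) := by group
      _ = x := by rw [hτ]; simp
  have hφinv := hφf.coe_eq_inv_of_sq_eq_one hφ2
  refine ⟨K, hKn, hcardK, hodd, ?_, ?_⟩
  · intro x hx y hy
    have e1 : φ (⟨x, hx⟩ * ⟨y, hy⟩) = (⟨x, hx⟩ * ⟨y, hy⟩ : K)⁻¹ := congrFun hφinv _
    have e2 : φ ⟨x, hx⟩ = (⟨x, hx⟩ : K)⁻¹ := congrFun hφinv _
    have e3 : φ ⟨y, hy⟩ = (⟨y, hy⟩ : K)⁻¹ := congrFun hφinv _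
    rw [map_mul, e2, e3, mul_inv_rev] at e1
    have e4 : x⁻¹ * y⁻¹ = y⁻¹ * x⁻¹ := congrArg Subtype.val e1
    have e5 := congrArg (·⁻¹) e4
    simpa using e5.symm
  · intro x hx
    let π : X →* X ⧸ K := QuotientGroup.mk' K
    have hc : Nat.card (X ⧸ K) = 2 := by
      have := Subgroup.card_eq_card_quotient_mul_card_subgroup K
      rw [← hcardK] at this
      have hpos : 0 < Nat.card K := Nat.card_pos
      nlinarith
    have h1 : (π x) ^ 2 = 1 := by
      rw [← hc]; exact pow_card_eq_one'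
    have h2 : (π x) ^ orderOf x = 1 := by
      rw [← map_pow, pow_orderOf_eq_one, map_one]
    have h3 : orderOf (π x) ∣ Nat.gcd 2 (orderOf x) :=
      Nat.dvd_gcd (orderOf_dvd_of_pow_eq_one h1) (orderOf_dvd_of_pow_eq_one h2)
    have h4 : Nat.gcd 2 (orderOf x) = 1 := Nat.coprime_two_left.2 hx
    rw [h4] at h3
    have h5 : π x = 1 := orderOf_eq_one_iff.1 (Nat.dvd_one.1 h3)
    simpa [π, QuotientGroup.eq_one_iff] using h5

/-- Self-centralizing involution modulo a central subgroup of order `5`. -/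
theorem quot_inv_struct [Finite G] {z w : G} (hz : z * z = 1) (hz1 : z ≠ 1) (hw : orderOf w = 5)
    (hzw : z * w = w * z)
    (hC : Nat.card (centralizer ({z} : Set G) ⊓ centralizer ({w} : Set G) : Subgroup G) = 10) :
    ∃ k : ℕ, Nat.card (centralizer ({w} : Set G)) = 10 * k ∧ ¬ 2 ∣ k ∧
      ∀ a ∈ centralizer ({w} : Set G), ∀ b ∈ centralizer ({w} : Set G),
        Odd (orderOf a) → Odd (orderOf b) → a * b * a⁻¹ * b⁻¹ ∈ zpowers w := by
  set H := centralizer ({w} : Set G) with hH
  set N : Subgroup H := (zpowers w).subgroupOf H with hN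
  have hNn : N.Normal := Pk.normal_zpowers
  have hodd : Odd (orderOf w) := by rw [hw]; decide
  have hwH : w ∈ H := mem_cent.2 rfl
  have hzH0 : zpowers w ≤ H := by rw [zpowers_le]; exact hwH
  have hcardN : Nat.card N = 5 := by
    rw [hN, card_subgroupOf_of_le hzH0, Nat.card_zpowers, hw]
  have hcard : Nat.card H = Nat.card (H ⧸ N) * 5 := by
    rw [← hcardN]; exact Subgroup.card_eq_card_quotient_mul_card_subgroup N
  have hzH : z ∈ H := mem_cent.2 hzw
  let z' : H := ⟨z, hzH⟩
  let π : H →* H ⧸ N := QuotientGroup.mk' N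
  have hπ1 : ∀ x : H, π x = 1 ↔ (x : G) ∈ zpowers w := by
    intro x
    rw [QuotientGroup.mk'_apply, QuotientGroup.eq_one_iff, hN, mem_subgroupOf]
  have hcomm : (∀ x : H, ∀ n : G, n ∈ zpowers w → (x : G) * n = n * x) := fun x n hn =>
    comm_of_mem_zpowers hn (mem_cent.1 x.2)
  have hτ : π z' * π z' = 1 := by
    rw [← map_mul, hπ1]
    show z * z ∈ _
    rw [hz]; exact one_mem _
  have hτ1 : π z' ≠ 1 := by
    intro e
    exact hz1 (orderOf_odd_of_mem ((hπ1 z').1 e) hodd hz)
  -- the centralizer of `z` in `C(w)`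
  have hco : Nat.Coprime (orderOf z) (orderOf w) := by
    rw [hw, orderOf_eq_prime (by rw [pow_two]; exact hz) hz1]; norm_num
  have hord : orderOf (z * w) = 10 := by
    rw [(show Commute z w from hzw).orderOf_mul_eq_mul_orderOf_of_coprime hco, hw,
      orderOf_eq_prime (by rw [pow_two]; exact hz) hz1]
  have hzC : zpowers (z * w) = centralizer ({z} : Set G) ⊓ centralizer ({w} : Set G) := by
    apply Subgroup.eq_of_le_of_card_ge
    · rw [zpowers_le]
      refine ⟨?_, ?_⟩
      · show z * w ∈ centralizer ({z} : Set G)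
        rw [mem_cent, mul_assoc, ← hzw]
      · show z * w ∈ centralizer ({w} : Set G)
        rw [mem_cent, hzw, mul_assoc, hzw]
    · rw [hC, Nat.card_zpowers, hord]
  have hCτ : ∀ x : H ⧸ N, x * π z' = π z' * x → x = 1 ∨ x = π z' := by
    intro X hX
    obtain ⟨x, rfl⟩ := QuotientGroup.mk'_surjective N X
    rw [← map_mul, ← map_mul] at hX
    have h1 : ((x * z' : H) : G)⁻¹ * ((z' * x : H) : G) ∈ zpowers w := by
      have := (QuotientGroup.eq (s := N) (a := x * z') (b := z' * x)).1 hX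
      rw [hN, mem_subgroupOf] at this
      simpa using this
    set n : G := ((x * z' : H) : G)⁻¹ * ((z' * x : H) : G) with hn
    have hnt : z * n = n * z := (hcomm z' n h1)
    have hx' : z * (x : G) = x * z * n := by
      rw [hn]
      show z * (x : G) = (x : G) * z * (((x : G) * z)⁻¹ * (z * x))
      group
    have hnn : n * n = 1 := by
      have e1 : (x : G)⁻¹ * z * x = z * n := by
        rw [mul_assoc, hx']; group
      have e2 : ((x : G)⁻¹ * z * x) * ((x : G)⁻¹ * z * x) = 1 := by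
        have : ((x : G)⁻¹ * z * x) * ((x : G)⁻¹ * z * x) = (x : G)⁻¹ * (z * z) * x := by
          group
        rw [this, hz]; group
      rw [e1] at e2
      have e3 : z * n * (z * n) = n * n := by
        rw [mul_assoc, ← mul_assoc n, ← hnt, mul_assoc, ← mul_assoc, hz, one_mul]
      rwa [e3] at e2
    have hn1 : n = 1 := orderOf_odd_of_mem h1 hodd hnn
    rw [hn1, mul_one] at hx'
    have hxC : (x : G) ∈ centralizer ({z} : Set G) ⊓ centralizer ({w} : Set G) :=
      ⟨mem_cent.2 hx'.symm, x.2⟩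
    rw [← hzC] at hxC
    obtain ⟨k, hk⟩ := mem_zpowers_iff.1 hxC
    have hzwH : z * w ∈ H := H.mul_mem hzH hwH
    have hπzw : π ⟨z * w, hzwH⟩ = π z' := by
      have : (⟨z * w, hzwH⟩ : H) = z' * ⟨w, hwH⟩ := rfl
      rw [this, map_mul, (hπ1 ⟨w, hwH⟩).2 (mem_zpowers w), mul_one]
    have hxe : x = (⟨z * w, hzwH⟩ : H) ^ k := by
      apply Subtype.ext
      rw [← hk]
      simp
    rw [hxe, map_zpow, hπzw]
    rcases Int.even_or_odd' k with ⟨m, rfl | rfl⟩
    · left
      rw [zpow_mul, zpow_two, hτ, one_zpow]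
    · right
      rw [zpow_add, zpow_mul, zpow_two, hτ, one_zpow, one_mul, zpow_one]
  obtain ⟨K, hKn, hKc, hK2, hKcomm, hKodd⟩ := invol_struct (π z') hτ hτ1 hCτ
  refine ⟨Nat.card K, ?_, hK2, ?_⟩
  · rw [hcard, ← hKc]; ring
  · intro a ha b hb hao hbo
    have hmem : ∀ c : H, Odd (orderOf (c : G)) → π c ∈ K := by
      intro c hc
      apply hKodd
      have h1 : orderOf (π c) ∣ orderOf c := orderOf_map_dvd π c
      rw [Subgroup.orderOf_coe] at hc
      exact Odd.of_dvd_nat hc h1
    have h3 := hKcomm _ (hmem ⟨a, ha⟩ hao) _ (hmem ⟨b, hb⟩ hbo)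
    have h4 : π (⟨a, ha⟩ * ⟨b, hb⟩ * (⟨a, ha⟩)⁻¹ * (⟨b, hb⟩)⁻¹) = 1 := by
      rw [map_mul, map_mul, map_mul, map_inv, map_inv, h3]
      group
    have := (hπ1 _).1 h4
    simpa using this

/-- Iterated commutators with a central commutator. -/
theorem comm_of_pow_coprime {x p n : G} {r : ℕ} (hn : x * p * x⁻¹ * p⁻¹ = n) (hxn : x * n = n * x)
    (hxr : x ^ r = 1) (hn5 : n ^ 5 = 1) (hr : Nat.Coprime r 5) : x * p = p * x := by
  have hxp : x * p = n * p * x := by rw [← hn]; group
  have key : ∀ j : ℕ, x ^ j * p = n ^ j * p * x ^ j := by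
    intro j
    induction j with
    | zero => simp
    | succ j ih =>
      have hc : Commute x (n ^ j) := (show Commute x n from hxn).pow_right j
      calc x ^ (j + 1) * p = x * (x ^ j * p) := by rw [pow_succ']; group
        _ = x * (n ^ j * p * x ^ j) := by rw [ih]
        _ = n ^ j * (x * p) * x ^ j := by
          rw [← mul_assoc, ← mul_assoc, hc.eq]; group
        _ = n ^ j * (n * p * x) * x ^ j := by rw [hxp]
        _ = n ^ (j + 1) * p * x ^ (j + 1) := by
          rw [pow_succ, pow_succ']; group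
  have h1 := key r
  rw [hxr] at h1
  simp only [one_mul, mul_one] at h1
  have h2 : n ^ r = 1 := by
    have := mul_right_cancel (a := n ^ r) (b := p) (c := 1) (by rw [← h1]; simp)
    exact this
  have h3 : orderOf n ∣ Nat.gcd r 5 :=
    Nat.dvd_gcd (orderOf_dvd_of_pow_eq_one h2) (orderOf_dvd_of_pow_eq_one hn5)
  rw [hr] at h3
  have h4 : n = 1 := orderOf_eq_one_iff.1 (Nat.dvd_one.1 h3)
  rw [hxp, h4]
  simp

namespace Pk

variable [Finite G] (h : Pkg G)

/-- An element of order `5` in `T1`. -/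
structure IsF (f : G) : Prop where
  mem : f ∈ h.T1
  pow : f ^ 5 = 1
  ne : f ≠ 1

variable {h}

theorem card_P5 (h : Pkg G) (P : Sylow 5 G) : Nat.card P = 25 := by
  have := card_sylow_of (a := 2) (m := 24192) (by rw [h.card_G]; norm_num) (by norm_num) P
  simpa using this

theorem comm_P5 (h : Pkg G) (P : Sylow 5 G) {x y : G} (hx : x ∈ P) (hy : y ∈ P) : x * y = y * x := by
  have h1 : Nat.card P = 5 ^ 2 := by rw [card_P5 h]; norm_num
  have := IsPGroup.commutative_of_card_eq_prime_sq h1 ⟨x, hx⟩ ⟨y, hy⟩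
  exact congrArg Subtype.val this

theorem pow25_P5 (h : Pkg G) (P : Sylow 5 G) {x : G} (hx : x ∈ P) : x ^ 25 = 1 := by
  have h1 : (⟨x, hx⟩ : P) ^ 25 = 1 := by
    rw [← card_P5 h P]; exact pow_card_eq_one'
  exact congrArg Subtype.val h1

namespace IsF

variable {f : G} (hf : IsF h f)
include hf

theorem order : orderOf f = 5 := orderOf_eq_prime hf.pow hf.ne

theorem odd : Odd (orderOf f) := by rw [hf.order]; decide

theorem pgroup : IsPGroup 5 (zpowers f) :=
  isPGroup_zpowers_of_pow (n := 1) (by rw [pow_one]; exact hf.pow)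

theorem exists_sylow : ∃ P : Sylow 5 G, f ∈ P := by
  obtain ⟨Q, hQ⟩ := hf.pgroup.exists_le_sylow
  exact ⟨Q, hQ (mem_zpowers f)⟩

theorem le_cent {P : Sylow 5 G} (hfP : f ∈ P) : (P : Subgroup G) ≤ centralizer ({f} : Set G) := by
  intro x hx
  rw [mem_cent]
  exact comm_P5 h P hx hfP

theorem card_and : Nat.card (centralizer ({f} : Set G)) = 300 ∧
    ∃ φ : centralizer ({f} : Set G) →* A5, Function.Surjective φ ∧
      φ.ker = (zpowers f).subgroupOf (centralizer ({f} : Set G)) := by
  have hcent : ∀ x ∈ h.T1, f * x = x * f → x ∈ zpowers f := fun x hx hc =>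
    T1_cent5 h hf.mem hx hf.pow hf.ne hc
  rcases quot_cases h hf.mem hf.odd hcent with e | ⟨e, φ⟩
  · exfalso
    obtain ⟨P, hP⟩ := hf.exists_sylow
    have := Subgroup.card_dvd_of_le (hf.le_cent hP)
    rw [card_P5 h, e, hf.order] at this
    omega
  · refine ⟨by rw [e, hf.order], φ⟩

theorem card : Nat.card (centralizer ({f} : Set G)) = 300 := hf.card_and.1

/-- `C(P) = P`. -/
theorem cent_P {P : Sylow 5 G} (hfP : f ∈ P) :
    centralizer ((P : Subgroup G) : Set G) = P := by
  obtain ⟨-, φ, hφ, hker⟩ := hf.card_and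
  apply le_antisymm
  · intro c hc
    have hcf : c ∈ centralizer ({f} : Set G) := by
      rw [mem_cent]
      exact ((Subgroup.mem_centralizer_iff.1 hc) f hfP).symm
    have hzP : zpowers f ≤ (P : Subgroup G) := by rw [zpowers_le]; exact hfP
    -- pick an element of `P` outside `⟨f⟩`
    have hex : ∃ p ∈ (P : Subgroup G), p ∉ zpowers f := by
      by_contra hno
      push Not at hno
      have hle : (P : Subgroup G) ≤ zpowers f := hno
      have := Subgroup.card_le_of_le hle
      rw [card_P5 h, Nat.card_zpowers, hf.order] at this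
      omega
    obtain ⟨p, hp, hpf⟩ := hex
    have hpK : p ∈ centralizer ({f} : Set G) := hf.le_cent hfP hp
    set α := φ ⟨p, hpK⟩ with hα
    have hα25 : α ^ 25 = 1 := by
      rw [hα, ← map_pow]
      have : (⟨p, hpK⟩ : centralizer ({f} : Set G)) ^ 25 = 1 :=
        Subtype.ext (by simpa using pow25_P5 h P hp)
      rw [this, map_one]
    have hα5 : α ^ 5 = 1 := a5_pow25 α hα25
    have hα1 : α ≠ 1 := by
      intro e
      have : (⟨p, hpK⟩ : centralizer ({f} : Set G)) ∈ φ.ker := e
      rw [hker, mem_subgroupOf] at this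
      exact hpf this
    have hcom : α * φ ⟨c, hcf⟩ = φ ⟨c, hcf⟩ * α := by
      rw [hα, ← map_mul, ← map_mul]
      congr 1
      exact Subtype.ext ((Subgroup.mem_centralizer_iff.1 hc) p hp)
    have key := a5_cent5 α (φ ⟨c, hcf⟩) hα5 hα1 hcom
    have aux : ∀ n : ℕ, φ ⟨c, hcf⟩ = α ^ n → c ∈ (P : Subgroup G) := by
      intro n e
      have e2 : φ (⟨c, hcf⟩ * (⟨p, hpK⟩ ^ n)⁻¹) = 1 := by
        rw [map_mul, map_inv, map_pow, e, ← hα, mul_inv_cancel]
      have e3 : (⟨c, hcf⟩ * (⟨p, hpK⟩ ^ n)⁻¹ : centralizer ({f} : Set G)) ∈ φ.ker := e2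
      rw [hker, mem_subgroupOf] at e3
      have e4 : c * (p ^ n)⁻¹ ∈ (P : Subgroup G) := by
        have := hzP e3
        simpa using this
      have e5 := (P : Subgroup G).mul_mem e4 ((P : Subgroup G).pow_mem hp n)
      simpa using e5
    rcases key with e | e | e | e | e
    · exact aux 0 (by simpa using e)
    · exact aux 1 (by simpa using e)
    · exact aux 2 e
    · exact aux 3 e
    · exact aux 4 e
  · intro x hx
    rw [Subgroup.mem_centralizer_iff]
    intro y hy
    exact comm_P5 h P hy hx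

/-- `|N_K(P)| = 50`. -/
theorem card_norm_cent {P : Sylow 5 G} (hfP : f ∈ P) :
    Nat.card (normalizer ((P : Subgroup G) : Set G) ⊓ centralizer ({f} : Set G) : Subgroup G) = 50 := by
  obtain ⟨hK, φ, hφ, hker⟩ := hf.card_and
  have hzP : zpowers f ≤ (P : Subgroup G) := by rw [zpowers_le]; exact hfP
  refine norm_card_of_hom (hf.le_cent hfP) (card_P5 h P) hK φ hφ ?_
  rw [hker]
  intro x hx
  rw [mem_subgroupOf] at hx ⊢
  exact hzP hx

/-- Powers of elements of order `5`. -/
theorem comm_of_comm_pow4 {x : G} (hx : x * f ^ 4 = f ^ 4 * x) : x * f = f * x := by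
  have e : f = (f ^ 4) ^ 4 := by
    rw [← pow_mul]
    have : f ^ (4 * 4) = (f ^ 5) ^ 3 * f := by rw [← pow_mul, ← pow_succ]
    rw [this, hf.pow]
    simp
  have hc : Commute x (f ^ 4) := hx
  have := hc.pow_right 4
  rw [← e] at this
  exact this

/-- An element normalizing `P` and inverting `f`. -/
theorem exists_invert {P : Sylow 5 G} (hfP : f ∈ P) :
    ∃ c₀ ∈ normalizer ((P : Subgroup G) : Set G), c₀ * f * c₀⁻¹ = f ^ 4 := by
  obtain ⟨c, hc, hcf⟩ := T1_inv5 h hf.mem hf.pow
  have hle : cj c (P : Subgroup G) ≤ centralizer ({f} : Set G) := by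
    intro y hy
    obtain ⟨p, hp, rfl⟩ := hy
    rw [mem_cent]
    apply hf.comm_of_comm_pow4
    have hpf := mem_cent.1 (hf.le_cent hfP hp)
    show (c * p * c⁻¹) * f ^ 4 = f ^ 4 * (c * p * c⁻¹)
    rw [← hcf]
    calc c * p * c⁻¹ * (c * f * c⁻¹) = c * (p * f) * c⁻¹ := by group
      _ = c * (f * p) * c⁻¹ := by rw [hpf]
      _ = c * f * c⁻¹ * (c * p * c⁻¹) := by group
  have hpg : IsPGroup 5 (cj c (P : Subgroup G)) := P.isPGroup'.map _
  obtain ⟨k, hk, hkx⟩ := exists_conj_le (p := 5) (a := 2) (m := 12) (hf.le_cent hfP) hle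
    (by rw [card_P5 h]; norm_num) (by rw [hf.card]; norm_num) (by norm_num) hpg
  refine ⟨k * c, ?_, ?_⟩
  · apply mem_normalizer_of_cj_le
    intro y hy
    obtain ⟨p, hp, rfl⟩ := hy
    have := hkx (c * p * c⁻¹) (conj_mem_cj hp)
    have e : (MulAut.conj (k * c)).toMonoidHom p = k * (c * p * c⁻¹) * k⁻¹ := by
      show (k * c) * p * (k * c)⁻¹ = _
      group
    rw [e]
    exact this
  · have hkf := mem_cent.1 hk
    calc k * c * f * (k * c)⁻¹ = k * (c * f * c⁻¹) * k⁻¹ := by group
      _ = k * f ^ 4 * k⁻¹ := by rw [hcf]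
      _ = f ^ 4 := by
        have : Commute k (f ^ 4) := (show Commute k f from hkf).pow_right 4
        rw [this.eq]
        simp

/-- No element maps `f` to `f²` or `f³`. -/
theorem no_fuse (g : G) : g * f * g⁻¹ ≠ f ^ 2 ∧ g * f * g⁻¹ ≠ f ^ 3 := by
  have hK := hf.card
  have htK : h.t ∈ centralizer ({f} : Set G) := mem_cent.2 (h.t_comm f hf.mem)
  have ht₂K : h.t₂ ∈ centralizer ({f} : Set G) := mem_cent.2 (h.t₂_comm f hf.mem)
  have hVK : V h ≤ centralizer ({f} : Set G) := by
    rintro x (rfl | rfl | rfl | rfl)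
    · exact one_mem _
    · exact htK
    · exact ht₂K
    · exact mul_mem htK ht₂K
  have aux : ∀ (e e' : ℕ), (f ^ e) ^ e' = f → g * f * g⁻¹ = f ^ e → (∀ c ∈ h.T1, c * f * c⁻¹ ≠ f ^ e) → False := by
    intro e e' hee hg hno
    have hle : cj g (V h) ≤ centralizer ({f} : Set G) := by
      intro y hy
      obtain ⟨v, hv, rfl⟩ := hy
      rw [mem_cent]
      have hvf := mem_cent.1 (hVK hv)
      have h1 : (g * v * g⁻¹) * (g * f * g⁻¹) = (g * f * g⁻¹) * (g * v * g⁻¹) := by
        calc (g * v * g⁻¹) * (g * f * g⁻¹) = g * (v * f) * g⁻¹ := by group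
          _ = g * (f * v) * g⁻¹ := by rw [hvf]
          _ = _ := by group
      rw [hg] at h1
      have hc : Commute (g * v * g⁻¹) (f ^ e) := h1
      have := hc.pow_right e'
      rw [hee] at this
      exact this
    have hpg : IsPGroup 2 (cj g (V h)) := by
      refine IsPGroup.map ?_ _
      exact IsPGroup.of_card (n := 2) (by rw [card_V]; norm_num)
    obtain ⟨k, hk, hkx⟩ := exists_conj_le (p := 2) (a := 2) (m := 75) hVK hle
      (by rw [card_V]; norm_num) (by rw [hK]; norm_num) (by norm_num) hpg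
    set x := k * g with hx
    have hxv : ∀ v ∈ V h, x * v * x⁻¹ ∈ V h := by
      intro v hv
      have := hkx (g * v * g⁻¹) (conj_mem_cj hv)
      have e2 : x * v * x⁻¹ = k * (g * v * g⁻¹) * k⁻¹ := by rw [hx]; group
      rw [e2]; exact this
    have hne : ∀ v : G, v ≠ 1 → x * v * x⁻¹ ≠ 1 := by
      intro v hv e2
      apply hv
      have : x * v = x := by
        have := congrArg (· * x) e2
        simpa using this
      simpa using this
    have hsmall : ∀ v ∈ V h, v ≠ 1 → x * v * x⁻¹ ∈ ({h.t, h.t₂, h.t * h.t₂} : Set G) := by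
      intro v hv hv1
      rcases hxv v hv with e2 | e2 | e2 | e2
      · exact absurd e2 (hne v hv1)
      · left; exact e2
      · right; left; exact e2
      · right; right; exact e2
    have h1 := hsmall h.t (Or.inr (Or.inl rfl)) h.t_ne
    have h2 := hsmall h.t₂ (Or.inr (Or.inr (Or.inl rfl))) h.t₂_ne
    obtain ⟨i, u, hu, hxu⟩ := h.mem_NV x h1 h2
    -- action on `f`
    have hxf : x * f * x⁻¹ = f ^ e := by
      have hkf := mem_cent.1 hk
      calc x * f * x⁻¹ = k * (g * f * g⁻¹) * k⁻¹ := by rw [hx]; group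
        _ = k * f ^ e * k⁻¹ := by rw [hg]
        _ = f ^ e := by
          have : Commute k (f ^ e) := (show Commute k f from hkf).pow_right e
          rw [this.eq]
          simp
    set w := u * f * u⁻¹ with hw
    have hwT : w ∈ h.T1 := h.T1.mul_mem (h.T1.mul_mem hu hf.mem) (h.T1.inv_mem hu)
    have hy : ∀ i : ℕ, h.y' ^ i * w = w * h.y' ^ i := fun i =>
      ((show Commute h.y' w from h.y'_comm w hwT).pow_left i)
    have ht' := h.t_comm w hwT
    have ht₂' := h.t₂_comm w hwT
    have hconj : ∀ a : G, a * w = w * a → a * w * a⁻¹ = w := fun a ha => by rw [ha]; group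
    have hfinal : x * f * x⁻¹ = w := by
      rcases hxu with e2 | e2 | e2 | e2
      · rw [e2]
        calc h.y' ^ i * u * f * (h.y' ^ i * u)⁻¹ = h.y' ^ i * w * (h.y' ^ i)⁻¹ := by rw [hw]; group
          _ = w := by rw [hconj _ (hy i)]
      · rw [e2]
        calc h.y' ^ i * (h.t * u) * f * (h.y' ^ i * (h.t * u))⁻¹
            = h.y' ^ i * (h.t * w * h.t⁻¹) * (h.y' ^ i)⁻¹ := by rw [hw]; group
          _ = w := by rw [hconj _ ht', hconj _ (hy i)]
      · rw [e2]
        calc h.y' ^ i * (h.t₂ * u) * f * (h.y' ^ i * (h.t₂ * u))⁻¹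
            = h.y' ^ i * (h.t₂ * w * h.t₂⁻¹) * (h.y' ^ i)⁻¹ := by rw [hw]; group
          _ = w := by rw [hconj _ ht₂', hconj _ (hy i)]
      · rw [e2]
        calc h.y' ^ i * (h.t * h.t₂ * u) * f * (h.y' ^ i * (h.t * h.t₂ * u))⁻¹
            = h.y' ^ i * (h.t * (h.t₂ * w * h.t₂⁻¹) * h.t⁻¹) * (h.y' ^ i)⁻¹ := by rw [hw]; group
          _ = w := by rw [hconj _ ht₂', hconj _ ht', hconj _ (hy i)]
    exact hno u hu (by rw [← hw, ← hfinal, hxf])
  constructor
  · intro e
    refine aux 2 3 ?_ e (fun c hc => (T1_no h hf.mem hc hf.pow hf.ne).1)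
    have : (f ^ 2) ^ 3 = f ^ 5 * f := by rw [← pow_mul, ← pow_succ]
    rw [this, hf.pow, one_mul]
  · intro e
    refine aux 3 2 ?_ e (fun c hc => (T1_no h hf.mem hc hf.pow hf.ne).2)
    have : (f ^ 3) ^ 2 = f ^ 5 * f := by rw [← pow_mul, ← pow_succ]
    rw [this, hf.pow, one_mul]

/-- `|N(P)| = 300`. -/
theorem card_norm {P : Sylow 5 G} (hfP : f ∈ P) :
    Nat.card (normalizer ((P : Subgroup G) : Set G)) = 300 := by
  classical
  obtain ⟨O, hO, hcard⟩ := exists_orbit_finset (normalizer ((P : Subgroup G) : Set G)) f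
  rw [hf.card_norm_cent hfP] at hcard
  have hOP : ∀ y ∈ O, y ∈ (P : Subgroup G) ∧ y ≠ 1 := by
    intro y hy
    obtain ⟨γ, hγ, rfl⟩ := (hO y).1 hy
    refine ⟨conj_mem_of_mem_normalizer hγ hfP, ?_⟩
    intro e
    apply hf.ne
    have : γ * f = γ := by
      have := congrArg (· * γ) e
      simpa using this
    simpa using this
  have hinj : Set.InjOn (fun x : G => x ^ 2) (O : Set G) := by
    intro x hx y hy e
    have e' : x ^ 2 = y ^ 2 := e
    have hrec : ∀ u ∈ (P : Subgroup G), (u ^ 2) ^ 13 = u := by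
      intro u hu
      have : (u ^ 2) ^ 13 = u ^ 25 * u := by rw [← pow_mul, ← pow_succ]
      rw [this, pow25_P5 h P hu, one_mul]
    rw [← hrec x (hOP x hx).1, e', hrec y (hOP y hy).1]
  set O₂ := O.image (fun x : G => x ^ 2) with hO₂
  have hc₂ : O₂.card = O.card := Finset.card_image_of_injOn hinj
  have hdisj : Disjoint O O₂ := by
    rw [Finset.disjoint_left]
    intro y hy hy₂
    obtain ⟨x, hx, rfl⟩ := Finset.mem_image.1 hy₂
    obtain ⟨γ, -, rfl⟩ := (hO x).1 hx
    obtain ⟨δ, -, hδ⟩ := (hO _).1 hy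
    have e : (γ⁻¹ * δ) * f * (γ⁻¹ * δ)⁻¹ = f ^ 2 := by
      have h0 : (γ * f * γ⁻¹) ^ 2 = γ * f ^ 2 * γ⁻¹ := by
        rw [pow_two, pow_two]; group
      have h1 : γ⁻¹ * (δ * f * δ⁻¹) * γ = f ^ 2 := by
        rw [← hδ, h0]; group
      rw [← h1]; group
    exact (hf.no_fuse _).1 e
  have hle : (O ∪ O₂).card ≤ 24 := by
    apply card_le_24 (card_P5 h P)
    intro x hx
    rcases Finset.mem_union.1 hx with hx | hx
    · exact hOP x hx
    · obtain ⟨u, hu, rfl⟩ := Finset.mem_image.1 hx
      refine ⟨(P : Subgroup G).pow_mem (hOP u hu).1 2, ?_⟩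
      intro e
      apply (hOP u hu).2
      have : (u ^ 2) ^ 13 = u ^ 25 * u := by rw [← pow_mul, ← pow_succ]
      rw [e, one_pow, pow25_P5 h P (hOP u hu).1, one_mul] at this
      exact this.symm
  rw [Finset.card_union_of_disjoint hdisj, hc₂] at hle
  have hfO : f ∈ O := (hO f).2 ⟨1, one_mem _, by simp⟩
  have hf4O : f ^ 4 ∈ O := by
    obtain ⟨c₀, hc₀, hcf⟩ := hf.exists_invert hfP
    exact (hO _).2 ⟨c₀, hc₀, hcf.symm⟩
  have hne : f ≠ f ^ 4 := by
    intro e
    have h3 : f ^ 3 = 1 := by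
      have : f ^ 4 = f * f ^ 3 := by rw [pow_succ' f 3]
      rw [this] at e
      simpa using e.symm
    apply hf.ne
    have : f ^ 5 = f ^ 3 * f ^ 3 * f⁻¹ := by group
    rw [hf.pow, h3] at this
    simpa using this.symm
  have hlow : 1 < O.card := Finset.one_lt_card.2 ⟨f, hfO, f ^ 4, hf4O, hne⟩
  have hs1 : Nat.card (Sylow 5 G) = (normalizer ((P : Subgroup G) : Set G)).index :=
    P.card_eq_index_normalizer
  have hs2 := card_sylow_modEq_one 5 G
  have hs3 := Subgroup.card_mul_index (normalizer ((P : Subgroup G) : Set G))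
  rw [hcard, ← hs1, h.card_G] at hs3
  unfold Nat.ModEq at hs2
  have hup : O.card ≤ 12 := by omega
  generalize Nat.card (Sylow 5 G) = n at hs2 hs3
  rw [hcard]
  generalize O.card = s at hlow hup hs3 ⊢
  have : s = 6 := by
    interval_cases s <;> omega
  rw [this]

/-- An element of order `3` normalizing `P`. -/
theorem exists_g3 {P : Sylow 5 G} (hfP : f ∈ P) :
    ∃ g ∈ normalizer ((P : Subgroup G) : Set G), g ^ 3 = 1 ∧ g ≠ 1 := by
  have hd : 3 ∣ Nat.card (normalizer ((P : Subgroup G) : Set G)) := by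
    rw [hf.card_norm hfP]; norm_num
  obtain ⟨x, hx⟩ := exists_prime_orderOf_dvd_card' 3 hd
  refine ⟨x, x.2, ?_, ?_⟩
  · have := pow_orderOf_eq_one x
    rw [hx] at this
    exact congrArg Subtype.val this
  · intro e
    have : x = 1 := Subtype.ext e
    rw [this, orderOf_one] at hx
    omega

/-- An element of order `3` of `N(P)` fixes no line of `P`. -/
theorem no_fixed_line {P : Sylow 5 G} (hfP : f ∈ P) {g : G}
    (hg : g ∈ normalizer ((P : Subgroup G) : Set G)) (g3 : g ^ 3 = 1) (g1 : g ≠ 1)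
    {W : Subgroup G} (hW : W ≤ P) (hc : Nat.card W = 5) : cj g W ≠ W := by
  intro e
  have hnW : ∀ a ∈ W, g * a * g⁻¹ ∈ W := fun a ha => e ▸ conj_mem_cj ha
  have m1 := card_modEq_fixed W g (p := 3) g3 hnW
  have hd1 : Nat.card (W ⊓ centralizer ({g} : Set G) : Subgroup G) ∣ Nat.card W :=
    Subgroup.card_dvd_of_le inf_le_left
  rw [hc] at m1 hd1
  have hc1 : Nat.card (W ⊓ centralizer ({g} : Set G) : Subgroup G) = 5 := by
    rcases (Nat.dvd_prime (by norm_num : Nat.Prime 5)).1 hd1 with e1 | e1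
    · rw [e1] at m1
      exact absurd m1 (by decide)
    · exact e1
  have hWC : W ≤ centralizer ({g} : Set G) := by
    have h1 : W ⊓ centralizer ({g} : Set G) = W :=
      Subgroup.eq_of_le_of_card_ge inf_le_left (by rw [hc, hc1])
    exact inf_eq_left.1 h1
  have m2 := card_modEq_fixed (P : Subgroup G) g (p := 3) g3
    (fun a ha => conj_mem_of_mem_normalizer hg ha)
  rw [card_P5 h] at m2
  have hd2 : Nat.card ((P : Subgroup G) ⊓ centralizer ({g} : Set G) : Subgroup G) ∣ 25 := by
    rw [← card_P5 h P]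
    exact Subgroup.card_dvd_of_le inf_le_left
  have hd3 : 5 ∣ Nat.card ((P : Subgroup G) ⊓ centralizer ({g} : Set G) : Subgroup G) := by
    have := Subgroup.card_dvd_of_le (le_inf hW hWC)
    rwa [hc] at this
  have hc2 : Nat.card ((P : Subgroup G) ⊓ centralizer ({g} : Set G) : Subgroup G) = 25 := by
    have h25 : (25 : ℕ) = 5 ^ 2 := by norm_num
    rw [h25] at hd2
    obtain ⟨i, hi, e1⟩ := (Nat.dvd_prime_pow (by norm_num : Nat.Prime 5)).1 hd2
    interval_cases i
    · rw [e1] at hd3; omega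
    · rw [e1] at m2; exact absurd m2 (by decide)
    · rw [e1]; norm_num
  have hPC : (P : Subgroup G) ≤ centralizer ({g} : Set G) := by
    have h1 : (P : Subgroup G) ⊓ centralizer ({g} : Set G) = P :=
      Subgroup.eq_of_le_of_card_ge inf_le_left (by rw [card_P5 h, hc2])
    exact inf_eq_left.1 h1
  have hgC : g ∈ centralizer ((P : Subgroup G) : Set G) := by
    rw [Subgroup.mem_centralizer_iff]
    intro p hp
    exact mem_cent.1 (hPC hp)
  rw [hf.cent_P hfP] at hgC
  have h25 := pow25_P5 h P hgC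
  apply g1
  have : g ^ 25 = (g ^ 3) ^ 8 * g := by rw [← pow_mul, ← pow_succ]
  rw [h25, g3, one_pow, one_mul] at this
  exact this.symm

theorem not_conj_lines {f₀ : G} (hz : f₀ * h.z = h.z * f₀) (ho : orderOf f₀ = 5) (a : G) :
    cj a (zpowers f₀) ≠ zpowers f := by
  intro e
  have hx : a * f₀ * a⁻¹ ∈ zpowers f := by
    rw [← e]
    exact conj_mem_cj (mem_zpowers f₀)
  have hf₀1 : f₀ ≠ 1 := by
    rintro rfl
    rw [orderOf_one] at ho
    omega
  have hx1 : a * f₀ * a⁻¹ ≠ 1 := by
    intro e2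
    apply hf₀1
    have : a * f₀ = a := by
      have := congrArg (· * a) e2
      simpa using this
    simpa using this
  have hzp := zpowers_eq_of_prime (by norm_num : Nat.Prime 5) hf.order hx hx1
  have hfm : f ∈ zpowers (a * f₀ * a⁻¹) := by rw [hzp]; exact mem_zpowers f
  set u := a * h.z * a⁻¹ with hu
  have huc : u * (a * f₀ * a⁻¹) = (a * f₀ * a⁻¹) * u := by
    calc u * (a * f₀ * a⁻¹) = a * (h.z * f₀) * a⁻¹ := by rw [hu]; group
      _ = a * (f₀ * h.z) * a⁻¹ := by rw [hz]
      _ = _ := by rw [hu]; group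
  have huf : u * f = f * u := comm_of_mem_zpowers hfm huc
  have huK : u ∈ centralizer ({f} : Set G) := mem_cent.2 huf
  have huu : u * u = 1 := by
    calc u * u = a * (h.z * h.z) * a⁻¹ := by rw [hu]; group
      _ = 1 := by rw [h.z_sq]; group
  have hu1 : u ≠ 1 := by
    intro e2
    apply h.z_ne
    have : a * h.z = a := by
      have := congrArg (· * a) e2
      simpa [hu] using this
    simpa using this
  have h8 : ¬ 8 ∣ Nat.card (centralizer ({f} : Set G)) := by rw [hf.card]; norm_num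
  have hct := invol_conj_t h (mem_cent.2 (h.t_comm f hf.mem)) (mem_cent.2 (h.t₂_comm f hf.mem)) h8 huK huu hu1
  have hzu : IsConj h.z u := isConj_iff.2 ⟨a, rfl⟩
  exact h.not_conj (hzu.trans hct).symm

/-- The classes of lines in `P`. -/
theorem line_class {P : Sylow 5 G} (hfP : f ∈ P) {Y : Subgroup G} (hY : Y ≤ P)
    (hYc : Nat.card Y = 5) (hXY : ∀ a : G, cj a (zpowers f) ≠ Y) {W : Subgroup G}
    (hW : W ≤ P) (hWc : Nat.card W = 5) :
    (∃ a : G, cj a W = zpowers f) ∨ (∃ a : G, cj a W = Y) := by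
  classical
  by_contra hno
  push Not at hno
  obtain ⟨h1, h2⟩ := hno
  obtain ⟨g, hg, g3, g1⟩ := hf.exists_g3 hfP
  set X := zpowers f with hX
  have hXP : X ≤ P := by rw [hX, zpowers_le]; exact hfP
  have hXc : Nat.card X = 5 := by rw [hX, Nat.card_zpowers, hf.order]
  have hgg : g * g * (g * g) = g := by
    calc g * g * (g * g) = g ^ 3 * g := by simp only [pow_succ, pow_zero, one_mul, mul_assoc]
      _ = g := by rw [g3, one_mul]
  have hfix : ∀ U : Subgroup G, U ≤ P → Nat.card U = 5 → cj g U ≠ U :=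
    fun U hU hUc => hf.no_fixed_line hfP hg g3 g1 hU hUc
  have hfix2 : ∀ U : Subgroup G, U ≤ P → Nat.card U = 5 → cj (g * g) U ≠ U := by
    intro U hU hUc e
    apply hfix U hU hUc
    calc cj g U = cj (g * g * (g * g)) U := by rw [hgg]
      _ = cj (g * g) (cj (g * g) U) := by rw [cj_mul (g * g) (g * g)]
      _ = U := by rw [e, e]
  have hfix3 : ∀ U : Subgroup G, U ≤ P → Nat.card U = 5 → cj g U ≠ cj (g * g) U := by
    intro U hU hUc e
    apply hfix U hU hUc
    have := congrArg (cj g⁻¹) e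
    rw [cj_inv_cj, cj_mul g g, cj_inv_cj] at this
    exact this.symm
  have hle : ∀ U : Subgroup G, U ≤ P → cj g U ≤ P := by
    intro U hU y hy
    obtain ⟨u, hu, rfl⟩ := hy
    exact conj_mem_of_mem_normalizer hg (hU hu)
  have hle2 : ∀ U : Subgroup G, U ≤ P → cj (g * g) U ≤ P := by
    intro U hU
    rw [cj_mul]
    exact hle _ (hle _ hU)
  have crossXY : ∀ a b : G, cj a X ≠ cj b Y := cj_ne_of X Y hXY
  have crossXY0 : ∀ b : G, X ≠ cj b Y := by
    intro b e
    apply crossXY 1 b
    rw [cj_one]; exact e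
  have crossXY1 : ∀ a : G, cj a X ≠ Y := hXY
  have crossXW : ∀ a : G, cj a X ≠ W := by
    intro a e
    apply h1 a⁻¹
    rw [← e, cj_inv_cj]
  have crossYW : ∀ a : G, cj a Y ≠ W := by
    intro a e
    apply h2 a⁻¹
    rw [← e, cj_inv_cj]
  have crossXW0 : X ≠ W := by
    intro e
    apply h1 1
    rw [cj_one, e]
  have crossYW0 : Y ≠ W := by
    intro e
    apply h2 1
    rw [cj_one, e]
  have hcard := card_seven (a := X) (b := cj g X) (c := cj (g * g) X) (d := Y) (e := cj g Y)
    (f := cj (g * g) Y) (g := W)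
    (hfix X hXP hXc).symm (hfix2 X hXP hXc).symm
    (by intro e; apply crossXY 1 1; rw [cj_one, cj_one]; exact e)
    (crossXY0 _) (crossXY0 _) crossXW0
    (hfix3 X hXP hXc) (crossXY1 _) (crossXY _ _) (crossXY _ _) (crossXW _)
    (crossXY1 _) (crossXY _ _) (crossXY _ _) (crossXW _)
    (hfix Y hY hYc).symm (hfix2 Y hY hYc).symm crossYW0
    (hfix3 Y hY hYc) (crossYW _) (crossYW _)
  have hsix := lines_le_six (card_P5 h P) ({X, cj g X, cj (g * g) X, Y, cj g Y, cj (g * g) Y, W} : Finset (Subgroup G))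
    (by
      intro U hU
      simp only [Finset.mem_insert, Finset.mem_singleton] at hU
      rcases hU with rfl | rfl | rfl | rfl | rfl | rfl | rfl
      · exact ⟨hXP, hXc⟩
      · exact ⟨hle _ hXP, by rw [card_cj, hXc]⟩
      · exact ⟨hle2 _ hXP, by rw [card_cj, hXc]⟩
      · exact ⟨hY, hYc⟩
      · exact ⟨hle _ hY, by rw [card_cj, hYc]⟩
      · exact ⟨hle2 _ hY, by rw [card_cj, hYc]⟩
      · exact ⟨hW, hWc⟩)
  omega

end IsF

theorem exists_f0 (h : Pkg G) : ∃ f₀ : G, f₀ * h.z = h.z * f₀ ∧ orderOf f₀ = 5 := by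
  have hd : 5 ∣ Nat.card (centralizer ({h.z} : Set G)) := by rw [h.card_Cz]; norm_num
  obtain ⟨x, hx⟩ := exists_prime_orderOf_dvd_card' 5 hd
  exact ⟨x, mem_cent.1 x.2, by rwa [Subgroup.orderOf_coe]⟩

theorem exists_isF (h : Pkg G) : ∃ f : G, IsF h f := by
  obtain ⟨f, h1, h2, h3⟩ := ex5 h
  exact ⟨f, h1, h2, h3⟩

/-- Sylow `5`-data for all Sylow subgroups. -/
theorem sylow5_data (h : Pkg G) (P : Sylow 5 G) :
    centralizer ((P : Subgroup G) : Set G) = P ∧
      Nat.card (normalizer ((P : Subgroup G) : Set G)) = 300 := by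
  obtain ⟨f, hf⟩ := exists_isF h
  obtain ⟨P₀, hP₀⟩ := hf.exists_sylow
  obtain ⟨g, hg⟩ := MulAction.exists_smul_eq G P₀ P
  have e : (P : Subgroup G) = MulAut.conj g • (P₀ : Subgroup G) := by rw [← hg]; rfl
  constructor
  · rw [e, Cfsg.Agent.Lib.Basic.Conj.centralizer_conj_smul, hf.cent_P hP₀]
  · rw [e, Cfsg.Agent.Lib.Basic.Conj.normalizer_conj_smul,
      Cfsg.Agent.Lib.Basic.Conj.card_conj_smul, hf.card_norm hP₀]

theorem cent_eq_of_zpowers_eq {x y : G} (e : zpowers x = zpowers y) :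
    centralizer ({x} : Set G) = centralizer ({y} : Set G) := by
  have key : ∀ {x y : G}, zpowers x = zpowers y → centralizer ({x} : Set G) ≤ centralizer ({y} : Set G) := by
    intro x y e c hc
    rw [mem_cent] at hc ⊢
    exact comm_of_mem_zpowers (e ▸ mem_zpowers y) hc
  exact le_antisymm (key e) (key e.symm)

/-- The centralizer of an element of order `5` in `C(z)` has order `50`. -/
theorem card_C_f0 (h : Pkg G) {f₀ : G} (hz : f₀ * h.z = h.z * f₀) (ho : orderOf f₀ = 5) :
    Nat.card (centralizer ({f₀} : Set G)) = 50 := by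
  obtain ⟨k, hk, hk2, hcomm⟩ := quot_inv_struct h.z_sq h.z_ne ho hz.symm (h.cent5 f₀ hz ho)
  have hf₀5 : f₀ ^ 5 = 1 := by rw [← ho]; exact pow_orderOf_eq_one f₀
  have hpg : IsPGroup 5 (zpowers f₀) :=
    isPGroup_zpowers_of_pow (n := 1) (by rw [pow_one]; exact hf₀5)
  obtain ⟨P₀, hP₀⟩ := hpg.exists_le_sylow
  have hf₀P : f₀ ∈ P₀ := hP₀ (mem_zpowers f₀)
  have hP₀C : (P₀ : Subgroup G) ≤ centralizer ({f₀} : Set G) := by
    intro x hx
    rw [mem_cent]
    exact comm_P5 h P₀ hx hf₀P
  have h25 : 25 ∣ 10 * k := by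
    rw [← hk, ← card_P5 h P₀]
    exact Subgroup.card_dvd_of_le hP₀C
  have hodd25 : ∀ p ∈ (P₀ : Subgroup G), Odd (orderOf p) := by
    intro p hp
    have h1 : orderOf p ∣ 25 := orderOf_dvd_of_pow_eq_one (pow25_P5 h P₀ hp)
    exact Odd.of_dvd_nat (by decide) h1
  have hnot : ∀ r : ℕ, r.Prime → Odd r → Nat.Coprime r 5 → r ∣ k → False := by
    intro r hr hro hr5 hrk
    haveI : Fact r.Prime := ⟨hr⟩
    have hd : r ∣ Nat.card (centralizer ({f₀} : Set G)) := by
      rw [hk]; exact Dvd.dvd.mul_left hrk 10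
    obtain ⟨x, hx⟩ := exists_prime_orderOf_dvd_card' r hd
    have hxr : (x : G) ^ r = 1 := by
      have := pow_orderOf_eq_one x
      rw [hx] at this
      exact congrArg Subtype.val this
    have hxo : orderOf (x : G) = r := by rwa [Subgroup.orderOf_coe]
    have hxP : (x : G) ∈ centralizer (((P₀ : Subgroup G)) : Set G) := by
      rw [Subgroup.mem_centralizer_iff]
      intro p hp
      have hn := hcomm x x.2 p (hP₀C hp) (by rw [hxo]; exact hro) (hodd25 p hp)
      have hxn : (x : G) * ((x : G) * p * (x : G)⁻¹ * p⁻¹) = ((x : G) * p * (x : G)⁻¹ * p⁻¹) * x :=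
        comm_of_mem_zpowers hn (mem_cent.1 x.2)
      have hn5 : ((x : G) * p * (x : G)⁻¹ * p⁻¹) ^ 5 = 1 := by
        obtain ⟨j, hj⟩ := mem_zpowers_iff.1 hn
        rw [← hj, ← zpow_natCast, ← zpow_mul, mul_comm, zpow_mul, zpow_natCast, hf₀5, one_zpow]
      have := comm_of_pow_coprime rfl hxn hxr hn5 hr5
      exact this.symm
    rw [(sylow5_data h P₀).1] at hxP
    have h1 := pow25_P5 h P₀ hxP
    have h2 : r ∣ 25 := hxo ▸ orderOf_dvd_of_pow_eq_one h1
    have h3 : r ∣ 5 := by
      have : (25 : ℕ) = 5 ^ 2 := by norm_num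
      rw [this] at h2
      exact hr.dvd_of_dvd_pow h2
    have h4 : r = 5 := (Nat.prime_dvd_prime_iff_eq hr (by norm_num)).1 h3
    rw [h4] at hr5
    exact absurd hr5 (by decide)
  have h3 : ¬ 3 ∣ k := fun hd => hnot 3 (by norm_num) (by decide) (by decide) hd
  have h7 : ¬ 7 ∣ k := fun hd => hnot 7 (by norm_num) (by decide) (by decide) hd
  have hdvd : 10 * k ∣ 604800 := by
    rw [← hk, ← h.card_G]; exact Subgroup.card_subgroup_dvd_card _
  have hk1 : k ∣ 60480 := by
    have : (604800 : ℕ) = 10 * 60480 := by norm_num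
    rw [this] at hdvd
    exact Nat.dvd_of_mul_dvd_mul_left (by norm_num) hdvd
  have hco : Nat.Coprime k 12096 := by
    have e : (12096 : ℕ) = 2 ^ 6 * 3 ^ 3 * 7 := by norm_num
    rw [e]
    refine Nat.Coprime.mul_right (Nat.Coprime.mul_right ?_ ?_) ?_
    · exact Nat.Coprime.pow_right _ ((Nat.Prime.coprime_iff_not_dvd Nat.prime_two).2 hk2).symm
    · exact Nat.Coprime.pow_right _ ((Nat.Prime.coprime_iff_not_dvd (by norm_num)).2 h3).symm
    · exact ((Nat.Prime.coprime_iff_not_dvd (by norm_num)).2 h7).symm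
  have hk5 : k ∣ 5 := by
    have : (60480 : ℕ) = 12096 * 5 := by norm_num
    rw [this] at hk1
    exact hco.dvd_of_dvd_mul_left hk1
  rcases (Nat.dvd_prime (by norm_num : Nat.Prime 5)).1 hk5 with e | e
  · rw [e] at h25; omega
  · rw [hk, e]

/-- Every subgroup of order `5` is conjugate to `⟨f⟩` or `⟨f₀⟩`. -/
theorem five_class {h : Pkg G} {f f₀ : G} (hf : IsF h f) (hz : f₀ * h.z = h.z * f₀)
    (ho : orderOf f₀ = 5) {W : Subgroup G} (hWc : Nat.card W = 5) :
    (∃ a : G, cj a W = zpowers f) ∨ (∃ a : G, cj a W = zpowers f₀) := by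
  obtain ⟨P₀, hP₀⟩ := hf.exists_sylow
  have hf₀5 : f₀ ^ 5 = 1 := by rw [← ho]; exact pow_orderOf_eq_one f₀
  have hpg : IsPGroup 5 (zpowers f₀) :=
    isPGroup_zpowers_of_pow (n := 1) (by rw [pow_one]; exact hf₀5)
  obtain ⟨b, hb⟩ := exists_cj_le_sylow P₀ hpg
  have hYc : Nat.card (cj b (zpowers f₀)) = 5 := by rw [card_cj, Nat.card_zpowers, ho]
  have hXY : ∀ a : G, cj a (zpowers f) ≠ cj b (zpowers f₀) := by
    intro a e
    exact cj_ne_of (zpowers f₀) (zpowers f) (fun c => hf.not_conj_lines hz ho c) b a e.symm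
  have hWp : IsPGroup 5 W := IsPGroup.of_card (n := 1) (by rw [hWc]; norm_num)
  obtain ⟨c, hc⟩ := exists_cj_le_sylow P₀ hWp
  have hWc' : Nat.card (cj c W) = 5 := by rw [card_cj, hWc]
  rcases hf.line_class hP₀ hb hYc hXY hc hWc' with ⟨a, ha⟩ | ⟨a, ha⟩
  · left
    exact ⟨a * c, by rw [cj_mul, ha]⟩
  · right
    refine ⟨b⁻¹ * (a * c), ?_⟩
    rw [cj_mul, cj_mul, ha, cj_inv_cj]

/-- Centralizer orders of elements of order `5`. -/
theorem card_cent_five (h : Pkg G) {w : G} (hw : orderOf w = 5) :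
    Nat.card (centralizer ({w} : Set G)) = 300 ∨ Nat.card (centralizer ({w} : Set G)) = 50 := by
  obtain ⟨f, hf⟩ := exists_isF h
  obtain ⟨f₀, hz, ho⟩ := exists_f0 h
  have hWc : Nat.card (zpowers w) = 5 := by rw [Nat.card_zpowers, hw]
  have hw1 : w ≠ 1 := by
    rintro rfl
    rw [orderOf_one] at hw
    omega
  have aux : ∀ a y : G, orderOf y = 5 → cj a (zpowers w) = zpowers y →
      Nat.card (centralizer ({w} : Set G)) = Nat.card (centralizer ({y} : Set G)) := by
    intro a y hy e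
    have h1 : a * w * a⁻¹ ∈ zpowers y := by
      rw [← e]; exact conj_mem_cj (mem_zpowers w)
    have h2 : a * w * a⁻¹ ≠ 1 := by
      intro e2
      apply hw1
      have : a * w = a := by
        have := congrArg (· * a) e2
        simpa using this
      simpa using this
    have h3 := zpowers_eq_of_prime (by norm_num : Nat.Prime 5) hy h1 h2
    rw [← cent_eq_of_zpowers_eq h3, card_centralizer_conj]
  rcases five_class hf hz ho hWc with ⟨a, ha⟩ | ⟨a, ha⟩
  · left
    rw [aux a f hf.order ha, hf.card]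
  · right
    rw [aux a f₀ ho ha, card_C_f0 h hz ho]

/-- **The `5`-part of the package**. -/
theorem sylow5_main (h : Pkg G) (P : Sylow 5 G) :
    centralizer ((P : Subgroup G) : Set G) = P ∧ Nat.card P = 25 ∧
      Nat.card (normalizer ((P : Subgroup G) : Set G)) = 300 ∧
      ∃ X Y : Subgroup G, Nat.card X = 5 ∧ Nat.card Y = 5 ∧
        (∀ g : G, X.map (MulAut.conj g).toMonoidHom ≠ Y) ∧
        ∀ W : Subgroup G, Nat.card W = 5 → ∃ g : G, W.map (MulAut.conj g).toMonoidHom = X ∨
          W.map (MulAut.conj g).toMonoidHom = Y := by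
  obtain ⟨h1, h2⟩ := sylow5_data h P
  refine ⟨h1, card_P5 h P, h2, ?_⟩
  obtain ⟨f, hf⟩ := exists_isF h
  obtain ⟨f₀, hz, ho⟩ := exists_f0 h
  refine ⟨zpowers f, zpowers f₀, by rw [Nat.card_zpowers, hf.order],
    by rw [Nat.card_zpowers, ho], ?_, ?_⟩
  · intro g e
    exact hf.not_conj_lines hz ho g⁻¹ (by
      show cj g⁻¹ (zpowers f₀) = zpowers f
      have e' : cj g (zpowers f) = zpowers f₀ := e
      rw [← e', cj_inv_cj])
  · intro W hW
    rcases five_class hf hz ho hW with ⟨a, ha⟩ | ⟨a, ha⟩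
    · exact ⟨a, Or.inl ha⟩
    · exact ⟨a, Or.inr ha⟩

end Pk

end Cfsg.Agent.Lib.HallJanko.D
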