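import Mathlib
import Cfsg.Agent.Lib.HallJanko.Pkg

/-!
# Hall-Janko type groups: the facts on `5`-elements used for the `3`- and `7`-structure

`Sylow5.lean` produces a term of `FiveFacts p` from `p : Pkg G`; `Sylow3.lean` and `Sylow7.lean` consume it.
-/

set_option autoImplicit false

namespace Cfsg.Agent.Lib.HallJanko

open Subgroup

/-- The facts on elements of order `5` in a group of Hall-Janko type. -/
structure FiveFacts {G : Type*} [Group G] (p : Pkg G) : Prop where
  /-- `|C(f)| = 300` for `f ∈ T1` of order `5`. -/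
  card_C : ∀ f ∈ p.T1, orderOf f = 5 → Nat.card (centralizer ({f} : Set G)) = 300
  /-- `|N(⟨f⟩)| = 600` for `f ∈ T1` of order `5`. -/
  card_N : ∀ f ∈ p.T1, orderOf f = 5 →
    Nat.card (normalizer ((zpowers f : Subgroup G) : Set G)) = 600
  /-- An element of order `5` has `|C(x)| = 50`, or it is conjugate to an element of order `5` of `T1`. -/
  classes : ∀ x : G, orderOf x = 5 → Nat.card (centralizer ({x} : Set G)) = 50 ∨
    ∃ f ∈ p.T1, orderOf f = 5 ∧ IsConj x f
  /-- A Sylow `5`-subgroup is its own centralizer. -/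
  cent_P : ∀ P : Sylow 5 G, centralizer ((P : Subgroup G) : Set G) = P

end Cfsg.Agent.Lib.HallJanko
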