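import Mathlib
import Cfsg.Agent.Lib.HallJanko.Main

/-!
# Hall-Janko type groups: the normalizer of `V`

`N(V) = ⟨y'⟩ V T1`, with `y'` of order `3` centralizing `T1` and cycling `V#`.
-/

set_option autoImplicit false
set_option linter.unusedSimpArgs false
set_option linter.unusedSectionVars false
set_option linter.unusedVariables false
set_option synthInstance.maxHeartbeats 400000
set_option synthInstance.maxSize 4000
set_option maxRecDepth 100000

namespace Cfsg.Agent.Lib.HallJanko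

open Equiv Subgroup
open scoped commutatorElement

variable {G : Type*} [Group G]

/-- Conjugate elements have centralizers of the same order. -/
theorem card_centralizer_of_isConj [Finite G] {a b : G} (h : IsConj a b) :
    Nat.card (centralizer ({a} : Set G)) = Nat.card (centralizer ({b} : Set G)) := by
  have h1 := Cfsg.Agent.Lib.Basic.ConjCount.card_isConj_mul_card_centralizer a
  have h2 := Cfsg.Agent.Lib.Basic.ConjCount.card_isConj_mul_card_centralizer b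
  have h3 : Nat.card {y : G // IsConj a y} = Nat.card {y : G // IsConj b y} :=
    Nat.card_congr (Equiv.subtypeEquivRight fun y =>
      ⟨fun h' => h.symm.trans h', fun h' => h.trans h'⟩)
  have hpos : 0 < Nat.card {y : G // IsConj b y} := Nat.card_pos_iff.2 ⟨⟨⟨b, IsConj.refl b⟩⟩, inferInstance⟩
  rw [h3, ← h2] at h1
  exact Nat.eq_of_mul_eq_mul_left hpos h1

/-- The perfectness of `A₅`. -/
theorem commutator_A5 : commutator (alternatingGroup (Fin 5)) = ⊤ := by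
  have h := (alternatingGroup.isSimpleGroup_five).eq_bot_or_eq_top_of_normal
    (commutator (alternatingGroup (Fin 5))) inferInstance
  rcases h with h | h
  · exfalso
    rw [commutator_eq_bot_iff_center_eq_top] at h
    have h1 : (⟨swap 0 1 * swap 1 2, Equiv.Perm.mem_alternatingGroup.2 (by decide)⟩ :
        alternatingGroup (Fin 5)) ∈ center (alternatingGroup (Fin 5)) := by
      rw [h]; trivial
    have h2 := (mem_center_iff.1 h1) ⟨swap 0 1 * swap 2 3, Equiv.Perm.mem_alternatingGroup.2 (by decide)⟩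
    have h3 := congrArg Subtype.val h2
    revert h3
    decide
  · exact h

namespace Setup

variable {S : Setup G}

namespace Frame

variable {F : Frame S}

namespace T1D

variable {L : F.EllD} {V : VD L} (D : T1D V)

theorem VV_le_T {v : G} (hv : v ∈ V.VV) : v ∈ F.T := E_le_T (V.VV_le_E hv)

/-- An element of `T1` central in `T1` is trivial. -/
theorem T1_center {x : G} (hx : x ∈ D.T1) (hz : x * S.z = S.z * x) (hl : x * L.l = L.l * x) : x = 1 := by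
  have hU := D.cent_U hx hz
  have hc : L.l * x * L.l⁻¹ = x := by
    rw [← hl]; group
  rcases hU with h | h | h | h
  · exact h
  · exfalso; rw [h, L.lz] at hc; exact a4_ne_z hc.symm
  · exfalso; rw [h, L.la] at hc; exact S.cl.z_ne (mul_eq_right.mp hc)
  · exfalso; rw [h, L.lza] at hc
    exact a4_ne_one (S := S) (mul_eq_left.mp hc.symm)

/-- An element of `T` commuting with `z` and `l` and ... lies in `V`. -/
theorem mem_VV_of_cent {c : G} (hc : c ∈ F.T) (θ : D.T1 ≃* alternatingGroup (Fin 5))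
    [Finite G] (hcent : ∀ x ∈ D.T1, c * x = x * c) : c ∈ V.VV := by
  obtain ⟨v, hv, x, hx, rfl⟩ := D.form hc
  have hvx : ∀ y ∈ D.T1, v * y = y * v := fun y hy => D.cent_VV θ hv hy
  have h1 : ∀ y ∈ D.T1, x * y = y * x := by
    intro y hy
    have h2 := hcent y hy
    have h3 : v * (x * y) = v * (y * x) := by
      calc v * (x * y) = (v * x) * y := by group
        _ = y * (v * x) := h2
        _ = (y * v) * x := by group
        _ = (v * y) * x := by rw [hvx y hy]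
        _ = _ := by group
    exact mul_left_cancel h3
  have hx1 : x = 1 := D.T1_center hx (h1 _ D.z_mem) (h1 _ D.l_mem)
  rw [hx1, mul_one]
  exact hv

section A5

variable [Finite G] (θ : D.T1 ≃* alternatingGroup (Fin 5)) (hJ : ¬ IsConj F.t S.z)

include θ

/-- `T ≤ C(v)` for `v ∈ V`. -/
theorem T_comm {v x : G} (hv : v ∈ V.VV) (hx : x ∈ F.T) : v * x = x * v := by
  obtain ⟨v', hv', y, hy, rfl⟩ := D.form hx
  have h1 : v * v' = v' * v := F.E_comm (V.VV_le_E hv) (V.VV_le_E hv')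
  have h2 := D.cent_VV θ hv hy
  calc v * (v' * y) = (v * v') * y := by group
    _ = (v' * v) * y := by rw [h1]
    _ = v' * (v * y) := by group
    _ = v' * (y * v) := by rw [h2]
    _ = _ := by group

/-- The centralizer of a nontrivial element of `V` is `T`. -/
theorem cent_v_eq_T {v : G} (hv : v ∈ V.VV) (hv1 : v ≠ 1) {g : G} (hg : g * v = v * g) : g ∈ F.T := by
  have hle : F.T ≤ centralizer ({v} : Set G) := by
    intro x hx
    rw [mem_centralizer_singleton_iff]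
    exact (D.T_comm θ hv hx).symm
  have hconj : IsConj v F.t := conj_t_of_E (V.VV_le_E hv) (V.not_U_of_VV hv hv1)
  have hc := card_centralizer_of_isConj hconj
  have heq : F.T = centralizer ({v} : Set G) :=
    Subgroup.eq_of_le_of_card_ge hle (le_of_eq hc)
  rw [heq]
  exact mem_centralizer_singleton_iff.2 hg

/-- A central element of `T` lies in `V`. -/
theorem central_T {c : G} (hc : c ∈ F.T) (hcent : ∀ x ∈ F.T, c * x = x * c) : c ∈ V.VV :=
  D.mem_VV_of_cent hc θ (fun x hx => hcent x (D.le hx))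

/-- An element conjugating `t` into `V#` normalizes `T`. -/
theorem conj_T {g v : G} (hv : v ∈ V.VV) (hv1 : v ≠ 1) (hg : g * F.t * g⁻¹ = v) {x : G}
    (hx : x ∈ F.T) : g * x * g⁻¹ ∈ F.T := by
  apply D.cent_v_eq_T θ hv hv1
  rw [← hg]
  have h1 := mem_T.1 hx
  calc g * x * g⁻¹ * (g * F.t * g⁻¹) = g * (x * F.t) * g⁻¹ := by group
    _ = g * (F.t * x) * g⁻¹ := by rw [h1]
    _ = _ := by group

/-- An element normalizing `T` normalizes `T1`. -/
theorem conj_T1 {g : G} (hg : ∀ x ∈ F.T, g * x * g⁻¹ ∈ F.T) {x : G} (hx : x ∈ D.T1) :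
    g * x * g⁻¹ ∈ D.T1 := by
  let M : Subgroup D.T1 := (D.T1.comap (MulAut.conj g).toMonoidHom).comap D.T1.subtype
  have hM : commutator (alternatingGroup (Fin 5)) ≤ M.map θ.toMonoidHom := by
    rw [commutator_def, Subgroup.commutator_le]
    intro a _ b _
    refine ⟨⁅θ.symm a, θ.symm b⁆, ?_, ?_⟩
    · -- the commutator computation
      show g * (⁅θ.symm a, θ.symm b⁆ : D.T1).1 * g⁻¹ ∈ D.T1
      set a' := (θ.symm a).1 with ha'
      set b' := (θ.symm b).1 with hb'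
      have ha'1 : a' ∈ D.T1 := (θ.symm a).2
      have hb'1 : b' ∈ D.T1 := (θ.symm b).2
      have e1 : (⁅θ.symm a, θ.symm b⁆ : D.T1).1 = a' * b' * a'⁻¹ * b'⁻¹ := by
        simp [commutatorElement_def, ha', hb']
      rw [e1]
      obtain ⟨v, hv, x₁, hx₁, h1⟩ := D.form (hg a' (D.le ha'1))
      obtain ⟨v', hv', x₂, hx₂, h2⟩ := D.form (hg b' (D.le hb'1))
      have e2 : g * (a' * b' * a'⁻¹ * b'⁻¹) * g⁻¹ = (g * a' * g⁻¹) * (g * b' * g⁻¹) *
          (g * a' * g⁻¹)⁻¹ * (g * b' * g⁻¹)⁻¹ := by group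
      rw [e2, h1, h2]
      have hx12 : x₁ * x₂ * x₁⁻¹ * x₂⁻¹ ∈ D.T1 :=
        mul_mem (mul_mem (mul_mem hx₁ hx₂) (inv_mem hx₁)) (inv_mem hx₂)
      have hv1 : Commute v x₁ := D.cent_VV θ hv hx₁
      have hv2 : Commute v (v' * x₂) := D.T_comm θ hv (mul_mem (VV_le_T hv') (D.le hx₂))
      have hv3 : Commute v' x₂ := D.cent_VV θ hv' hx₂
      have hv4 : Commute v' x₁ := D.cent_VV θ hv' hx₁
      have e3 : (v * x₁) * (v' * x₂) * (v * x₁)⁻¹ * (v' * x₂)⁻¹ = x₁ * x₂ * x₁⁻¹ * x₂⁻¹ := by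
        have e4 : (v * x₁) * (v' * x₂) * (v * x₁)⁻¹ = x₁ * (v' * x₂) * x₁⁻¹ := by
          have : v * (x₁ * ((v' * x₂) * x₁⁻¹)) = (x₁ * ((v' * x₂) * x₁⁻¹)) * v := by
            exact D.T_comm θ hv (mul_mem (D.le hx₁) (mul_mem (mul_mem (VV_le_T hv') (D.le hx₂))
              (inv_mem (D.le hx₁))))
          calc (v * x₁) * (v' * x₂) * (v * x₁)⁻¹ = (v * (x₁ * ((v' * x₂) * x₁⁻¹))) * v⁻¹ := by group
            _ = (x₁ * ((v' * x₂) * x₁⁻¹)) * v * v⁻¹ := by rw [this]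
            _ = _ := by group
        rw [e4]
        have e5 : x₁ * (v' * x₂) * x₁⁻¹ * (v' * x₂)⁻¹ =
            v' * (x₁ * x₂ * x₁⁻¹ * x₂⁻¹) * v'⁻¹ := by
          have : x₁ * v' = v' * x₁ := hv4.eq.symm
          calc x₁ * (v' * x₂) * x₁⁻¹ * (v' * x₂)⁻¹ = (x₁ * v') * x₂ * x₁⁻¹ * x₂⁻¹ * v'⁻¹ := by group
            _ = (v' * x₁) * x₂ * x₁⁻¹ * x₂⁻¹ * v'⁻¹ := by rw [this]
            _ = _ := by group
        rw [e5, D.cent_VV θ hv' hx12]
        group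
      rw [e3]
      exact hx12
    · simp
  have htop : M.map θ.toMonoidHom = ⊤ := by
    rw [eq_top_iff, ← commutator_A5]
    exact hM
  have h1 : θ ⟨x, hx⟩ ∈ M.map θ.toMonoidHom := by
    rw [htop]; trivial
  obtain ⟨x', hx', h2⟩ := h1
  have h3 : x' = ⟨x, hx⟩ := θ.injective h2
  rw [h3] at hx'
  exact hx'

/-- `g` with `g t g⁻¹ = t₂`, `g ∈ C(z)` cycles `V#`. -/
theorem exists_g (hJ : ¬ IsConj F.t S.z) : ∃ g : G, g * S.z = S.z * g ∧ g * F.t * g⁻¹ = V.t₂ ∧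
    g * V.t₂ * g⁻¹ = F.t * V.t₂ ∧ (∀ x ∈ F.T, g * x * g⁻¹ ∈ F.T) := by
  obtain ⟨g, hgz, hgt⟩ := (IsInv.of_IsT F.ht).conj_of (F.isInv_of_E V.mem V.t₂_not_U)
  have ht₂V : V.t₂ ∈ V.VV := Or.inr (Or.inr (Or.inl rfl))
  have htV : F.t ∈ V.VV := Or.inr (Or.inl rfl)
  have httV : F.t * V.t₂ ∈ V.VV := Or.inr (Or.inr (Or.inr rfl))
  have hgT : ∀ x ∈ F.T, g * x * g⁻¹ ∈ F.T := fun x hx => D.conj_T θ ht₂V V.t₂_ne_one hgt hx
  refine ⟨g, hgz, hgt, ?_, hgT⟩
  have hN : g ∈ normalizer ((F.T : Subgroup G) : Set G) := mem_normalizer_of_maps hgT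
  have hcent : ∀ x ∈ F.T, (g * V.t₂ * g⁻¹) * x = x * (g * V.t₂ * g⁻¹) := by
    intro x hx
    have h1 : g⁻¹ * x * g ∈ F.T := by
      have := (mem_normalizer_iff.1 (inv_mem hN) x).1 hx
      simpa using this
    have h2 := D.T_comm θ ht₂V h1
    calc (g * V.t₂ * g⁻¹) * x = g * (V.t₂ * (g⁻¹ * x * g)) * g⁻¹ := by group
      _ = g * ((g⁻¹ * x * g) * V.t₂) * g⁻¹ := by rw [h2]
      _ = _ := by group
  have hτ : g * V.t₂ * g⁻¹ ∈ V.VV := D.central_T θ (hgT _ (VV_le_T ht₂V)) hcent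
  have hne1 : g * V.t₂ * g⁻¹ ≠ 1 := by
    intro h
    apply V.t₂_ne_one
    have : g * V.t₂ = g := by
      calc g * V.t₂ = (g * V.t₂ * g⁻¹) * g := by group
        _ = g := by rw [h, one_mul]
    simpa using this
  have hnT : g ∉ F.T := by
    intro h
    apply V.t_ne_t₂
    rw [← hgt, mem_T.1 h]
    group
  rcases hτ with h | h | h | h
  · exact absurd h hne1
  · -- `g` swaps `t` and `t₂`
    exfalso
    apply hnT
    have e : g * (F.t * V.t₂) * g⁻¹ = F.t * V.t₂ := by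
      calc g * (F.t * V.t₂) * g⁻¹ = (g * F.t * g⁻¹) * (g * V.t₂ * g⁻¹) := by group
        _ = V.t₂ * F.t := by rw [hgt, h]
        _ = _ := V.t_t₂.symm
    have hne : F.t * V.t₂ ≠ 1 := fun h' => V.tt₂_not_U (h' ▸ one_mem _)
    refine D.cent_v_eq_T θ httV hne (mul_inv_eq_iff_eq_mul.mp e)
  · exfalso
    apply hnT
    refine D.cent_v_eq_T θ ht₂V V.t₂_ne_one (mul_inv_eq_iff_eq_mul.mp h)
  · exact h

/-- The element `y'`. -/
theorem exists_y' (hJ : ¬ IsConj F.t S.z) : ∃ y' : G, y' * y' * y' = 1 ∧ y' ≠ 1 ∧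
    (∀ x ∈ D.T1, y' * x = x * y') ∧ y' * F.t * y'⁻¹ = V.t₂ ∧ y' * V.t₂ * y'⁻¹ = F.t * V.t₂ := by
  obtain ⟨g, hgz, hgt, hgt₂, hgT⟩ := D.exists_g θ hJ
  have hcm : ∀ (a b x : G), (a * b) * x * (a * b)⁻¹ = a * (b * x * b⁻¹) * a⁻¹ := fun a b x => by group
  have hgtt : g * (F.t * V.t₂) * g⁻¹ = F.t := by
    calc g * (F.t * V.t₂) * g⁻¹ = (g * F.t * g⁻¹) * (g * V.t₂ * g⁻¹) := by group
      _ = V.t₂ * (F.t * V.t₂) := by rw [hgt, hgt₂]
      _ = F.t := by rw [← mul_assoc, ← V.t_t₂, mul_assoc, V.t₂_sq, mul_one]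
  have hgT1 : ∀ x ∈ D.T1, g * x * g⁻¹ ∈ D.T1 := fun x hx => D.conj_T1 θ hgT hx
  have hza : g * S.z * g⁻¹ = S.z := by rw [hgz]; group
  -- `g` normalizes `U`
  have hgU : g * S.a 4 * g⁻¹ = S.a 4 ∨ g * S.a 4 * g⁻¹ = S.z * S.a 4 := by
    have h1 : g * S.a 4 * g⁻¹ ∈ S.U := by
      apply D.cent_U (hgT1 _ D.a4_mem)
      exact conj_comm hgz (S.cl.a_z 4)
    rcases h1 with h | h | h | h
    · exfalso
      apply a4_ne_one (S := S)
      have : g * S.a 4 = g := by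
        calc g * S.a 4 = (g * S.a 4 * g⁻¹) * g := by group
          _ = g := by rw [h, one_mul]
      simpa using this
    · exfalso
      apply a4_ne_z (S := S)
      have : g * S.a 4 = g * S.z := by
        calc g * S.a 4 = (g * S.a 4 * g⁻¹) * g := by group
          _ = S.z * g := by rw [h]
          _ = g * S.z := hgz.symm
      exact (mul_left_cancel this).symm
    · exact Or.inl h
    · exact Or.inr h
  set s := g * g * (g * g) with hs
  have hg2a : (g * g) * S.a 4 * (g * g)⁻¹ = S.a 4 := by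
    rw [hcm]
    rcases hgU with h | h
    · rw [h, h]
    · rw [h]
      calc g * (S.z * S.a 4) * g⁻¹ = (g * S.z * g⁻¹) * (g * S.a 4 * g⁻¹) := by group
        _ = S.z * (S.z * S.a 4) := by rw [hza, h]
        _ = S.a 4 := by rw [← mul_assoc, S.cl.z_sq, one_mul]
  have hsa : s * S.a 4 = S.a 4 * s := by
    apply mul_inv_eq_iff_eq_mul.mp
    rw [hs, hcm, hg2a, hg2a]
  have hg2z : (g * g) * S.z = S.z * (g * g) := by
    rw [mul_assoc, hgz, ← mul_assoc, hgz, mul_assoc]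
  have hsz : s * S.z = S.z * s := by
    rw [hs, mul_assoc, hg2z, ← mul_assoc, hg2z, mul_assoc]
  have hsT1 : ∀ x ∈ D.T1, s * x * s⁻¹ ∈ D.T1 := by
    intro x hx
    have e : s * x * s⁻¹ = g * (g * (g * (g * x * g⁻¹) * g⁻¹) * g⁻¹) * g⁻¹ := by
      rw [hs]; group
    rw [e]
    exact hgT1 _ (hgT1 _ (hgT1 _ (hgT1 _ hx)))
  have hst : s * F.t * s⁻¹ = V.t₂ := by
    have e : s * F.t * s⁻¹ = g * (g * (g * (g * F.t * g⁻¹) * g⁻¹) * g⁻¹) * g⁻¹ := by
      rw [hs]; group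
    rw [e, hgt, hgt₂, hgtt, hgt]
  have hst₂ : s * V.t₂ * s⁻¹ = F.t * V.t₂ := by
    have e : s * V.t₂ * s⁻¹ = g * (g * (g * (g * V.t₂ * g⁻¹) * g⁻¹) * g⁻¹) * g⁻¹ := by
      rw [hs]; group
    rw [e, hgt₂, hgtt, hgt, hgt₂]
  obtain ⟨u, hu, hcu⟩ := cent_A5_G D.T1 θ S.z (S.a 4) s D.z_mem D.a4_mem S.cl.z_sq (S.cl.a_sq 4) z_a4
    S.cl.z_ne a4_ne_one a4_ne_z hsz hsa hsT1
  have hu' : u ∈ S.U := hu
  have huE := F.U_le_E hu'
  have ht₂V : V.t₂ ∈ V.VV := Or.inr (Or.inr (Or.inl rfl))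
  have htV : F.t ∈ V.VV := Or.inr (Or.inl rfl)
  have httV : F.t * V.t₂ ∈ V.VV := Or.inr (Or.inr (Or.inr rfl))
  set y₀ := u⁻¹ * s with hy₀
  have hy₀T1 : ∀ x ∈ D.T1, y₀ * x = x * y₀ := by
    intro x hx
    have h1 := hcu x hx
    apply mul_inv_eq_iff_eq_mul.mp
    calc y₀ * x * y₀⁻¹ = u⁻¹ * (s * x * s⁻¹) * u := by rw [hy₀]; group
      _ = u⁻¹ * (u * x * u⁻¹) * u := by rw [h1]
      _ = x := by group
  have hconju : ∀ v ∈ V.VV, y₀ * v * y₀⁻¹ = s * v * s⁻¹ → True := fun _ _ _ => trivial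
  have hucomm : ∀ {v : G}, v ∈ V.VV → u⁻¹ * v * u = v := by
    intro v hv
    have := F.E_comm (V.VV_le_E hv) huE
    rw [mul_assoc, this]
    group
  have hy₀t : y₀ * F.t * y₀⁻¹ = V.t₂ := by
    calc y₀ * F.t * y₀⁻¹ = u⁻¹ * (s * F.t * s⁻¹) * u := by rw [hy₀]; group
      _ = V.t₂ := by rw [hst, hucomm ht₂V]
  have hy₀t₂ : y₀ * V.t₂ * y₀⁻¹ = F.t * V.t₂ := by
    calc y₀ * V.t₂ * y₀⁻¹ = u⁻¹ * (s * V.t₂ * s⁻¹) * u := by rw [hy₀]; group
      _ = F.t * V.t₂ := by rw [hst₂, hucomm httV]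
  have hy₀tt : y₀ * (F.t * V.t₂) * y₀⁻¹ = F.t := by
    calc y₀ * (F.t * V.t₂) * y₀⁻¹ = (y₀ * F.t * y₀⁻¹) * (y₀ * V.t₂ * y₀⁻¹) := by group
      _ = V.t₂ * (F.t * V.t₂) := by rw [hy₀t, hy₀t₂]
      _ = F.t := by rw [← mul_assoc, ← V.t_t₂, mul_assoc, V.t₂_sq, mul_one]
  set y₃ := y₀ * y₀ * y₀ with hy₃
  have hy₃t : y₃ * F.t * y₃⁻¹ = F.t := by
    rw [hy₃, hcm, hcm, hy₀t, hy₀t₂, hy₀tt]
  have hy₃T : y₃ ∈ F.T := mem_T.2 (mul_inv_eq_iff_eq_mul.mp hy₃t)
  have hy₃T1 : ∀ x ∈ D.T1, y₃ * x = x * y₃ := by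
    intro x hx
    have h1 := hy₀T1 x hx
    rw [hy₃, mul_assoc, mul_assoc, h1, ← mul_assoc y₀ x, h1, mul_assoc x, ← mul_assoc y₀ x, h1]
    simp only [mul_assoc]
  have hy₃V : y₃ ∈ V.VV := D.mem_VV_of_cent hy₃T θ hy₃T1
  have hy₃sq : y₃ * y₃ = 1 := V.VV_sq hy₃V
  have hy₃com : ∀ v ∈ V.VV, y₃ * v * y₃⁻¹ = v := by
    intro v hv
    have := F.E_comm (V.VV_le_E hy₃V) (V.VV_le_E hv)
    rw [this]
    group
  refine ⟨y₃ * y₀, ?_, ?_, ?_, ?_, ?_⟩
  · have e : y₃ * y₀ * (y₃ * y₀) * (y₃ * y₀) = (y₃ * y₃) * (y₃ * y₃) := by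
      rw [hy₃]; group
    rw [e, hy₃sq, one_mul]
  · intro h
    apply V.t_ne_t₂
    have h1 : (y₃ * y₀) * F.t * (y₃ * y₀)⁻¹ = V.t₂ := by
      rw [hcm, hy₀t, hy₃com _ ht₂V]
    rw [h] at h1
    simpa using h1
  · intro x hx
    rw [mul_assoc, hy₀T1 x hx, ← mul_assoc, hy₃T1 x hx, mul_assoc]
  · rw [hcm, hy₀t, hy₃com _ ht₂V]
  · rw [hcm, hy₀t₂, hy₃com _ httV]

end A5

end T1D

end Frame

end Setup

end Cfsg.Agent.Lib.HallJanko
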