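import Mathlib
import Cfsg.Agent.Lib.HallJanko.NV

/-!
# Hall-Janko type groups: the map `C(z) → A₅`, centralizers of elements of odd order in `C(z)`
-/

set_option autoImplicit false
set_option linter.unusedSimpArgs false
set_option linter.unusedSectionVars false
set_option linter.unusedVariables false
set_option synthInstance.maxHeartbeats 400000
set_option synthInstance.maxSize 4000
set_option maxRecDepth 100000

namespace Cfsg.Agent.Lib.HallJanko

open Equiv Subgroup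

variable {G : Type*} [Group G]

/-- The signed permutation action on words. -/
def PhiS (σ : Perm (Fin 5)) (e0 e1 e2 e3 : Bool) : QW → QW :=
  Phi (qsg e0 (qa (σ 0))) (qsg e1 (qa (σ 1))) (qsg e2 (qa (σ 2))) (qsg e3 (qa (σ 3)))

theorem five_fix : ∀ σ : Perm (Fin 5), σ ^ 5 = 1 → σ ≠ 1 → ∀ e0 e1 e2 e3 : Bool, ∀ w : QW,
    PhiS σ e0 e1 e2 e3 w = w → w = qone ∨ w = qz := by decide +kernel

theorem five_cent : ∀ σ : Perm (Fin 5), σ ^ 5 = 1 → σ ≠ 1 →
    (Finset.univ.filter (fun τ : Perm (Fin 5) => Perm.sign τ = 1 ∧ τ * σ = σ * τ)).card = 5 := by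
  decide +kernel

theorem three_cent : ∀ σ : Perm (Fin 5), σ ^ 3 = 1 → σ ≠ 1 →
    (Finset.univ.filter (fun τ : Perm (Fin 5) => Perm.sign τ = 1 ∧ τ * σ = σ * τ)).card = 3 := by
  decide +kernel

theorem three_inv : ∀ σ : Perm (Fin 5), σ ^ 3 = 1 → σ ≠ 1 →
    ∃ τ : Perm (Fin 5), Perm.sign τ = 1 ∧ τ * σ * τ⁻¹ = σ⁻¹ := by
  decide +kernel

theorem three_fix : ∀ σ : Perm (Fin 5), σ ^ 3 = 1 → σ ≠ 1 → ∀ e0 e1 e2 e3 : Bool,
    (∀ w : QW, PhiS σ e0 e1 e2 e3 (PhiS σ e0 e1 e2 e3 (PhiS σ e0 e1 e2 e3 w)) = w) →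
    (Finset.univ.filter (fun w : QW => PhiS σ e0 e1 e2 e3 w = w)).card = 8 := by
  decide +kernel

/-- The vanishing of `H¹`. -/
theorem three_H1 : ∀ σ : Perm (Fin 5), σ ^ 3 = 1 → σ ≠ 1 → ∀ e0 e1 e2 e3 : Bool,
    (∀ w : QW, PhiS σ e0 e1 e2 e3 (PhiS σ e0 e1 e2 e3 (PhiS σ e0 e1 e2 e3 w)) = w) →
    ∀ q : QW, qmul (qmul q (PhiS σ e0 e1 e2 e3 q)) (PhiS σ e0 e1 e2 e3 (PhiS σ e0 e1 e2 e3 q)) = qone →
    ∃ r : QW, qmul r (PhiS σ e0 e1 e2 e3 (qinv r)) = q := by
  decide +kernel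

theorem card_ker_mul_range {A B : Type*} [Group A] [Group B] [Finite A] (ψ : A →* B) :
    Nat.card A = Nat.card ψ.ker * Nat.card ψ.range := by
  have h := Subgroup.card_eq_card_quotient_mul_card_subgroup ψ.ker
  rw [Nat.card_congr (QuotientGroup.quotientKerEquivRange ψ).toEquiv] at h
  rw [h, mul_comm]

namespace Setup

variable {S : Setup G}

/-- The table of conjugation by an element of `C(z)`. -/
theorem exists_table {c : G} (hc : c * S.z = S.z * c) {σ : Perm (Fin 5)} (ha : Acts S.z S.a c σ) :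
    ∃ e0 e1 e2 e3 : Bool, ∀ w, c * ev S.z S.a w * c⁻¹ = ev S.z S.a (PhiS σ e0 e1 e2 e3 w) := by
  obtain ⟨e0, h0⟩ := exists_flag (S := S) (ha 0)
  obtain ⟨e1, h1⟩ := exists_flag (S := S) (ha 1)
  obtain ⟨e2, h2⟩ := exists_flag (S := S) (ha 2)
  obtain ⟨e3, h3⟩ := exists_flag (S := S) (ha 3)
  refine ⟨e0, e1, e2, e3, fun w => S.cl.conj_ev c hc ?_ ?_ ?_ ?_ w⟩
  · rw [ev_flag]; exact h0
  · rw [ev_flag]; exact h1
  · rw [ev_flag]; exact h2
  · rw [ev_flag]; exact h3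

variable (S) in
/-- The homomorphism `C(z) → A₅`. -/
noncomputable def pi : centralizer ({S.z} : Set G) →* Perm (Fin 5) where
  toFun c := Classical.choose (S.acts c.1 (mem_centralizer_singleton_iff.1 c.2))
  map_one' := S.cl.acts_unique (Classical.choose_spec
    (S.acts (1 : centralizer ({S.z} : Set G)).1
      (mem_centralizer_singleton_iff.1 (1 : centralizer ({S.z} : Set G)).2))).2 S.cl.acts_one_one
  map_mul' a b := S.cl.acts_unique (Classical.choose_spec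
    (S.acts (a * b : centralizer ({S.z} : Set G)).1
      (mem_centralizer_singleton_iff.1 (a * b : centralizer ({S.z} : Set G)).2))).2
    (S.cl.acts_mul (mem_centralizer_singleton_iff.1 a.2)
      (Classical.choose_spec (S.acts a.1 (mem_centralizer_singleton_iff.1 a.2))).2
      (Classical.choose_spec (S.acts b.1 (mem_centralizer_singleton_iff.1 b.2))).2)

theorem pi_spec (c : centralizer ({S.z} : Set G)) : Acts S.z S.a c.1 (S.pi c) :=
  (Classical.choose_spec (S.acts c.1 (mem_centralizer_singleton_iff.1 c.2))).2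

theorem pi_mem (c : centralizer ({S.z} : Set G)) : S.pi c ∈ alternatingGroup (Fin 5) :=
  (Classical.choose_spec (S.acts c.1 (mem_centralizer_singleton_iff.1 c.2))).1

theorem pi_eq_one_iff (c : centralizer ({S.z} : Set G)) : S.pi c = 1 ↔ c.1 ∈ S.Q := by
  constructor
  · intro h
    have := pi_spec c
    rw [h] at this
    exact S.ker c.1 (mem_centralizer_singleton_iff.1 c.2) this
  · intro h
    exact S.cl.acts_unique (pi_spec c) (S.acts_Q h)

/-- An element of `Q` has `2`-power order; so an element of odd order `p` of `C(z)` acts nontrivially. -/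
theorem pi_ne_one {x : G} (hx : x * S.z = S.z * x) {p : ℕ} (hp : p.Prime) (hp2 : p ≠ 2)
    (hord : orderOf x = p) :
    S.pi ⟨x, mem_centralizer_singleton_iff.2 hx⟩ ≠ 1 := by
  intro h
  have hQ := (pi_eq_one_iff _).1 h
  have h2 : orderOf (⟨x, hQ⟩ : S.Q) ∣ Nat.card S.Q := orderOf_dvd_natCard _
  rw [S.card_Q, ← Subgroup.orderOf_coe] at h2
  simp only at h2
  rw [hord] at h2
  have h3 : p ∣ 2 ^ 5 := by simpa using h2
  have := (Nat.prime_dvd_prime_iff_eq hp Nat.prime_two).1 (hp.dvd_of_dvd_pow h3)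
  exact hp2 this

/-- The restriction of `π` to `C(z) ∩ C(x)`. -/
noncomputable def psi (S : Setup G) (x : G) :
    ↥(centralizer ({S.z} : Set G) ⊓ centralizer ({x} : Set G) : Subgroup G) →* Perm (Fin 5) :=
  S.pi.comp (Subgroup.inclusion inf_le_left)

theorem psi_ker {x : G}
    (y : ↥(centralizer ({S.z} : Set G) ⊓ centralizer ({x} : Set G) : Subgroup G)) :
    y ∈ (psi S x).ker ↔ y.1 ∈ S.Q := by
  rw [MonoidHom.mem_ker]
  exact pi_eq_one_iff _

theorem card_range_le {x : G} (hx : x ∈ centralizer ({S.z} : Set G)) :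
    Nat.card (psi S x).range ≤
      (Finset.univ.filter (fun τ : Perm (Fin 5) => Perm.sign τ = 1 ∧ τ * S.pi ⟨x, hx⟩ = S.pi ⟨x, hx⟩ * τ)).card := by
  classical
  have hmap : ∀ τ : (psi S x).range, τ.1 ∈ (Finset.univ.filter (fun τ : Perm (Fin 5) =>
      Perm.sign τ = 1 ∧ τ * S.pi ⟨x, hx⟩ = S.pi ⟨x, hx⟩ * τ)) := by
    rintro ⟨_, y, rfl⟩
    refine Finset.mem_filter.2 ⟨Finset.mem_univ _, ?_, ?_⟩
    · exact Equiv.Perm.mem_alternatingGroup.1 (pi_mem _)
    · show S.pi _ * S.pi _ = S.pi _ * S.pi _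
      rw [← map_mul, ← map_mul]
      congr 1
      apply Subtype.ext
      exact mem_centralizer_singleton_iff.1 (mem_inf.1 y.2).2
  have hinj : Function.Injective (fun τ : (psi S x).range => (⟨τ.1, hmap τ⟩ : ↥(Finset.univ.filter
      (fun τ : Perm (Fin 5) => Perm.sign τ = 1 ∧ τ * S.pi ⟨x, hx⟩ = S.pi ⟨x, hx⟩ * τ)))) := by
    intro a b h
    have h' := congrArg Subtype.val h
    exact Subtype.ext h'
  have := Nat.card_le_card_of_injective _ hinj
  rwa [Nat.card_eq_fintype_card (α := ↥(Finset.univ.filter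
      (fun τ : Perm (Fin 5) => Perm.sign τ = 1 ∧ τ * S.pi ⟨x, hx⟩ = S.pi ⟨x, hx⟩ * τ))), Fintype.card_coe] at this

/-- `|C_C(f)| = 10` for `f` of order `5`. -/
theorem cent5 [Finite G] {f : G} (hf : f * S.z = S.z * f) (h5 : orderOf f = 5) :
    Nat.card (centralizer ({S.z} : Set G) ⊓ centralizer ({f} : Set G) : Subgroup G) = 10 := by
  classical
  have hfC : f ∈ centralizer ({S.z} : Set G) := mem_centralizer_singleton_iff.2 hf
  set σ := S.pi ⟨f, hfC⟩ with hσ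
  have hf5 : f ^ 5 = 1 := by rw [← h5]; exact pow_orderOf_eq_one f
  have hσ5 : σ ^ 5 = 1 := by
    rw [hσ, ← map_pow]
    have : (⟨f, hfC⟩ : centralizer ({S.z} : Set G)) ^ 5 = 1 := Subtype.ext hf5
    rw [this, map_one]
  have hσ1 : σ ≠ 1 := pi_ne_one hf (by norm_num) (by norm_num) h5
  set W := (centralizer ({S.z} : Set G) ⊓ centralizer ({f} : Set G) : Subgroup G) with hW
  have hcard := card_ker_mul_range (psi S f)
  have hr := card_range_le (S := S) hfC
  rw [five_cent σ hσ5 hσ1] at hr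
  -- the kernel
  have hzW : S.z ∈ W := mem_inf.2 ⟨mem_centralizer_singleton_iff.2 rfl,
    mem_centralizer_singleton_iff.2 hf.symm⟩
  have hfW : f ∈ W := mem_inf.2 ⟨hfC, mem_centralizer_singleton_iff.2 rfl⟩
  have hker : Nat.card (psi S f).ker = 2 := by
    rw [Nat.card_eq_two_iff]
    have h1 : (⟨S.z, hzW⟩ : W) ∈ (psi S f).ker := (psi_ker _).2 S.z_mem_Q
    refine ⟨1, ⟨⟨S.z, hzW⟩, h1⟩, ?_, ?_⟩
    · intro h
      exact S.cl.z_ne (congrArg (fun u : (psi S f).ker => u.1.1) h).symm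
    · ext y
      simp only [Set.mem_insert_iff, Set.mem_singleton_iff, Set.mem_univ, iff_true]
      obtain ⟨e0, e1, e2, e3, ht⟩ := exists_table hf (S.pi_spec ⟨f, hfC⟩)
      have hyQ : y.1.1 ∈ S.Q := (psi_ker _).1 y.2
      obtain ⟨w, hw⟩ := (S.Q_mem _).1 hyQ
      have hyf : y.1.1 * f = f * y.1.1 := mem_centralizer_singleton_iff.1 (mem_inf.1 y.1.2).2
      have h2 : PhiS σ e0 e1 e2 e3 w = w := by
        apply S.cl.ev_injective
        rw [← ht, ← hw, ← hyf]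
        group
      rcases five_fix σ hσ5 hσ1 e0 e1 e2 e3 w h2 with h3 | h3
      · left
        apply Subtype.ext
        apply Subtype.ext
        rw [hw, h3, S.cl.ev_one]
        rfl
      · right
        apply Subtype.ext
        apply Subtype.ext
        rw [hw, h3, S.cl.ev_qz]
  rw [hker] at hcard
  have h5d : 5 ∣ Nat.card W := by
    have h1 : orderOf (⟨f, hfW⟩ : W) ∣ Nat.card W := orderOf_dvd_natCard _
    rwa [← Subgroup.orderOf_coe, show ((⟨f, hfW⟩ : W) : G) = f from rfl, h5] at h1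
  have hpos : 0 < Nat.card (psi S f).range := Nat.card_pos
  rw [hcard] at h5d ⊢
  obtain ⟨k, hk⟩ := h5d
  omega

/-- `|C_C(y)| = 24` for `y` of order `3`. -/
theorem cent3 [Finite G] {y : G} (hy : y * S.z = S.z * y) (h3 : orderOf y = 3) :
    Nat.card (centralizer ({S.z} : Set G) ⊓ centralizer ({y} : Set G) : Subgroup G) = 24 := by
  classical
  have hyC : y ∈ centralizer ({S.z} : Set G) := mem_centralizer_singleton_iff.2 hy
  set σ := S.pi ⟨y, hyC⟩ with hσ
  have hy3 : y ^ 3 = 1 := by rw [← h3]; exact pow_orderOf_eq_one y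
  have hσ3 : σ ^ 3 = 1 := by
    rw [hσ, ← map_pow]
    have : (⟨y, hyC⟩ : centralizer ({S.z} : Set G)) ^ 3 = 1 := Subtype.ext hy3
    rw [this, map_one]
  have hσ1 : σ ≠ 1 := pi_ne_one hy (by norm_num) (by norm_num) h3
  set W := (centralizer ({S.z} : Set G) ⊓ centralizer ({y} : Set G) : Subgroup G) with hW
  have hcard := card_ker_mul_range (psi S y)
  have hr := card_range_le (S := S) hyC
  rw [three_cent σ hσ3 hσ1] at hr
  have hyW : y ∈ W := mem_inf.2 ⟨hyC, mem_centralizer_singleton_iff.2 rfl⟩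
  obtain ⟨e0, e1, e2, e3, ht⟩ := exists_table hy (S.pi_spec ⟨y, hyC⟩)
  have hker : Nat.card (psi S y).ker = 8 := by
    have hcube : ∀ w : QW, PhiS σ e0 e1 e2 e3 (PhiS σ e0 e1 e2 e3 (PhiS σ e0 e1 e2 e3 w)) = w := by
      intro w
      apply S.cl.ev_injective
      rw [← ht, ← ht, ← ht]
      have : y * (y * (y * ev S.z S.a w * y⁻¹) * y⁻¹) * y⁻¹ = (y * y * y) * ev S.z S.a w * (y * y * y)⁻¹ := by
        group
      have hyy : y * y * y = 1 := by rw [← hy3, pow_succ, pow_two]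
      rw [this, hyy]
      simp
    rw [← three_fix σ hσ3 hσ1 e0 e1 e2 e3 hcube]
    rw [← Fintype.card_coe, ← Nat.card_eq_fintype_card]
    symm
    have hb : Function.Bijective (fun w : ↥(Finset.univ.filter (fun w : QW => PhiS σ e0 e1 e2 e3 w = w)) =>
        (⟨⟨ev S.z S.a w.1, mem_inf.2 ⟨mem_centralizer_singleton_iff.2 (S.comm_z_of_mem_Q (S.mem_Q w.1)),
          mem_centralizer_singleton_iff.2 (by
            have h1 := ht w.1
            rw [(Finset.mem_filter.1 w.2).2] at h1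
            exact (mul_inv_eq_iff_eq_mul.mp h1).symm)⟩⟩,
          (psi_ker _).2 (S.mem_Q w.1)⟩ : (psi S y).ker)) := by
      constructor
      · intro a b h
        exact Subtype.ext (S.cl.ev_injective (congrArg (fun u : (psi S y).ker => u.1.1) h))
      · rintro ⟨⟨x, hx⟩, hxk⟩
        have hxQ : x ∈ S.Q := (psi_ker _).1 hxk
        obtain ⟨w, rfl⟩ := (S.Q_mem _).1 hxQ
        have hxy : ev S.z S.a w * y = y * ev S.z S.a w :=
          mem_centralizer_singleton_iff.1 (mem_inf.1 hx).2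
        refine ⟨⟨w, Finset.mem_filter.2 ⟨Finset.mem_univ _, ?_⟩⟩, rfl⟩
        apply S.cl.ev_injective
        rw [← ht, ← hxy]
        group
    exact Nat.card_congr (Equiv.ofBijective _ hb)
  rw [hker] at hcard
  have h3d : 3 ∣ Nat.card W := by
    have h1 : orderOf (⟨y, hyW⟩ : W) ∣ Nat.card W := orderOf_dvd_natCard _
    rwa [← Subgroup.orderOf_coe, show ((⟨y, hyW⟩ : W) : G) = y from rfl, h3] at h1
  have hpos : 0 < Nat.card (psi S y).range := Nat.card_pos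
  rw [hcard] at h3d ⊢
  obtain ⟨k, hk⟩ := h3d
  omega

/-- An element of order `3` of `C(z)` is inverted in `C(z)`. -/
theorem exists_inverter [Finite G] {y : G} (hy : y * S.z = S.z * y) (h3 : orderOf y = 3) :
    ∃ c : G, c * S.z = S.z * c ∧ c * y * c⁻¹ = y⁻¹ := by
  classical
  have hyC : y ∈ centralizer ({S.z} : Set G) := mem_centralizer_singleton_iff.2 hy
  set σ := S.pi ⟨y, hyC⟩ with hσ
  have hy3 : y ^ 3 = 1 := by rw [← h3]; exact pow_orderOf_eq_one y
  have hσ3 : σ ^ 3 = 1 := by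
    rw [hσ, ← map_pow]
    have : (⟨y, hyC⟩ : centralizer ({S.z} : Set G)) ^ 3 = 1 := Subtype.ext hy3
    rw [this, map_one]
  have hσ1 : σ ≠ 1 := pi_ne_one hy (by norm_num) (by norm_num) h3
  have hay : Acts S.z S.a y σ := S.pi_spec ⟨y, hyC⟩
  obtain ⟨e0, e1, e2, e3, ht⟩ := exists_table hy hay
  have hcube : ∀ w : QW, PhiS σ e0 e1 e2 e3 (PhiS σ e0 e1 e2 e3 (PhiS σ e0 e1 e2 e3 w)) = w := by
    intro w
    apply S.cl.ev_injective
    rw [← ht, ← ht, ← ht]
    have : y * (y * (y * ev S.z S.a w * y⁻¹) * y⁻¹) * y⁻¹ = (y * y * y) * ev S.z S.a w * (y * y * y)⁻¹ := by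
      group
    have hyy : y * y * y = 1 := by rw [← hy3, pow_succ, pow_two]
    rw [this, hyy]
    simp
  obtain ⟨τ, hτ, hτσ⟩ := three_inv σ hσ3 hσ1
  obtain ⟨c₀, hc₀, hc₀a⟩ := S.sur τ (Equiv.Perm.mem_alternatingGroup.2 hτ)
  set w := c₀ * y * c₀⁻¹ with hw
  have hc₀i : c₀⁻¹ * S.z = S.z * c₀⁻¹ := (show Commute c₀ S.z from hc₀).inv_left
  have hyi : y⁻¹ * S.z = S.z * y⁻¹ := (show Commute y S.z from hy).inv_left
  have hwa : Acts S.z S.a w σ⁻¹ := by
    have h1 := S.cl.acts_mul (c := c₀ * y) (mul_assoc c₀ y S.z ▸ by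
      rw [hy, ← mul_assoc, hc₀, mul_assoc]) (S.cl.acts_mul hc₀ hc₀a hay) (S.cl.acts_inv hc₀ hc₀a)
    rwa [hτσ] at h1
  have hwz : w * S.z = S.z * w := by
    rw [hw]
    exact Frame.conj_comm hc₀ hy
  have hwi : w⁻¹ * S.z = S.z * w⁻¹ := (show Commute w S.z from hwz).inv_left
  have hwia : Acts S.z S.a w⁻¹ σ := by
    have := S.cl.acts_inv hwz hwa
    simpa using this
  set q := w⁻¹ * y⁻¹ with hq
  have hqa : Acts S.z S.a q 1 := by
    have := S.cl.acts_mul hwi hwia (S.cl.acts_inv hy hay)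
    simpa using this
  have hqz : q * S.z = S.z * q := by
    rw [hq, mul_assoc, hyi, ← mul_assoc, hwi, mul_assoc]
  have hqQ := S.ker q hqz hqa
  obtain ⟨q₀, hq₀⟩ := (S.Q_mem q).1 hqQ
  have hwq : w⁻¹ = q * y := by rw [hq]; group
  have hw3 : w * w * w = 1 := by
    have : w * w * w = c₀ * (y * y * y) * c₀⁻¹ := by rw [hw]; group
    have hyy : y * y * y = 1 := by rw [← hy3, pow_succ, pow_two]
    rw [this, hyy]; group
  have hcond : qmul (qmul q₀ (PhiS σ e0 e1 e2 e3 q₀)) (PhiS σ e0 e1 e2 e3 (PhiS σ e0 e1 e2 e3 q₀)) = qone := by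
    apply S.cl.ev_injective
    have hh1 : ev S.z S.a (PhiS σ e0 e1 e2 e3 q₀) = y * q * y⁻¹ := by rw [← ht, ← hq₀]
    have hh2 : ev S.z S.a (PhiS σ e0 e1 e2 e3 (PhiS σ e0 e1 e2 e3 q₀)) = y * (y * q * y⁻¹) * y⁻¹ := by
      rw [← ht, hh1]
    rw [← S.cl.ev_mul, ← S.cl.ev_mul, hh2, hh1, ← hq₀, S.cl.ev_one]
    have h1 : w⁻¹ * w⁻¹ * w⁻¹ = 1 := by
      have : w⁻¹ * w⁻¹ * w⁻¹ = (w * w * w)⁻¹ := by group
      rw [this, hw3, inv_one]
    rw [hwq] at h1
    have h2 : q * (y * q * y⁻¹) * (y * (y * q * y⁻¹) * y⁻¹) = q * y * (q * y) * (q * y) * (y * y * y)⁻¹ := by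
      group
    have hyy : y * y * y = 1 := by rw [← hy3, pow_succ, pow_two]
    rw [h2, h1, hyy]
    simp
  obtain ⟨r₀, hr₀⟩ := three_H1 σ hσ3 hσ1 e0 e1 e2 e3 hcube q₀ hcond
  set r := ev S.z S.a r₀ with hr
  have hrz : r * S.z = S.z * r := S.comm_z_of_mem_Q (S.mem_Q r₀)
  have hry : r * y * r⁻¹ = w⁻¹ := by
    have h1 : r * (y * r⁻¹ * y⁻¹) = q := by
      rw [hq₀, ← hr₀, ← S.cl.ev_mul, ← ht, ← S.cl.ev_inv]
    calc r * y * r⁻¹ = r * (y * r⁻¹ * y⁻¹) * y := by group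
      _ = q * y := by rw [h1]
      _ = w⁻¹ := hwq.symm
  refine ⟨c₀⁻¹ * r, ?_, ?_⟩
  · rw [mul_assoc, hrz, ← mul_assoc, hc₀i, mul_assoc]
  · calc (c₀⁻¹ * r) * y * (c₀⁻¹ * r)⁻¹ = c₀⁻¹ * (r * y * r⁻¹) * c₀ := by group
      _ = c₀⁻¹ * w⁻¹ * c₀ := by rw [hry]
      _ = y⁻¹ := by rw [hw]; group

end Setup

end Cfsg.Agent.Lib.HallJanko
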