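import Mathlib
import Cfsg.Agent.Lib.HallJanko.Pi
import Cfsg.Agent.Lib.HallJanko.Pkg

/-!
# Hall-Janko type groups: the package

A term of `Pkg G` from the hypotheses of the Hall-Janko type theorem.
-/

set_option autoImplicit false
set_option linter.unusedSimpArgs false
set_option linter.unusedSectionVars false
set_option linter.unusedVariables false
set_option synthInstance.maxHeartbeats 400000
set_option synthInstance.maxSize 4000
set_option maxRecDepth 100000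

namespace Cfsg.Agent.Lib.HallJanko

open Equiv Subgroup

variable {G : Type*} [Group G]

namespace Setup

variable {S : Setup G}

namespace Frame

variable {F : Frame S}

namespace T1D

variable {L : F.EllD} {V : VD L} (D : T1D V)

/-- An element is `y'^i` times an element of `T`, `i < 3`. -/
theorem exists_pow_mul_T [Finite G] (hJ : ¬ IsConj F.t S.z) (θ : D.T1 ≃* alternatingGroup (Fin 5))
    {y' : G} (h1 : y' * F.t * y'⁻¹ = V.t₂) (h2 : y' * V.t₂ * y'⁻¹ = F.t * V.t₂)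
    {g : G} (hg : g * F.t * g⁻¹ ∈ ({F.t, V.t₂, F.t * V.t₂} : Set G)) :
    ∃ i : ℕ, (y' ^ i)⁻¹ * g ∈ F.T := by
  have hy2 : (y' * y') * F.t * (y' * y')⁻¹ = F.t * V.t₂ := by
    calc (y' * y') * F.t * (y' * y')⁻¹ = y' * (y' * F.t * y'⁻¹) * y'⁻¹ := by group
      _ = _ := by rw [h1, h2]
  rcases hg with h | h | h
  · refine ⟨0, mem_T.2 ?_⟩
    simpa using mul_inv_eq_iff_eq_mul.mp h
  · refine ⟨1, mem_T.2 ?_⟩
    have : y'⁻¹ * g * F.t * (y'⁻¹ * g)⁻¹ = F.t := by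
      calc y'⁻¹ * g * F.t * (y'⁻¹ * g)⁻¹ = y'⁻¹ * (g * F.t * g⁻¹) * y' := by group
        _ = y'⁻¹ * (y' * F.t * y'⁻¹) * y' := by rw [h, h1]
        _ = F.t := by group
    simpa using mul_inv_eq_iff_eq_mul.mp this
  · refine ⟨2, mem_T.2 ?_⟩
    rw [pow_two]
    have h' : g * F.t * g⁻¹ = F.t * V.t₂ := h
    have key : ∀ a : G, a⁻¹ * g * F.t * (a⁻¹ * g)⁻¹ = a⁻¹ * (g * F.t * g⁻¹) * a := fun a => by group
    have key2 : ∀ a : G, a⁻¹ * (a * F.t * a⁻¹) * a = F.t := fun a => by group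
    have : (y' * y')⁻¹ * g * F.t * ((y' * y')⁻¹ * g)⁻¹ = F.t := by
      rw [key, h', ← hy2, key2]
    exact mul_inv_eq_iff_eq_mul.mp this

end T1D

end Frame

end Setup

/-- The package for a group of Hall-Janko type, from the local data. -/
theorem exists_pkg_of_data [Finite G] {S : Setup G} {F : S.Frame} {L : F.EllD} {V : Setup.Frame.VD L}
    (D : Setup.Frame.T1D V) (hJ : ¬ IsConj F.t S.z) : ∃ p : Pkg G, p.z = S.z := by
  classical
  obtain ⟨h60, ⟨θ⟩, hG⟩ := D.order hJ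
  obtain ⟨y', hy1, hy2, hy3, hy4, hy5⟩ := D.exists_y' θ hJ
  have htV : F.t ∈ V.VV := Or.inr (Or.inl rfl)
  have ht₂V : V.t₂ ∈ V.VV := Or.inr (Or.inr (Or.inl rfl))
  have httV : F.t * V.t₂ ∈ V.VV := Or.inr (Or.inr (Or.inr rfl))
  have h3 : orderOf y' = 3 := by
    apply orderOf_eq_prime _ hy2
    rw [pow_succ, pow_two, hy1]
  have hyz : y' * S.z = S.z * y' := hy3 _ D.z_mem
  refine ⟨⟨S.z, F.t, V.t₂, y', D.T1, θ, S.cl.z_sq, S.cl.z_ne, F.t_sq, F.t_ne_one, V.t₂_sq, V.t₂_ne_one,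
    V.t_ne_t₂.symm, V.t_t₂, hJ, ?_, hG, S.card_C, ?_, D.z_mem, fun x hx => D.cent_VV θ htV hx,
    fun x hx => D.cent_VV θ ht₂V hx, ?_, ?_, ?_, ?_, hy1, hy2, hy3, hy4, hy5, ?_, ?_, ?_, ?_⟩, rfl⟩
  · exact fun w h1 h2 => F.all_inv h1 h2
  · rw [D.card_T, h60]
  · exact fun h => F.t_ne_one (D.VV_inter htV h)
  · exact fun h => V.t₂_ne_one (D.VV_inter ht₂V h)
  · intro h
    exact V.tt₂_not_U ((D.meet _ (V.VV_le_E httV)).1 h)
  · intro g hg
    obtain ⟨v, hv, x, hx, rfl⟩ := D.form (Setup.Frame.mem_T.2 hg)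
    refine ⟨x, hx, ?_⟩
    rcases hv with rfl | rfl | rfl | rfl
    · left; rw [one_mul]
    · right; left; rfl
    · right; right; left; rfl
    · right; right; right; rfl
  · intro g hg _
    obtain ⟨i, hi⟩ := D.exists_pow_mul_T hJ θ hy4 hy5 hg
    obtain ⟨v, hv, x, hx, h⟩ := D.form hi
    have e : g = y' ^ i * (v * x) := by rw [← h]; group
    refine ⟨i, x, hx, ?_⟩
    rcases hv with rfl | rfl | rfl | rfl
    · left; rw [e, one_mul]
    · right; left; exact e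
    · right; right; left; exact e
    · right; right; right; exact e
  · intro f hf h5
    exact Setup.cent5 hf h5
  · intro y hy h3'
    exact Setup.cent3 hy h3'
  · exact Setup.exists_inverter hyz h3

/-- The package for a group of Hall-Janko type. -/
theorem exists_pkg {G : Type*} [Group G] [Finite G] (z : G) (hz : orderOf z = 2)
    (Q : Subgroup (Subgroup.centralizer ({z} : Set G))) [Q.Normal]
    (hF : Cfsg.generalizedFittingSubgroup (Subgroup.centralizer ({z} : Set G)) = Q)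
    (hQ : Cfsg.IsExtraspecial 2 Q) (hcard : Nat.card Q = 2 ^ 5)
    (e : (Subgroup.centralizer ({z} : Set G)) ⧸ Q ≃* Cfsg.Omega (ZMod 2) (Cfsg.quadFormMinus 1 (ZMod 2) 1 1))
    (hnwc : ∃ g : G, (∃ hq : g * z * g⁻¹ ∈ Subgroup.centralizer ({z} : Set G),
      (⟨g * z * g⁻¹, hq⟩ : Subgroup.centralizer ({z} : Set G)) ∈ Q) ∧ g * z * g⁻¹ ≠ z)
    (hcl : ∃ x y : G, orderOf x = 2 ∧ orderOf y = 2 ∧ ¬ IsConj x y) : ∃ p : Pkg G, p.z = z := by
  obtain ⟨S, rfl⟩ := exists_setup z hz Q hF hQ hcard e hnwc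
  obtain ⟨x, y, hx, hy, hxy⟩ := hcl
  have key : ∀ w : G, orderOf w = 2 → w * w = 1 ∧ w ≠ 1 := fun w hw => by
    have h1 : w ^ 2 = 1 := by rw [← hw]; exact pow_orderOf_eq_one w
    refine ⟨by rwa [pow_two] at h1, ?_⟩
    rintro rfl
    simp at hw
  obtain ⟨w, hw, hw1, hwz⟩ : ∃ w : G, w * w = 1 ∧ w ≠ 1 ∧ ¬ IsConj w S.z := by
    by_cases hxz : IsConj x S.z
    · refine ⟨y, (key y hy).1, (key y hy).2, fun hyz => hxy (hxz.trans hyz.symm)⟩
    · exact ⟨x, (key x hx).1, (key x hx).2, hxz⟩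
  obtain ⟨F, L, V, D, hJ⟩ := S.exists_data hw hw1 hwz
  exact exists_pkg_of_data D hJ

end Cfsg.Agent.Lib.HallJanko
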