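import Mathlib
import Cfsg.Agent.Lib.HallJanko.PkgBuild
import Cfsg.Agent.Lib.Basic.PCore
import Cfsg.Agent.Lib.PSL2.CosetIso

/-!
# Hall-Janko type groups: the second involution

`C(t) ≃ 2² × A₅` and `N(O₂(C(t))) ≃ A₄ × A₅`.
-/

set_option autoImplicit false
set_option linter.unusedSimpArgs false
set_option linter.unusedSectionVars false
set_option linter.unusedVariables false
set_option synthInstance.maxHeartbeats 400000
set_option synthInstance.maxSize 4000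
set_option maxRecDepth 100000

namespace Cfsg.Agent.Lib.HallJanko

open Equiv Subgroup

variable {G : Type*} [Group G]

/-- An internal direct product. -/
theorem prod_equiv (H A B : Subgroup G) (hA : A ≤ H) (hB : B ≤ H)
    (comm : ∀ a ∈ A, ∀ b ∈ B, a * b = b * a) (inter : ∀ a ∈ A, a ∈ B → a = 1)
    (cover : ∀ h ∈ H, ∃ a ∈ A, ∃ b ∈ B, h = a * b) : Nonempty (H ≃* A × B) := by
  let f : A × B →* H :=
    { toFun := fun p => ⟨p.1.1 * p.2.1, mul_mem (hA p.1.2) (hB p.2.2)⟩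
      map_one' := by
        apply Subtype.ext
        simp
      map_mul' := by
        rintro ⟨⟨a, ha⟩, ⟨b, hb⟩⟩ ⟨⟨a', ha'⟩, ⟨b', hb'⟩⟩
        apply Subtype.ext
        show a * a' * (b * b') = a * b * (a' * b')
        have := comm a' ha' b hb
        calc a * a' * (b * b') = a * (a' * b) * b' := by group
          _ = a * (b * a') * b' := by rw [this]
          _ = _ := by group }
  have hf : Function.Bijective f := by
    constructor
    · rw [injective_iff_map_eq_one]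
      rintro ⟨⟨a, ha⟩, ⟨b, hb⟩⟩ h
      have h1 : a * b = 1 := congrArg Subtype.val h
      have h2 : a = b⁻¹ := eq_inv_of_mul_eq_one_left h1
      have h3 : a = 1 := inter a ha (h2 ▸ inv_mem hb)
      have h4 : b = 1 := by
        rw [h3, one_mul] at h1
        exact h1
      apply Prod.ext
      · exact Subtype.ext h3
      · exact Subtype.ext h4
    · rintro ⟨h, hh⟩
      obtain ⟨a, ha, b, hb, rfl⟩ := cover h hh
      exact ⟨(⟨a, ha⟩, ⟨b, hb⟩), rfl⟩
  exact ⟨(MulEquiv.ofBijective f hf).symm⟩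

/-- `A₅` has trivial centre. -/
theorem center_A5 : center (alternatingGroup (Fin 5)) = ⊥ := by
  have h := (alternatingGroup.isSimpleGroup_five).eq_bot_or_eq_top_of_normal
    (center (alternatingGroup (Fin 5))) inferInstance
  rcases h with h | h
  · exact h
  · exfalso
    have h1 : (⟨swap 0 1 * swap 1 2, Equiv.Perm.mem_alternatingGroup.2 (by decide)⟩ :
        alternatingGroup (Fin 5)) ∈ center (alternatingGroup (Fin 5)) := by
      rw [h]; trivial
    have h2 := (mem_center_iff.1 h1) ⟨swap 0 1 * swap 2 3, Equiv.Perm.mem_alternatingGroup.2 (by decide)⟩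
    have h3 := congrArg Subtype.val h2
    revert h3
    decide

/-- Transport of the `p`-core along an isomorphism. -/
theorem map_pCore_equiv {A B : Type*} [Group A] [Group B] [Finite A] [Finite B] (p : ℕ) [Fact p.Prime]
    (e : A ≃* B) : (Cfsg.pCore p A).map e.toMonoidHom = Cfsg.pCore p B := by
  apply le_antisymm
  · exact Cfsg.Agent.Lib.Basic.PCore.map_pCore_le_of_surjective e.surjective
  · intro x hx
    have h1 : (Cfsg.pCore p B).map e.symm.toMonoidHom ≤ Cfsg.pCore p A :=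
      Cfsg.Agent.Lib.Basic.PCore.map_pCore_le_of_surjective e.symm.surjective
    refine ⟨e.symm x, h1 ⟨x, hx, rfl⟩, ?_⟩
    simp

/-- The conclusion of the theorem on the second involution. -/
def Concl (τ : G) : Prop :=
  Nonempty (↥(centralizer ({τ} : Set G)) ≃*
      (Multiplicative (ZMod 2) × Multiplicative (ZMod 2)) × alternatingGroup (Fin 5)) ∧
    Nonempty (↥(normalizer (((Cfsg.pCore 2 ↥(centralizer ({τ} : Set G))).map
      (centralizer ({τ} : Set G)).subtype : Subgroup G) : Set G)) ≃*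
      alternatingGroup (Fin 4) × alternatingGroup (Fin 5))

/-- The conclusion is invariant under conjugation. -/
theorem Concl_conj [Finite G] {τ : G} (c : G) (h : Concl τ) : Concl (c * τ * c⁻¹) := by
  obtain ⟨⟨e1⟩, ⟨e2⟩⟩ := h
  let φ : G ≃* G := MulAut.conj c
  have hφ : ∀ x, φ x = c * x * c⁻¹ := fun x => rfl
  have hA : (centralizer ({τ} : Set G)).map φ.toMonoidHom = centralizer ({c * τ * c⁻¹} : Set G) := by
    ext x
    rw [mem_centralizer_singleton_iff]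
    constructor
    · rintro ⟨y, hy, rfl⟩
      have h1 : y * τ = τ * y := mem_centralizer_singleton_iff.1 hy
      show c * y * c⁻¹ * (c * τ * c⁻¹) = c * τ * c⁻¹ * (c * y * c⁻¹)
      calc c * y * c⁻¹ * (c * τ * c⁻¹) = c * (y * τ) * c⁻¹ := by group
        _ = c * (τ * y) * c⁻¹ := by rw [h1]
        _ = _ := by group
    · intro hx
      refine ⟨c⁻¹ * x * c, mem_centralizer_singleton_iff.2 ?_, ?_⟩
      · have h1 : c⁻¹ * (x * (c * τ * c⁻¹)) * c = c⁻¹ * ((c * τ * c⁻¹) * x) * c := by rw [hx]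
        calc c⁻¹ * x * c * τ = c⁻¹ * (x * (c * τ * c⁻¹)) * c := by group
          _ = c⁻¹ * ((c * τ * c⁻¹) * x) * c := h1
          _ = _ := by group
      · show c * (c⁻¹ * x * c) * c⁻¹ = x
        group
  let eA : centralizer ({τ} : Set G) ≃* centralizer ({c * τ * c⁻¹} : Set G) :=
    (φ.subgroupMap (centralizer ({τ} : Set G))).trans (MulEquiv.subgroupCongr hA)
  have heA : ∀ x : centralizer ({τ} : Set G), (eA x : G) = φ x := fun x => rfl
  refine ⟨⟨eA.symm.trans e1⟩, ?_⟩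
  have : Fact (Nat.Prime 2) := ⟨Nat.prime_two⟩
  have hW : (Cfsg.pCore 2 ↥(centralizer ({c * τ * c⁻¹} : Set G))).map
      (centralizer ({c * τ * c⁻¹} : Set G)).subtype =
      ((Cfsg.pCore 2 ↥(centralizer ({τ} : Set G))).map (centralizer ({τ} : Set G)).subtype).map
        φ.toMonoidHom := by
    rw [← map_pCore_equiv 2 eA]
    ext x
    simp only [mem_map]
    constructor
    · rintro ⟨_, ⟨y, hy, rfl⟩, rfl⟩
      exact ⟨y.1, ⟨y, hy, rfl⟩, rfl⟩
    · rintro ⟨_, ⟨y, hy, rfl⟩, rfl⟩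
      exact ⟨eA y, ⟨y, hy, rfl⟩, rfl⟩
  rw [hW, ← map_equiv_normalizer_eq]
  exact ⟨(φ.subgroupMap _).symm.trans e2⟩

namespace Pkg

variable (p : Pkg G)

theorem t₂_z_eq : p.t * p.t₂ ≠ 1 := by
  intro h
  apply p.t₂_ne_t
  have h1 : p.t⁻¹ = p.t := inv_eq_of_mul_eq_one_left p.t_sq
  have := eq_inv_of_mul_eq_one_right h
  rw [this, h1]

/-- The four-group `V`. -/
def VP : Subgroup G := Setup.four p.t p.t₂ p.t_sq p.t₂_sq p.t_t₂

theorem mem_VP {x : G} : x ∈ p.VP ↔ x = 1 ∨ x = p.t ∨ x = p.t₂ ∨ x = p.t * p.t₂ := Iff.rfl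

theorem card_VP : Nat.card p.VP = 4 :=
  Setup.card_four _ _ _ p.t_ne p.t₂_ne p.t₂_ne_t.symm

theorem VP_sq {x : G} (hx : x ∈ p.VP) : x * x = 1 := by
  rcases hx with rfl | rfl | rfl | rfl
  · simp
  · exact p.t_sq
  · exact p.t₂_sq
  · calc p.t * p.t₂ * (p.t * p.t₂) = p.t * (p.t₂ * p.t) * p.t₂ := by group
      _ = p.t * (p.t * p.t₂) * p.t₂ := by rw [p.t_t₂]
      _ = (p.t * p.t) * (p.t₂ * p.t₂) := by group
      _ = 1 := by rw [p.t_sq, p.t₂_sq, one_mul]

theorem VP_comm_T1 {v x : G} (hv : v ∈ p.VP) (hx : x ∈ p.T1) : v * x = x * v := by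
  rcases hv with rfl | rfl | rfl | rfl
  · simp
  · exact p.t_comm x hx
  · exact p.t₂_comm x hx
  · rw [mul_assoc, p.t₂_comm x hx, ← mul_assoc, p.t_comm x hx, mul_assoc]

theorem VP_inter {v : G} (hv : v ∈ p.VP) (hx : v ∈ p.T1) : v = 1 := by
  rcases hv with h | h | h | h
  · exact h
  · exact absurd (h ▸ hx) p.t_notMem
  · exact absurd (h ▸ hx) p.t₂_notMem
  · exact absurd (h ▸ hx) p.tt₂_notMem

theorem VP_comm {v w : G} (hv : v ∈ p.VP) (hw : w ∈ p.VP) : v * w = w * v := by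
  have key : ∀ {a : G}, a ∈ p.VP → p.t * a = a * p.t ∧ p.t₂ * a = a * p.t₂ := by
    rintro a (rfl | rfl | rfl | rfl)
    · simp
    · exact ⟨rfl, p.t_t₂.symm⟩
    · exact ⟨p.t_t₂, rfl⟩
    · refine ⟨?_, ?_⟩
      · rw [mul_assoc p.t p.t₂ p.t, ← p.t_t₂]
      · rw [← mul_assoc, ← p.t_t₂]
  rcases hv with rfl | rfl | rfl | rfl
  · simp
  · exact (key hw).1
  · exact (key hw).2
  · rw [mul_assoc, (key hw).2, ← mul_assoc, (key hw).1, mul_assoc]

theorem VP_le_T {v : G} (hv : v ∈ p.VP) : v ∈ centralizer ({p.t} : Set G) :=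
  mem_centralizer_singleton_iff.2 (p.VP_comm hv (Or.inr (Or.inl rfl)))

theorem T1_le_T {x : G} (hx : x ∈ p.T1) : x ∈ centralizer ({p.t} : Set G) :=
  mem_centralizer_singleton_iff.2 (p.t_comm x hx).symm

/-- `T = V T1`. -/
theorem form_T {g : G} (hg : g ∈ centralizer ({p.t} : Set G)) : ∃ v ∈ p.VP, ∃ x ∈ p.T1, g = v * x := by
  obtain ⟨x, hx, h⟩ := p.mem_Ct g (mem_centralizer_singleton_iff.1 hg)
  rcases h with h | h | h | h
  · exact ⟨1, Or.inl rfl, x, hx, by simp [h]⟩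
  · exact ⟨p.t, Or.inr (Or.inl rfl), x, hx, h⟩
  · exact ⟨p.t₂, Or.inr (Or.inr (Or.inl rfl)), x, hx, h⟩
  · exact ⟨p.t * p.t₂, Or.inr (Or.inr (Or.inr rfl)), x, hx, h⟩

/-- `V` is a Klein four-group. -/
theorem VP_equiv : Nonempty (p.VP ≃* Multiplicative (ZMod 2) × Multiplicative (ZMod 2)) := by
  have hk : IsKleinFour p.VP := by
    have hnt : Nontrivial p.VP := by
      refine ⟨⟨1, ⟨p.t, Or.inr (Or.inl rfl)⟩, fun h => p.t_ne (congrArg Subtype.val h).symm⟩⟩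
    refine ⟨p.card_VP, ?_⟩
    rw [Monoid.exponent_eq_prime_iff Nat.prime_two]
    rintro ⟨g, hg⟩ h1
    apply orderOf_eq_prime
    · apply Subtype.ext
      show g ^ 2 = 1
      rw [pow_two]
      exact p.VP_sq hg
    · exact h1
  obtain ⟨e⟩ : Nonempty (p.VP ≃* Multiplicative (ZMod 2 × ZMod 2)) := IsKleinFour.nonempty_mulEquiv
  exact ⟨e.trans (MulEquiv.prodMultiplicative (ZMod 2) (ZMod 2))⟩

/-- The first assertion for `t`. -/
theorem equiv_T : Nonempty (↥(centralizer ({p.t} : Set G)) ≃*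
    (Multiplicative (ZMod 2) × Multiplicative (ZMod 2)) × alternatingGroup (Fin 5)) := by
  obtain ⟨e⟩ := prod_equiv (centralizer ({p.t} : Set G)) p.VP p.T1 (fun _ hv => p.VP_le_T hv)
    (fun _ hx => p.T1_le_T hx) (fun a ha b hb => p.VP_comm_T1 ha hb) (fun a ha hb => p.VP_inter ha hb)
    (fun h hh => p.form_T hh)
  obtain ⟨e2⟩ := p.VP_equiv
  exact ⟨e.trans (MulEquiv.prodCongr e2 p.θ)⟩

/-- `O₂(T) = V`. -/
theorem pCore_T [Finite G] : (Cfsg.pCore 2 ↥(centralizer ({p.t} : Set G))).map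
    (centralizer ({p.t} : Set G)).subtype = p.VP := by
  classical
  have : Fact (Nat.Prime 2) := ⟨Nat.prime_two⟩
  set T := centralizer ({p.t} : Set G) with hT
  have hcore := Cfsg.Agent.Lib.Basic.PCore.pCore_normal 2 T
  have hVn : (p.VP.subgroupOf T).Normal := by
    constructor
    intro n hn g
    rw [Subgroup.mem_subgroupOf] at hn ⊢
    obtain ⟨v, hv, x, hx, hg⟩ := p.form_T g.2
    have h1 : (g : G) * n * (g : G)⁻¹ = n := by
      rw [hg]
      have h2 := p.VP_comm_T1 hn hx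
      have h3 := p.VP_comm hv hn
      calc v * x * n * (v * x)⁻¹ = v * (x * n) * x⁻¹ * v⁻¹ := by group
        _ = v * (n * x) * x⁻¹ * v⁻¹ := by rw [h2]
        _ = (v * n) * v⁻¹ := by group
        _ = (n * v) * v⁻¹ := by rw [h3]
        _ = n := by group
    show (g : G) * n * (g : G)⁻¹ ∈ p.VP
    rw [h1]
    exact hn
  have hVp : IsPGroup 2 (p.VP.subgroupOf T) := by
    apply IsPGroup.of_card (n := 2)
    rw [Nat.card_congr (Subgroup.subgroupOfEquivOfLe (fun _ hv => p.VP_le_T hv)).toEquiv, p.card_VP]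
    norm_num
  have hle : p.VP.subgroupOf T ≤ Cfsg.pCore 2 T := Cfsg.Agent.Lib.Basic.PCore.le_pCore hVn hVp
  -- the intersection with `T1`
  let M : Subgroup p.T1 := ((Cfsg.pCore 2 T).map T.subtype).subgroupOf p.T1
  have hMn : M.Normal := by
    constructor
    intro n hn g
    rw [Subgroup.mem_subgroupOf] at hn ⊢
    obtain ⟨y, hy, hyn⟩ := hn
    refine ⟨⟨g.1, p.T1_le_T g.2⟩ * y * (⟨g.1, p.T1_le_T g.2⟩ : T)⁻¹, hcore.conj_mem _ hy _, ?_⟩
    show g.1 * y.1 * g.1⁻¹ = g.1 * n.1 * g.1⁻¹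
    rw [show y.1 = n.1 from hyn]
  have hMp : IsPGroup 2 M := by
    have h1 : IsPGroup 2 ((Cfsg.pCore 2 T).map T.subtype) :=
      (Cfsg.Agent.Lib.Basic.PCore.pCore_isPGroup 2).map _
    exact (h1.comap_of_injective p.T1.subtype p.T1.subtype_injective)
  have hMb : M = ⊥ := by
    have hs : IsSimpleGroup p.T1 := p.θ.isSimpleGroup
    rcases hs.eq_bot_or_eq_top_of_normal M hMn with h | h
    · exact h
    · exfalso
      rw [h] at hMp
      have h60 : Nat.card p.T1 = 60 := by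
        rw [Nat.card_congr p.θ.toEquiv, Nat.card_eq_fintype_card]
        rfl
      obtain ⟨k, hk⟩ := hMp.exists_card_eq
      rw [Subgroup.card_top, h60] at hk
      have h2 : k < 6 := by
        by_contra h3
        have : 2 ^ 6 ≤ 2 ^ k := Nat.pow_le_pow_right (by norm_num) (not_lt.1 h3)
        omega
      interval_cases k <;> omega
  apply le_antisymm
  · rintro _ ⟨y, hy, rfl⟩
    obtain ⟨v, hv, x, hx, hg⟩ := p.form_T y.2
    have hvp : (⟨v, p.VP_le_T hv⟩ : T) ∈ Cfsg.pCore 2 T := hle (Subgroup.mem_subgroupOf.2 hv)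
    have hxe : (⟨v, p.VP_le_T hv⟩ : T)⁻¹ * y ∈ Cfsg.pCore 2 T := mul_mem (inv_mem hvp) hy
    have hxx : x = ((⟨v, p.VP_le_T hv⟩ : T)⁻¹ * y : T).1 := by
      simp [hg]
    have hxM : (⟨x, hx⟩ : p.T1) ∈ M := by
      rw [Subgroup.mem_subgroupOf]
      exact ⟨_, hxe, hxx.symm⟩
    rw [hMb, Subgroup.mem_bot] at hxM
    have hx1 : x = 1 := congrArg Subtype.val hxM
    show y.1 ∈ p.VP
    rw [hg, hx1, mul_one]
    exact hv
  · intro v hv
    exact ⟨⟨v, p.VP_le_T hv⟩, hle (Subgroup.mem_subgroupOf.2 hv), rfl⟩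

/-- `y'` normalizes `V`. -/
theorem y'_norm {v : G} (hv : v ∈ p.VP) : p.y' * v * p.y'⁻¹ ∈ p.VP := by
  have h3 : p.y' * (p.t * p.t₂) * p.y'⁻¹ = p.t := by
    calc p.y' * (p.t * p.t₂) * p.y'⁻¹ = (p.y' * p.t * p.y'⁻¹) * (p.y' * p.t₂ * p.y'⁻¹) := by group
      _ = p.t₂ * (p.t * p.t₂) := by rw [p.y'_t, p.y'_t₂]
      _ = p.t := by rw [← mul_assoc, ← p.t_t₂, mul_assoc, p.t₂_sq, mul_one]
  rcases hv with rfl | rfl | rfl | rfl
  · simp [one_mem]
  · rw [p.y'_t]; exact Or.inr (Or.inr (Or.inl rfl))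
  · rw [p.y'_t₂]; exact Or.inr (Or.inr (Or.inr rfl))
  · rw [h3]; exact Or.inr (Or.inl rfl)

theorem y'_cube_pow : p.y' ^ 3 = 1 := by
  rw [pow_succ, pow_two, p.y'_cube]

theorem y'_pow_cases (i : ℕ) : p.y' ^ i = 1 ∨ p.y' ^ i = p.y' ∨ p.y' ^ i = p.y' * p.y' := by
  have e : p.y' ^ i = p.y' ^ (i % 3) := by
    conv_lhs => rw [← Nat.div_add_mod i 3, pow_add, pow_mul, y'_cube_pow, one_pow, one_mul]
  have hlt : i % 3 < 3 := Nat.mod_lt _ (by norm_num)
  rw [e]
  interval_cases (i % 3)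
  · left; simp
  · right; left; simp
  · right; right; rw [pow_two]

/-- The subgroup `A = N(V) ∩ C(T1)`. -/
def AA [Finite G] : Subgroup G :=
  normalizer ((p.VP : Subgroup G) : Set G) ⊓ centralizer ((p.T1 : Subgroup G) : Set G)

theorem mem_AA [Finite G] {a : G} : a ∈ p.AA ↔ (∀ v ∈ p.VP, a * v * a⁻¹ ∈ p.VP) ∧ ∀ x ∈ p.T1, a * x = x * a := by
  constructor
  · rintro ⟨h1, h2⟩
    refine ⟨fun v hv => (mem_normalizer_iff.1 h1 v).1 hv, fun x hx => ?_⟩
    exact ((mem_centralizer_iff.1 h2) x hx).symm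
  · rintro ⟨h1, h2⟩
    refine ⟨Setup.mem_normalizer_of_maps h1, mem_centralizer_iff.2 fun x hx => (h2 x hx).symm⟩

theorem T1_center' [Finite G] {x : G} (hx : x ∈ p.T1) (h : ∀ y ∈ p.T1, x * y = y * x) : x = 1 := by
  have h1 : p.θ ⟨x, hx⟩ ∈ center (alternatingGroup (Fin 5)) := by
    rw [mem_center_iff]
    intro g
    obtain ⟨y, rfl⟩ := p.θ.surjective g
    rw [← map_mul, ← map_mul]
    congr 1
    exact Subtype.ext (h y.1 y.2).symm
  rw [center_A5, Subgroup.mem_bot] at h1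
  have h2 : (⟨x, hx⟩ : p.T1) = 1 := by
    apply p.θ.injective
    rw [h1, map_one]
  exact congrArg Subtype.val h2

theorem y'_mem_AA [Finite G] : p.y' ∈ p.AA :=
  p.mem_AA.2 ⟨fun _ hv => p.y'_norm hv, p.y'_comm⟩

theorem VP_le_AA [Finite G] {v : G} (hv : v ∈ p.VP) : v ∈ p.AA := by
  refine p.mem_AA.2 ⟨fun w hw => ?_, fun x hx => p.VP_comm_T1 hv hx⟩
  rw [p.VP_comm hv hw]
  simpa using hw

/-- The form of an element of `N(V)`. -/
theorem form_N [Finite G] {g : G} (hg : ∀ v ∈ p.VP, g * v * g⁻¹ ∈ p.VP) :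
    ∃ i : ℕ, ∃ v ∈ p.VP, ∃ x ∈ p.T1, g = p.y' ^ i * v * x := by
  have hne : ∀ {v : G}, v ∈ p.VP → v ≠ 1 → g * v * g⁻¹ ∈ ({p.t, p.t₂, p.t * p.t₂} : Set G) := by
    intro v hv h1
    rcases hg v hv with h | h | h | h
    · exfalso
      apply h1
      have : g * v = g := by
        calc g * v = (g * v * g⁻¹) * g := by group
          _ = g := by rw [h, one_mul]
      simpa using this
    · exact Or.inl h
    · exact Or.inr (Or.inl h)
    · exact Or.inr (Or.inr h)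
  obtain ⟨i, x, hx, h⟩ := p.mem_NV g (hne (Or.inr (Or.inl rfl)) p.t_ne)
    (hne (Or.inr (Or.inr (Or.inl rfl))) p.t₂_ne)
  rcases h with h | h | h | h
  · exact ⟨i, 1, Or.inl rfl, x, hx, by rw [h, mul_one]⟩
  · exact ⟨i, p.t, Or.inr (Or.inl rfl), x, hx, by rw [h, mul_assoc]⟩
  · exact ⟨i, p.t₂, Or.inr (Or.inr (Or.inl rfl)), x, hx, by rw [h, mul_assoc]⟩
  · exact ⟨i, p.t * p.t₂, Or.inr (Or.inr (Or.inr rfl)), x, hx, by rw [h]; simp only [mul_assoc]⟩

/-- The order of `A`. -/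
theorem card_AA [Finite G] : Nat.card p.AA = 12 := by
  classical
  have hmap : ∀ q : Fin 3 × p.VP, p.y' ^ q.1.1 * q.2.1 ∈ p.AA := fun q =>
    mul_mem (pow_mem p.y'_mem_AA _) (p.VP_le_AA q.2.2)
  have hinj : Function.Injective (fun q : Fin 3 × p.VP => (⟨p.y' ^ q.1.1 * q.2.1, hmap q⟩ : p.AA)) := by
    rintro ⟨i, ⟨v, hv⟩⟩ ⟨j, ⟨w, hw⟩⟩ h
    have h1 : p.y' ^ i.1 * v = p.y' ^ j.1 * w := congrArg Subtype.val h
    -- conjugates of `t`
    have hc : ∀ (k : ℕ) (u : G), u ∈ p.VP → (p.y' ^ k * u) * p.t * (p.y' ^ k * u)⁻¹ =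
        p.y' ^ k * p.t * (p.y' ^ k)⁻¹ := by
      intro k u hu
      have h2 : u * p.t = p.t * u := p.VP_comm hu (Or.inr (Or.inl rfl))
      calc (p.y' ^ k * u) * p.t * (p.y' ^ k * u)⁻¹ = p.y' ^ k * (u * p.t) * u⁻¹ * (p.y' ^ k)⁻¹ := by group
        _ = p.y' ^ k * (p.t * u) * u⁻¹ * (p.y' ^ k)⁻¹ := by rw [h2]
        _ = _ := by group
    have h3 : p.y' ^ i.1 * p.t * (p.y' ^ i.1)⁻¹ = p.y' ^ j.1 * p.t * (p.y' ^ j.1)⁻¹ := by
      rw [← hc i.1 v hv, ← hc j.1 w hw, h1]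
    have e0 : p.y' ^ 0 * p.t * (p.y' ^ 0)⁻¹ = p.t := by simp
    have e1 : p.y' ^ 1 * p.t * (p.y' ^ 1)⁻¹ = p.t₂ := by simp [p.y'_t]
    have e2 : p.y' ^ 2 * p.t * (p.y' ^ 2)⁻¹ = p.t * p.t₂ := by
      rw [pow_two]
      calc p.y' * p.y' * p.t * (p.y' * p.y')⁻¹ = p.y' * (p.y' * p.t * p.y'⁻¹) * p.y'⁻¹ := by group
        _ = _ := by rw [p.y'_t, p.y'_t₂]
    have n1 : p.t ≠ p.t₂ := p.t₂_ne_t.symm
    have n2 : p.t ≠ p.t * p.t₂ := fun h => p.t₂_ne (mul_eq_left.mp h.symm)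
    have n3 : p.t₂ ≠ p.t * p.t₂ := fun h => p.t_ne (mul_eq_right.mp h.symm)
    have hij : i.1 = j.1 := by
      obtain ⟨i, hi⟩ := i
      obtain ⟨j, hj⟩ := j
      simp only at h3 ⊢
      interval_cases i <;> interval_cases j <;> first
        | rfl
        | (exfalso; simp only [e0, e1, e2] at h3
           first | exact n1 h3 | exact n2 h3 | exact n3 h3 | exact n1 h3.symm | exact n2 h3.symm | exact n3 h3.symm)
    have hij' : i = j := Fin.ext hij
    subst hij'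
    have h4 := mul_left_cancel h1
    subst h4
    rfl
  have hsurj : Function.Surjective (fun q : Fin 3 × p.VP => (⟨p.y' ^ q.1.1 * q.2.1, hmap q⟩ : p.AA)) := by
    rintro ⟨a, ha⟩
    obtain ⟨h1, h2⟩ := p.mem_AA.1 ha
    obtain ⟨i, v, hv, x, hx, rfl⟩ := p.form_N h1
    have hb : p.y' ^ i * v ∈ p.AA := mul_mem (pow_mem p.y'_mem_AA _) (p.VP_le_AA hv)
    have hb2 := (p.mem_AA.1 hb).2
    have hx1 : x = 1 := by
      apply p.T1_center' hx
      intro y hy
      have h3 := h2 y hy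
      have h4 := hb2 y hy
      have h5 : (p.y' ^ i * v) * (x * y) = (p.y' ^ i * v) * (y * x) := by
        calc (p.y' ^ i * v) * (x * y) = (p.y' ^ i * v * x) * y := by group
          _ = y * (p.y' ^ i * v * x) := h3
          _ = (y * (p.y' ^ i * v)) * x := by group
          _ = ((p.y' ^ i * v) * y) * x := by rw [h4]
          _ = _ := by group
      exact mul_left_cancel h5
    subst hx1
    -- reduce `i` modulo `3`
    refine ⟨(⟨i % 3, Nat.mod_lt _ (by norm_num)⟩, ⟨v, hv⟩), ?_⟩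
    apply Subtype.ext
    show p.y' ^ (i % 3) * v = p.y' ^ i * v * 1
    have e : p.y' ^ i = p.y' ^ (i % 3) := by
      conv_lhs => rw [← Nat.div_add_mod i 3, pow_add, pow_mul, y'_cube_pow, one_pow, one_mul]
    rw [e, mul_one]
  rw [← Nat.card_congr (Equiv.ofBijective _ ⟨hinj, hsurj⟩), Nat.card_prod, p.card_VP]
  simp

/-- `A ≃ A₄`. -/
theorem AA_equiv [Finite G] : Nonempty (p.AA ≃* alternatingGroup (Fin 4)) := by
  classical
  have hy : p.y' ∈ p.AA := p.y'_mem_AA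
  have hord : orderOf p.y' = 3 := by
    apply orderOf_eq_prime p.y'_cube_pow p.y'_ne
  have hC : Nat.card (zpowers (⟨p.y', hy⟩ : p.AA)) = 3 := by
    rw [Nat.card_zpowers, ← Subgroup.orderOf_coe]
    exact hord
  apply Cfsg.Agent.Lib.PSL2.CosetIso.nonempty_equiv_A4 (zpowers (⟨p.y', hy⟩ : p.AA)) hC ?_ p.card_AA
  intro hn
  have ht : p.t ∈ p.AA := p.VP_le_AA (Or.inr (Or.inl rfl))
  have h1 := hn.conj_mem ⟨p.y', hy⟩ (mem_zpowers _) ⟨p.t, ht⟩
  obtain ⟨k, hk⟩ := mem_zpowers_iff.1 h1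
  have hk' : p.y' ^ k = p.t * p.y' * p.t⁻¹ := congrArg Subtype.val hk
  -- `t t₂ ∈ ⟨y'⟩`
  have ht_inv : p.t⁻¹ = p.t := inv_eq_of_mul_eq_one_left p.t_sq
  have h2 : p.t * p.t₂ = p.y' ^ (k - 1) := by
    rw [zpow_sub_one, hk', ← p.y'_t, ht_inv]
    group
  have h3 : (p.t * p.t₂) * (p.t * p.t₂) = 1 := p.VP_sq (Or.inr (Or.inr (Or.inr rfl)))
  have h4 : (p.t * p.t₂) ^ 3 = 1 := by
    rw [h2, ← zpow_natCast, ← zpow_mul, mul_comm, zpow_mul]
    simp [p.y'_cube_pow]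
  have h5 : p.t * p.t₂ = 1 := by
    have h6 : (p.t * p.t₂) ^ 3 = (p.t * p.t₂) * ((p.t * p.t₂) * (p.t * p.t₂)) := by
      rw [pow_succ, pow_two, mul_assoc]
    rw [h6, h3, mul_one] at h4
    exact h4
  exact p.t₂_z_eq h5

/-- The second assertion for `t`. -/
theorem equiv_N [Finite G] : Nonempty (↥(normalizer (((Cfsg.pCore 2 ↥(centralizer ({p.t} : Set G))).map
      (centralizer ({p.t} : Set G)).subtype : Subgroup G) : Set G)) ≃*
      alternatingGroup (Fin 4) × alternatingGroup (Fin 5)) := by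
  rw [p.pCore_T]
  have hT1 : p.T1 ≤ normalizer ((p.VP : Subgroup G) : Set G) := by
    intro x hx
    apply Setup.mem_normalizer_of_maps
    intro v hv
    rw [← p.VP_comm_T1 hv hx]
    simpa using hv
  obtain ⟨e⟩ := prod_equiv (normalizer ((p.VP : Subgroup G) : Set G)) p.AA p.T1 (fun _ ha => ha.1) hT1
    (fun a ha b hb => (p.mem_AA.1 ha).2 b hb)
    (fun a ha hb => p.T1_center' hb (p.mem_AA.1 ha).2 )
    (by
      intro g hg
      obtain ⟨i, v, hv, x, hx, rfl⟩ := p.form_N (fun v hv => (mem_normalizer_iff.1 hg v).1 hv)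
      exact ⟨p.y' ^ i * v, mul_mem (pow_mem p.y'_mem_AA _) (p.VP_le_AA hv), x, hx, rfl⟩)
  obtain ⟨e2⟩ := p.AA_equiv
  exact ⟨e.trans (MulEquiv.prodCongr e2 p.θ)⟩

/-- The conclusion for `t`. -/
theorem concl [Finite G] : Concl p.t := ⟨p.equiv_T, p.equiv_N⟩

end Pkg

/-- The theorem on the second involution from the package. -/
theorem concl_of_not_conj [Finite G] (p : Pkg G) {t : G} (ht : t * t = 1) (ht1 : t ≠ 1)
    (htz : ¬ IsConj t p.z) : Concl t := by
  rcases p.all_inv t ht ht1 with h | h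
  · exact absurd h htz
  · obtain ⟨c, hc⟩ := isConj_iff.1 h.symm
    rw [← hc]
    exact Concl_conj c p.concl

end Cfsg.Agent.Lib.HallJanko
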