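import Mathlib
import Cfsg.Agent.Lib.HallJanko.DFive
import Cfsg.Agent.Lib.HallJanko.FiveFacts

/-!
# Hall-Janko type groups: Sylow `5`-subgroups (S1722) and the facts on `5`-elements
-/

set_option autoImplicit false

namespace Cfsg.Agent.Lib.HallJanko

open Subgroup D

variable {G : Type*} [Group G] [Finite G]

/-- `|N(⟨f⟩)| = 600`. -/
theorem card_norm_zpowers (p : Pkg G) {f : G} (hf : Pk.IsF p f) :
    Nat.card (normalizer ((zpowers f : Subgroup G) : Set G)) = 600 := by
  obtain ⟨c, hc, hcf⟩ := Pk.T1_inv5 p hf.mem hf.pow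
  have hle : centralizer ({f} : Set G) ≤ normalizer ((zpowers f : Subgroup G) : Set G) := by
    intro x hx
    apply mem_normalizer_of_cj_le
    intro y hy
    obtain ⟨u, hu, rfl⟩ := hy
    have hxu := comm_of_mem_zpowers hu (mem_cent.1 hx)
    show x * u * x⁻¹ ∈ _
    rw [hxu]
    simpa using hu
  have hcN : c ∈ normalizer ((zpowers f : Subgroup G) : Set G) := by
    apply mem_normalizer_of_cj_le
    intro y hy
    obtain ⟨u, hu, rfl⟩ := hy
    obtain ⟨k, rfl⟩ := mem_zpowers_iff.1 hu
    show c * f ^ k * c⁻¹ ∈ _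
    have : c * f ^ k * c⁻¹ = (c * f * c⁻¹) ^ k := by
      rw [conj_zpow]
    rw [this, hcf]
    exact zpow_mem (pow_mem (mem_zpowers f) 4) k
  have hcC : c ∉ centralizer ({f} : Set G) := by
    intro hc'
    have h1 := mem_cent.1 hc'
    have h2 : c * f * c⁻¹ = f := by rw [h1]; group
    rw [hcf] at h2
    apply hf.ne
    have h3 : f ^ 3 = 1 := by
      have : f ^ 4 = f * f ^ 3 := by rw [pow_succ' f 3]
      rw [this] at h2
      simpa using h2
    have : f ^ 5 = f ^ 3 * f ^ 3 * f⁻¹ := by group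
    rw [hf.pow, h3] at this
    simpa using this.symm
  have hcov : ∀ x ∈ normalizer ((zpowers f : Subgroup G) : Set G),
      x ∈ centralizer ({f} : Set G) ∨ c⁻¹ * x ∈ centralizer ({f} : Set G) := by
    intro x hx
    have h1 : x * f * x⁻¹ ∈ zpowers f := (mem_normalizer_iff.1 hx f).1 (mem_zpowers f)
    -- the five powers of `f`
    obtain ⟨n, hn⟩ := (mem_powers_iff_mem_zpowers).2 h1
    have hn' : f ^ n = f ^ (n % 5) := by
      conv_lhs => rw [← Nat.div_add_mod n 5, pow_add, pow_mul, hf.pow, one_pow, one_mul]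
    have hlt : n % 5 < 5 := Nat.mod_lt _ (by norm_num)
    have hne1 : x * f * x⁻¹ ≠ 1 := by
      intro e
      apply hf.ne
      have : x * f = x := by
        have := congrArg (· * x) e
        simpa using this
      simpa using this
    have hx1 : x * f * x⁻¹ = f ^ (n % 5) := by rw [← hn', ← hn]
    have hno := hf.no_fuse x
    generalize n % 5 = m at hlt hx1
    interval_cases m
    · exact absurd hx1 (by simpa using hne1)
    · left
      rw [mem_cent]
      have h2 : x * f * x⁻¹ = f := by simpa using hx1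
      have := congrArg (· * x) h2
      simpa using this
    · exact absurd hx1 hno.1
    · exact absurd hx1 hno.2
    · right
      rw [mem_cent]
      have h2 : x * f * x⁻¹ = c * f * c⁻¹ := by rw [hx1, hcf]
      have h3 : (c⁻¹ * x) * f * (c⁻¹ * x)⁻¹ = f := by
        calc (c⁻¹ * x) * f * (c⁻¹ * x)⁻¹ = c⁻¹ * (x * f * x⁻¹) * c := by group
          _ = c⁻¹ * (c * f * c⁻¹) * c := by rw [h2]
          _ = f := by group
      calc c⁻¹ * x * f = ((c⁻¹ * x) * f * (c⁻¹ * x)⁻¹) * (c⁻¹ * x) := by group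
        _ = f * (c⁻¹ * x) := by rw [h3]
  have := card_eq_two_mul hle hcN hcC hcov
  rw [hf.card] at this
  exact this

/-- The facts on `5`-elements for the `3`- and `7`-structure. -/
theorem fiveFacts (p : Pkg G) : FiveFacts p := by
  have isF : ∀ f ∈ p.T1, orderOf f = 5 → Pk.IsF p f := by
    intro f hf ho
    refine ⟨hf, by rw [← ho]; exact pow_orderOf_eq_one f, ?_⟩
    rintro rfl
    rw [orderOf_one] at ho
    omega
  refine ⟨fun f hf ho => (isF f hf ho).card, fun f hf ho => card_norm_zpowers p (isF f hf ho), ?_,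
    fun P => (Pk.sylow5_data p P).1⟩
  intro x hx
  obtain ⟨f, hf⟩ := Pk.exists_isF p
  obtain ⟨f₀, hz, ho⟩ := Pk.exists_f0 p
  have hWc : Nat.card (zpowers x) = 5 := by rw [Nat.card_zpowers, hx]
  have hx1 : x ≠ 1 := by
    rintro rfl
    rw [orderOf_one] at hx
    omega
  have hne : ∀ a : G, a * x * a⁻¹ ≠ 1 := by
    intro a e2
    apply hx1
    have : a * x = a := by
      have := congrArg (· * a) e2
      simpa using this
    simpa using this
  rcases Pk.five_class hf hz ho hWc with ⟨a, ha⟩ | ⟨a, ha⟩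
  · right
    have h1 : a * x * a⁻¹ ∈ zpowers f := by
      rw [← ha]; exact conj_mem_cj (mem_zpowers x)
    have hT : zpowers f ≤ p.T1 := by rw [zpowers_le]; exact hf.mem
    refine ⟨a * x * a⁻¹, hT h1, ?_, isConj_iff.2 ⟨a, rfl⟩⟩
    have := zpowers_eq_of_prime (by norm_num : Nat.Prime 5) hf.order h1 (hne a)
    rw [← Nat.card_zpowers, this, Nat.card_zpowers, hf.order]
  · left
    have h1 : a * x * a⁻¹ ∈ zpowers f₀ := by
      rw [← ha]; exact conj_mem_cj (mem_zpowers x)
    have h3 := zpowers_eq_of_prime (by norm_num : Nat.Prime 5) ho h1 (hne a)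
    rw [← card_centralizer_conj a x, Pk.cent_eq_of_zpowers_eq h3, Pk.card_C_f0 p hz ho]

/-- S1722 from the package. -/
theorem sylow5 (p : Pkg G) (P : Sylow 5 G) :
    centralizer ((P : Subgroup G) : Set G) = P ∧ Nat.card P = 25 ∧
      Nat.card (normalizer ((P : Subgroup G) : Set G)) = 300 ∧
      ∃ X Y : Subgroup G, Nat.card X = 5 ∧ Nat.card Y = 5 ∧
        (∀ g : G, X.map (MulAut.conj g).toMonoidHom ≠ Y) ∧
        ∀ W : Subgroup G, Nat.card W = 5 → ∃ g : G, W.map (MulAut.conj g).toMonoidHom = X ∨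
          W.map (MulAut.conj g).toMonoidHom = Y :=
  Pk.sylow5_main p P

end Cfsg.Agent.Lib.HallJanko
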