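import Mathlib
import Cfsg.Agent.Lib.HallJanko.FiveFacts
import Cfsg.Agent.Lib.HallJanko.V4
import Cfsg.Agent.Lib.Fusion.EssentialCube
import Cfsg.Agent.Lib.Basic.ConjCount

/-!
# Hall-Janko type groups: the Sylow `3`-structure (S1723), from `Pkg G` and `FiveFacts`
-/

set_option autoImplicit false
set_option linter.unusedSectionVars false
set_option linter.unusedVariables false

namespace Cfsg.Agent.Lib.HallJanko.Three

open Subgroup

/-! ### Facts on `A₅` -/

set_option maxRecDepth 100000 in
theorem a5_three_cent : ∀ x y : alternatingGroup (Fin 5), x * x * x = 1 → x ≠ 1 → x * y = y * x →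
    y = 1 ∨ y = x ∨ y = x * x := by decide

set_option maxRecDepth 100000 in
theorem a5_exists3 : ∃ x : alternatingGroup (Fin 5), x * x * x = 1 ∧ x ≠ 1 := by decide

set_option maxRecDepth 100000 in
theorem a5_exists5 : ∃ x d : alternatingGroup (Fin 5), x ^ 5 = 1 ∧ x ≠ 1 ∧ d * x * d⁻¹ = x⁻¹ := by decide

theorem card_a5 : Nat.card (alternatingGroup (Fin 5)) = 60 := by
  rw [Nat.card_eq_fintype_card]; decide

theorem a5_simple : IsSimpleGroup (alternatingGroup (Fin 5)) := inferInstance

/-- Conjugate elements: the centralizers have the same order. -/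
theorem card_cent_conj {G : Type*} [Group G] (g x : G) :
    Nat.card (centralizer ({g * x * g⁻¹} : Set G)) = Nat.card (centralizer ({x} : Set G)) := by
  symm
  refine Nat.card_congr (Equiv.subtypeEquiv (MulAut.conj g).toEquiv ?_)
  intro a
  simp only [mem_centralizer_singleton_iff, MulEquiv.toEquiv_eq_coe, MulEquiv.coe_toEquiv,
    MulAut.conj_apply]
  constructor
  · intro h
    calc g * a * g⁻¹ * (g * x * g⁻¹) = g * (a * x) * g⁻¹ := by group
      _ = g * (x * a) * g⁻¹ := by rw [h]
      _ = g * x * g⁻¹ * (g * a * g⁻¹) := by group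
  · intro h
    have h2 : g * (a * x) * g⁻¹ = g * (x * a) * g⁻¹ := by
      calc g * (a * x) * g⁻¹ = g * a * g⁻¹ * (g * x * g⁻¹) := by group
        _ = g * x * g⁻¹ * (g * a * g⁻¹) := h
        _ = g * (x * a) * g⁻¹ := by group
    exact mul_left_cancel (mul_right_cancel h2)

theorem card_cent_inv {G : Type*} [Group G] (x : G) :
    Nat.card (centralizer ({x⁻¹} : Set G)) = Nat.card (centralizer ({x} : Set G)) := by
  congr 1
  have : centralizer ({x⁻¹} : Set G) = centralizer ({x} : Set G) := by
    ext a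
    simp only [mem_centralizer_singleton_iff]
    constructor
    · intro h
      have := congrArg (fun w => x * w * x) h
      have e1 : x * (a * x⁻¹) * x = x * a := by group
      have e2 : x * (x⁻¹ * a) * x = a * x := by group
      rw [e1, e2] at this
      exact this.symm
    · intro h
      have := congrArg (fun w => x⁻¹ * w * x⁻¹) h
      have e1 : x⁻¹ * (a * x) * x⁻¹ = x⁻¹ * a := by group
      have e2 : x⁻¹ * (x * a) * x⁻¹ = a * x⁻¹ := by group
      rw [e1, e2] at this
      exact this.symm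
  rw [this]

/-- Transport of a `conj` to elements of a Sylow subgroup. -/
theorem sylow_conj {H : Type*} [Group H] [Finite H] {r : ℕ} [Fact r.Prime] (P Q : Sylow r H) :
    ∃ g : H, ∀ x, x ∈ (P : Subgroup H) → g * x * g⁻¹ ∈ (Q : Subgroup H) := by
  obtain ⟨g, hg⟩ := MulAction.exists_smul_eq H P Q
  refine ⟨g, fun x hx => ?_⟩
  rw [← hg]
  exact Subgroup.mem_map_of_mem _ hx

theorem sylow_card {H : Type*} [Group H] [Finite H] {r : ℕ} [Fact r.Prime] (P : Sylow r H) {a m : ℕ}
    (hc : Nat.card H = r ^ a * m) (hm : ¬ r ∣ m) : Nat.card P = r ^ a := by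
  have hr : r.Prime := Fact.out
  have hm0 : m ≠ 0 := by
    rintro rfl
    exact hm (dvd_zero r)
  rw [P.card_eq_multiplicity, hc, Nat.factorization_mul (pow_ne_zero _ hr.ne_zero) hm0,
    Nat.Prime.factorization_pow hr]
  simp [Nat.factorization_eq_zero_of_not_dvd hm]

/-- Two elements of order `r` where `r²` does not divide the group order generate conjugate subgroups. -/
theorem conj_of_prime {K : Type*} [Group K] [Finite K] {r : ℕ} [Fact r.Prime]
    (hK : ¬ r ^ 2 ∣ Nat.card K) (a b : K) (ha : orderOf a = r) (hb : orderOf b = r) :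
    ∃ h : K, ∃ k : ℕ, h * a * h⁻¹ = b ^ k := by
  have hr : r.Prime := Fact.out
  have hza : IsPGroup r (zpowers a) := IsPGroup.of_card (n := 1) (by rw [Nat.card_zpowers, ha, pow_one])
  have hzb : IsPGroup r (zpowers b) := IsPGroup.of_card (n := 1) (by rw [Nat.card_zpowers, hb, pow_one])
  obtain ⟨P, hP⟩ := hza.exists_le_sylow
  obtain ⟨Q, hQ⟩ := hzb.exists_le_sylow
  obtain ⟨g, hg⟩ := sylow_conj P Q
  refine ⟨g, ?_⟩
  have hgm : g * a * g⁻¹ ∈ (Q : Subgroup K) := hg a (hP (mem_zpowers a))
  have hQc : Nat.card Q = r := by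
    have hcQ := Q.2.exists_card_eq
    obtain ⟨n, hn⟩ := hcQ
    have hdvd : r ^ n ∣ Nat.card K := by rw [← hn]; exact Subgroup.card_subgroup_dvd_card _
    have hle : n ≤ 1 := by
      by_contra hlt
      push Not at hlt
      exact hK ((pow_dvd_pow r hlt).trans hdvd)
    have hbq : Nat.card (zpowers b) ∣ Nat.card Q := Subgroup.card_dvd_of_le hQ
    rw [Nat.card_zpowers, hb] at hbq
    rw [hn] at hbq ⊢
    interval_cases n
    · simp at hbq
      exact absurd hbq hr.ne_one
    · simp
  have heq : (Q : Subgroup K) = zpowers b := by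
    symm
    apply Subgroup.eq_of_le_of_card_ge hQ
    rw [hQc, Nat.card_zpowers, hb]
  rw [heq] at hgm
  obtain ⟨k, hk⟩ := mem_zpowers_iff.1 hgm
  refine ⟨(k % (orderOf b : ℤ)).toNat, ?_⟩
  rw [← hk]
  have h0 : (0 : ℤ) ≤ k % (orderOf b : ℤ) := Int.emod_nonneg _ (by
    rw [hb]; exact_mod_cast hr.ne_zero)
  rw [← zpow_natCast, Int.toNat_of_nonneg h0]
  exact (zpow_mod_orderOf b k).symm

end Cfsg.Agent.Lib.HallJanko.Three
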