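import Mathlib
import Cfsg.Agent.Lib.HallJanko.ThreeBasic

/-!
# Hall-Janko type groups: centralizers of `3`-elements
-/

set_option autoImplicit false
set_option linter.unusedSectionVars false
set_option linter.unusedVariables false

namespace Cfsg.Agent.Lib.HallJanko.Three

open Subgroup

variable {G : Type*} [Group G]

/-- The elements of `V = {1, t, t₂, t t₂}`. -/
def IsV (p : Pkg G) (v : G) : Prop := v = 1 ∨ v = p.t ∨ v = p.t₂ ∨ v = p.t * p.t₂

namespace Pkg'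

variable (p : Pkg G)

theorem t_inv : p.t⁻¹ = p.t := inv_eq_of_mul_eq_one_left p.t_sq
theorem t₂_inv : p.t₂⁻¹ = p.t₂ := inv_eq_of_mul_eq_one_left p.t₂_sq

theorem tt₂_sq : p.t * p.t₂ * (p.t * p.t₂) = 1 := by
  calc p.t * p.t₂ * (p.t * p.t₂) = p.t * (p.t₂ * p.t) * p.t₂ := by group
    _ = p.t * (p.t * p.t₂) * p.t₂ := by rw [p.t_t₂]
    _ = (p.t * p.t) * (p.t₂ * p.t₂) := by group
    _ = 1 := by rw [p.t_sq, p.t₂_sq, one_mul]

theorem isV_sq {v : G} (h : IsV p v) : v * v = 1 := by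
  rcases h with rfl | rfl | rfl | rfl
  · simp
  · exact p.t_sq
  · exact p.t₂_sq
  · exact tt₂_sq p

theorem isV_mul {a b : G} (ha : IsV p a) (hb : IsV p b) : IsV p (a * b) := by
  have h1 : p.t * (p.t * p.t₂) = p.t₂ := by rw [← mul_assoc, p.t_sq, one_mul]
  have h2 : p.t₂ * p.t = p.t * p.t₂ := p.t_t₂.symm
  have h3 : p.t₂ * (p.t * p.t₂) = p.t := by
    rw [← mul_assoc, h2, mul_assoc, p.t₂_sq, mul_one]
  have h4 : p.t * p.t₂ * p.t = p.t₂ := by
    rw [mul_assoc, h2, ← mul_assoc, p.t_sq, one_mul]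
  have h5 : p.t * p.t₂ * p.t₂ = p.t := by
    rw [mul_assoc, p.t₂_sq, mul_one]
  rcases ha with rfl | rfl | rfl | rfl <;> rcases hb with rfl | rfl | rfl | rfl <;>
    simp only [one_mul, mul_one, p.t_sq, p.t₂_sq, tt₂_sq p, h1, h2, h3, h4, h5, IsV, true_or, or_true]

theorem isV_comm_T1 {v : G} (h : IsV p v) {x : G} (hx : x ∈ p.T1) : v * x = x * v := by
  rcases h with rfl | rfl | rfl | rfl
  · simp
  · exact p.t_comm x hx
  · exact p.t₂_comm x hx
  · rw [mul_assoc, p.t₂_comm x hx, ← mul_assoc, p.t_comm x hx, mul_assoc]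

theorem isV_mem_T1 {v : G} (h : IsV p v) (hv : v ∈ p.T1) : v = 1 := by
  rcases h with rfl | rfl | rfl | rfl
  · rfl
  · exact absurd hv p.t_notMem
  · exact absurd hv p.t₂_notMem
  · exact absurd hv p.tt₂_notMem

/-- Decomposition of `C(t)`. -/
theorem mem_Ct' {g : G} (hg : g * p.t = p.t * g) : ∃ v x, IsV p v ∧ x ∈ p.T1 ∧ g = v * x := by
  obtain ⟨x, hx, h | h | h | h⟩ := p.mem_Ct g hg
  · exact ⟨1, x, Or.inl rfl, hx, by simpa using h⟩
  · exact ⟨p.t, x, Or.inr (Or.inl rfl), hx, h⟩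
  · exact ⟨p.t₂, x, Or.inr (Or.inr (Or.inl rfl)), hx, h⟩
  · exact ⟨p.t * p.t₂, x, Or.inr (Or.inr (Or.inr rfl)), hx, h⟩

theorem y'_comm_z : p.y' * p.z = p.z * p.y' := p.y'_comm _ p.z_mem

theorem orderOf_y' : orderOf p.y' = 3 := by
  have : Fact (Nat.Prime 3) := ⟨Nat.prime_three⟩
  apply orderOf_eq_prime _ p.y'_ne
  rw [pow_succ, pow_two]
  exact p.y'_cube

theorem y'_notMem : p.y' ∉ p.T1 := by
  intro h
  have hc : ∀ a : alternatingGroup (Fin 5), a * p.θ ⟨p.y', h⟩ = p.θ ⟨p.y', h⟩ * a := by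
    intro a
    obtain ⟨x, rfl⟩ := p.θ.surjective a
    rw [← map_mul, ← map_mul]
    congr 1
    apply Subtype.ext
    exact (p.y'_comm x.1 x.2).symm
  have hcen : p.θ ⟨p.y', h⟩ ∈ center (alternatingGroup (Fin 5)) := by
    rw [mem_center_iff]
    exact hc
  rw [alternatingGroup.center_eq_bot (by simp)] at hcen
  have : p.θ ⟨p.y', h⟩ = 1 := hcen
  have h1 : (⟨p.y', h⟩ : p.T1) = 1 := p.θ.injective (by rw [this, map_one])
  exact p.y'_ne (congrArg Subtype.val h1)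

/-- The `3`-centralizer in `A₅`, transported to `T1`. -/
theorem t1_cent3 {x y : G} (hx : x ∈ p.T1) (hy : y ∈ p.T1) (h3 : x * x * x = 1) (h1 : x ≠ 1)
    (hc : x * y = y * x) : y = 1 ∨ y = x ∨ y = x * x := by
  have e3 : p.θ ⟨x, hx⟩ * p.θ ⟨x, hx⟩ * p.θ ⟨x, hx⟩ = 1 := by
    rw [← map_mul, ← map_mul]
    convert map_one p.θ
    exact Subtype.ext h3
  have e1 : p.θ ⟨x, hx⟩ ≠ 1 := by
    intro h
    have : (⟨x, hx⟩ : p.T1) = 1 := p.θ.injective (by rw [h, map_one])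
    exact h1 (congrArg Subtype.val this)
  have ec : p.θ ⟨x, hx⟩ * p.θ ⟨y, hy⟩ = p.θ ⟨y, hy⟩ * p.θ ⟨x, hx⟩ := by
    rw [← map_mul, ← map_mul]
    congr 1
    exact Subtype.ext hc
  rcases a5_three_cent _ _ e3 e1 ec with h | h | h
  · left
    have : (⟨y, hy⟩ : p.T1) = 1 := p.θ.injective (by rw [h, map_one])
    exact congrArg Subtype.val this
  · right; left
    have : (⟨y, hy⟩ : p.T1) = ⟨x, hx⟩ := p.θ.injective h
    exact congrArg Subtype.val this
  · right; right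
    have : (⟨y, hy⟩ : p.T1) = ⟨x, hx⟩ * ⟨x, hx⟩ := p.θ.injective (by rw [h, map_mul])
    exact congrArg Subtype.val this

theorem exists_ell : ∃ ℓ ∈ p.T1, orderOf ℓ = 3 ∧ ℓ * ℓ * ℓ = 1 := by
  obtain ⟨x, h3, h1⟩ := a5_exists3
  refine ⟨(p.θ.symm x).1, (p.θ.symm x).2, ?_, ?_⟩
  · have : Fact (Nat.Prime 3) := ⟨Nat.prime_three⟩
    apply orderOf_eq_prime
    · rw [pow_succ, pow_two, ← Subgroup.coe_mul, ← Subgroup.coe_mul, ← map_mul, ← map_mul, h3]
      simp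
    · intro h
      apply h1
      have : p.θ.symm x = 1 := Subtype.ext h
      have h2 := congrArg p.θ this
      simpa using h2
  · rw [← Subgroup.coe_mul, ← Subgroup.coe_mul, ← map_mul, ← map_mul, h3]
    simp

theorem exists_five : ∃ f ∈ p.T1, ∃ d ∈ p.T1, orderOf f = 5 ∧ d * f * d⁻¹ = f⁻¹ := by
  obtain ⟨x, d, h5, h1, hd⟩ := a5_exists5
  refine ⟨(p.θ.symm x).1, (p.θ.symm x).2, (p.θ.symm d).1, (p.θ.symm d).2, ?_, ?_⟩
  · have : Fact (Nat.Prime 5) := ⟨Nat.prime_five⟩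
    apply orderOf_eq_prime
    · rw [← Subgroup.coe_pow, ← map_pow, h5]
      simp
    · intro h
      apply h1
      have : p.θ.symm x = 1 := Subtype.ext h
      have h2 := congrArg p.θ this
      simpa using h2
  · rw [← Subgroup.coe_inv, ← Subgroup.coe_inv, ← Subgroup.coe_mul, ← Subgroup.coe_mul, ← map_inv,
      ← map_inv, ← map_mul, ← map_mul, hd]

theorem card_T1 : Nat.card p.T1 = 60 := by
  rw [Nat.card_congr p.θ.toEquiv, card_a5]

end Pkg'

end Cfsg.Agent.Lib.HallJanko.Three
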