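import Mathlib
import Cfsg.Agent.Lib.HallJanko.ThreeLocal

/-!
# Hall-Janko type groups: `|C(ℓ)| = 36` for `ℓ ∈ T1` of order `3`
-/

set_option autoImplicit false
set_option linter.unusedSectionVars false
set_option linter.unusedVariables false

namespace Cfsg.Agent.Lib.HallJanko.Three

open Subgroup Pkg'

variable {G : Type*} [Group G]

/-- `|C(ℓ)| ∈ {36, 180}` for `ℓ ∈ T1` of order `3`: apply `v4_cases` to `C(ℓ)/⟨ℓ⟩`. -/
theorem card_C_ell_cases [Finite G] (p : Pkg G) {ℓ : G} (hℓ : ℓ ∈ p.T1) (h3 : orderOf ℓ = 3) :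
    Nat.card (centralizer ({ℓ} : Set G)) = 36 ∨ Nat.card (centralizer ({ℓ} : Set G)) = 180 := by
  have hcube : ℓ * ℓ * ℓ = 1 := by
    have := pow_orderOf_eq_one ℓ
    rw [h3, pow_succ, pow_two] at this
    exact this
  have hne : ℓ ≠ 1 := by
    rintro rfl
    simp at h3
  set L := centralizer ({ℓ} : Set G) with hL
  have mem_L : ∀ {x : G}, x ∈ L ↔ x * ℓ = ℓ * x := by
    intro x
    exact mem_centralizer_singleton_iff
  let lH : L := ⟨ℓ, mem_L.2 rfl⟩
  have hcen : ∀ x : L, x * lH = lH * x := fun x => Subtype.ext (mem_L.1 x.2)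
  have hN : (zpowers lH).Normal := by
    constructor
    intro n hn g
    obtain ⟨k, rfl⟩ := mem_zpowers_iff.1 hn
    have hcm : Commute g (lH ^ k) := ((Commute.refl lH).zpow_right k).symm.symm |> fun _ =>
      (show Commute g lH from hcen g).zpow_right k
    rw [hcm.eq, mul_inv_cancel_right]
    exact zpow_mem (mem_zpowers lH) k
  let tH : L := ⟨p.t, mem_L.2 (p.t_comm ℓ hℓ)⟩
  let t₂H : L := ⟨p.t₂, mem_L.2 (p.t₂_comm ℓ hℓ)⟩
  let yH : L := ⟨p.y', mem_L.2 (p.y'_comm ℓ hℓ)⟩
  -- membership in `⟨ℓ⟩`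
  have hNT : ∀ x : L, x ∈ zpowers lH → x.1 ∈ p.T1 := by
    intro x hx
    obtain ⟨k, rfl⟩ := mem_zpowers_iff.1 hx
    exact zpow_mem hℓ k
  let π : L →* L ⧸ zpowers lH := QuotientGroup.mk' _
  have hπ : ∀ a b : L, π a = π b ↔ a⁻¹ * b ∈ zpowers lH := fun a b => QuotientGroup.eq
  have hcases := V4.v4_cases (π tH) (π t₂H) (π yH)
    (by rw [← map_mul, show tH * tH = 1 from Subtype.ext p.t_sq, map_one])
    (by rw [← map_mul, show t₂H * t₂H = 1 from Subtype.ext p.t₂_sq, map_one])
    (by rw [← map_mul, ← map_mul, show tH * t₂H = t₂H * tH from Subtype.ext p.t_t₂])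
    (by
      intro h
      rw [← map_one π, hπ, mul_one] at h
      have := hNT _ h
      change p.t⁻¹ ∈ p.T1 at this
      rw [t_inv p] at this
      exact p.t_notMem this)
    (by
      intro h
      rw [← map_one π, hπ, mul_one] at h
      have := hNT _ h
      change p.t₂⁻¹ ∈ p.T1 at this
      rw [t₂_inv p] at this
      exact p.t₂_notMem this)
    (by
      intro h
      rw [hπ] at h
      have := hNT _ h
      simp only [Subgroup.coe_mul, Subgroup.coe_inv] at this
      change p.t⁻¹ * p.t₂ ∈ p.T1 at this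
      rw [t_inv p] at this
      exact p.tt₂_notMem this)
    (by rw [← map_mul, ← map_mul, show yH * yH * yH = 1 from Subtype.ext p.y'_cube, map_one])
    (by rw [← map_mul, ← map_inv, ← map_mul, show yH * tH * yH⁻¹ = t₂H from Subtype.ext p.y'_t])
    (by rw [← map_mul, ← map_inv, ← map_mul, ← map_mul,
          show yH * t₂H * yH⁻¹ = tH * t₂H from Subtype.ext p.y'_t₂])
    (by
      intro xb hxb
      obtain ⟨x, rfl⟩ := QuotientGroup.mk'_surjective _ xb
      change π x * π tH = π tH * π x at hxb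
      rw [← map_mul, ← map_mul, hπ] at hxb
      obtain ⟨k, hk⟩ := mem_zpowers_iff.1 hxb
      -- `x t = t x ℓ^{-k}`
      have hk' : (x.1 * p.t)⁻¹ * (p.t * x.1) = ℓ ^ k := by
        have := congrArg Subtype.val hk
        simpa [lH, tH] using this.symm
      set w := ℓ ^ k with hw
      have hwc : p.t * w = w * p.t := (show Commute p.t ℓ from p.t_comm ℓ hℓ).zpow_right k
      have hxt : x.1 * p.t * w = p.t * x.1 := by
        rw [← hk']; group
      -- squares
      have hconj : x.1⁻¹ * p.t * x.1 = p.t * w := by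
        have h1 : p.t * x.1 = x.1 * (p.t * w) := by rw [← hxt, mul_assoc]
        rw [mul_assoc, h1, inv_mul_cancel_left]
      have hsq : (p.t * w) * (p.t * w) = 1 := by
        rw [← hconj]
        calc x.1⁻¹ * p.t * x.1 * (x.1⁻¹ * p.t * x.1) = x.1⁻¹ * (p.t * p.t) * x.1 := by group
          _ = 1 := by rw [p.t_sq]; group
      have hww : w * w = 1 := by
        calc w * w = (p.t * p.t) * (w * w) := by rw [p.t_sq, one_mul]
          _ = p.t * (p.t * w) * w := by group
          _ = p.t * (w * p.t) * w := by rw [hwc]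
          _ = (p.t * w) * (p.t * w) := by group
          _ = 1 := hsq
      have hw3 : w * w * w = 1 := by
        have : w ^ 3 = 1 := by
          rw [hw, ← zpow_natCast, ← zpow_mul, mul_comm, zpow_mul, zpow_natCast]
          have h0 : ℓ ^ 3 = 1 := by rw [pow_succ, pow_two]; exact hcube
          rw [h0, one_zpow]
        rwa [pow_succ, pow_two] at this
      have hw1 : w = 1 := by
        rw [hww, one_mul] at hw3
        exact hw3
      have hxcomm : x.1 * p.t = p.t * x.1 := by
        rw [hw1, mul_one] at hxt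
        exact hxt
      obtain ⟨v, s, hv, hs, hvs⟩ := mem_Ct' p hxcomm
      -- `s` commutes with `ℓ`
      have hvc : v * ℓ = ℓ * v := isV_comm_T1 p hv hℓ
      have hsc : ℓ * s = s * ℓ := by
        have hx := mem_L.1 x.2
        rw [hvs] at hx
        have h1 : v * (s * ℓ) = v * (ℓ * s) := by
          calc v * (s * ℓ) = v * s * ℓ := by group
            _ = ℓ * (v * s) := hx
            _ = (ℓ * v) * s := by group
            _ = (v * ℓ) * s := by rw [hvc]
            _ = v * (ℓ * s) := by group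
        exact (mul_left_cancel h1).symm
      have hvL : v ∈ L := mem_L.2 hvc
      have hsN : (⟨s, mem_L.2 hsc.symm⟩ : L) ∈ zpowers lH := by
        rcases t1_cent3 p hℓ hs hcube hne hsc with h | h | h
        · have : (⟨s, mem_L.2 hsc.symm⟩ : L) = 1 := Subtype.ext h
          rw [this]; exact one_mem _
        · have : (⟨s, mem_L.2 hsc.symm⟩ : L) = lH := Subtype.ext h
          rw [this]; exact mem_zpowers _
        · have : (⟨s, mem_L.2 hsc.symm⟩ : L) = lH * lH := Subtype.ext h
          rw [this]; exact mul_mem (mem_zpowers _) (mem_zpowers _)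
      have hπx : π x = π ⟨v, hvL⟩ := by
        rw [hπ]
        have : x⁻¹ * ⟨v, hvL⟩ = (⟨s, mem_L.2 hsc.symm⟩ : L)⁻¹ := by
          apply Subtype.ext
          simp only [Subgroup.coe_mul, Subgroup.coe_inv]
          rw [hvs, mul_inv_rev, mul_assoc, inv_mul_cancel, mul_one]
        rw [this]
        exact inv_mem hsN
      rcases hv with rfl | rfl | rfl | rfl
      · left
        rw [hπx]
        exact map_one π
      · right; left
        exact hπx
      · right; right; left
        exact hπx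
      · right; right; right
        rw [hπx, ← map_mul]
        rfl)
  have hcard : Nat.card L = Nat.card (L ⧸ zpowers lH) * Nat.card (zpowers lH) :=
    Subgroup.card_eq_card_quotient_mul_card_subgroup _
  have hc3 : Nat.card (zpowers lH) = 3 := by
    rw [Nat.card_zpowers]
    rw [← h3]
    exact Subgroup.orderOf_mk ℓ (mem_L.2 rfl)
  rw [hcard, hc3]
  rcases hcases with h | ⟨h, _⟩
  · left
    change Nat.card (L ⧸ zpowers lH) = 12 at h
    rw [h]
  · right
    change Nat.card (L ⧸ zpowers lH) = 60 at h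
    rw [h]

/-- `24 ∣ |C(y)|` whenever `y` of order `3` commutes with a conjugate of `z`. -/
theorem dvd_of_comm_z [Finite G] (p : Pkg G) {y : G} (hy : orderOf y = 3) (hz : y * p.z = p.z * y) :
    24 ∣ Nat.card (centralizer ({y} : Set G)) := by
  have h := p.cent3 y hz hy
  rw [← h]
  exact Subgroup.card_dvd_of_le inf_le_right

theorem y'_dvd [Finite G] (p : Pkg G) : 24 ∣ Nat.card (centralizer ({p.y'} : Set G)) :=
  dvd_of_comm_z p (orderOf_y' p) (y'_comm_z p)

/-- A power of an element of order `3` has the same centralizer order, if nontrivial. -/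
theorem card_cent_pow3 {a : G} (ha : a * a * a = 1) {k : ℕ} (hk : a ^ k ≠ 1) :
    Nat.card (centralizer ({a ^ k} : Set G)) = Nat.card (centralizer ({a} : Set G)) := by
  have h3 : a ^ 3 = 1 := by rw [pow_succ, pow_two]; exact ha
  have hk3 : a ^ k = a ^ (k % 3) := by
    conv_lhs => rw [← Nat.div_add_mod k 3, pow_add, pow_mul, h3, one_pow, one_mul]
  have hlt : k % 3 < 3 := Nat.mod_lt _ (by norm_num)
  rw [hk3] at hk ⊢
  interval_cases h : k % 3
  · simp at hk
  · simp
  · have hinv : a ^ 2 = a⁻¹ := by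
      rw [eq_inv_iff_mul_eq_one, pow_two]
      exact ha
    rw [hinv, card_cent_inv]

/-- `|C(ℓ)| = 36` for `ℓ ∈ T1` of order `3`. -/
theorem card_C_ell [Finite G] (p : Pkg G) (hf : FiveFacts p) {ℓ : G} (hℓ : ℓ ∈ p.T1)
    (h3 : orderOf ℓ = 3) : Nat.card (centralizer ({ℓ} : Set G)) = 36 := by
  rcases card_C_ell_cases p hℓ h3 with h | h
  · exact h
  exfalso
  have hcube : ℓ * ℓ * ℓ = 1 := by
    have := pow_orderOf_eq_one ℓ
    rw [h3, pow_succ, pow_two] at this
    exact this
  have : Fact (Nat.Prime 5) := ⟨Nat.prime_five⟩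
  have : Fact (Nat.Prime 3) := ⟨Nat.prime_three⟩
  -- an element of order `5` in `C(ℓ)`
  obtain ⟨f', hf'⟩ := exists_prime_orderOf_dvd_card' (G := centralizer ({ℓ} : Set G)) 5 (by rw [h]; norm_num)
  have hf'5 : orderOf (f' : G) = 5 := by rw [Subgroup.orderOf_coe]; exact hf'
  have hcomm : (f' : G) * ℓ = ℓ * f' := mem_centralizer_singleton_iff.1 f'.2
  rcases hf.classes f' hf'5 with h50 | ⟨f₁, hf₁, hf₁5, hconj⟩
  · have hmem : ℓ ∈ centralizer ({(f' : G)} : Set G) := mem_centralizer_singleton_iff.2 hcomm.symm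
    have hd : orderOf (⟨ℓ, hmem⟩ : centralizer ({(f' : G)} : Set G)) ∣ 50 := by
      rw [← h50]; exact orderOf_dvd_natCard _
    rw [Subgroup.orderOf_mk, h3] at hd
    norm_num at hd
  · obtain ⟨g, hg⟩ := isConj_iff.1 hconj
    -- `ℓ₁ = g ℓ g⁻¹` commutes with `f₁`
    set ℓ₁ := g * ℓ * g⁻¹ with hℓ₁
    have hℓ₁f : ℓ₁ * f₁ = f₁ * ℓ₁ := by
      rw [← hg, hℓ₁]
      calc g * ℓ * g⁻¹ * (g * f' * g⁻¹) = g * (ℓ * f') * g⁻¹ := by group
        _ = g * (f' * ℓ) * g⁻¹ := by rw [hcomm]
        _ = g * f' * g⁻¹ * (g * ℓ * g⁻¹) := by group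
    have hord : orderOf ℓ₁ = 3 := by
      rw [hℓ₁, ← h3]
      exact (Cfsg.Agent.Lib.Basic.ConjCount.orderOf_eq_of_isConj (isConj_iff.2 ⟨g, rfl⟩)).symm
    have hy'f : p.y' * f₁ = f₁ * p.y' := p.y'_comm _ hf₁
    have hc300 := hf.card_C f₁ hf₁ hf₁5
    have hK : ¬ 3 ^ 2 ∣ Nat.card (centralizer ({f₁} : Set G)) := by rw [hc300]; norm_num
    obtain ⟨k', j, hk'⟩ := conj_of_prime hK
      (⟨p.y', mem_centralizer_singleton_iff.2 hy'f⟩ : centralizer ({f₁} : Set G))
      ⟨ℓ₁, mem_centralizer_singleton_iff.2 hℓ₁f⟩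
      (by rw [Subgroup.orderOf_mk]; exact orderOf_y' p)
      (by rw [Subgroup.orderOf_mk]; exact hord)
    have hk'' : (k' : G) * p.y' * (k' : G)⁻¹ = ℓ₁ ^ j := by
      have := congrArg Subtype.val hk'
      simpa using this
    have hc1 : Nat.card (centralizer ({p.y'} : Set G)) = Nat.card (centralizer ({ℓ₁ ^ j} : Set G)) := by
      rw [← hk'', card_cent_conj]
    have hne : ℓ₁ ^ j ≠ 1 := by
      rw [← hk'']
      intro h1
      apply p.y'_ne
      have : p.y' = (k' : G)⁻¹ * ((k' : G) * p.y' * (k' : G)⁻¹) * k' := by group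
      rw [this, h1]
      group
    have hℓ₁cube : ℓ₁ * ℓ₁ * ℓ₁ = 1 := by
      rw [hℓ₁]
      calc g * ℓ * g⁻¹ * (g * ℓ * g⁻¹) * (g * ℓ * g⁻¹) = g * (ℓ * ℓ * ℓ) * g⁻¹ := by group
        _ = 1 := by rw [hcube]; group
    rw [card_cent_pow3 hℓ₁cube hne, hℓ₁, card_cent_conj, h] at hc1
    have := y'_dvd p
    rw [hc1] at this
    norm_num at this

end Cfsg.Agent.Lib.HallJanko.Three
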