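import Mathlib
import Cfsg.Agent.Lib.HallJanko.ThreeCent

/-!
# Hall-Janko type groups: `|C(y')| = 1080`
-/

set_option autoImplicit false
set_option linter.unusedSectionVars false
set_option linter.unusedVariables false

namespace Cfsg.Agent.Lib.HallJanko.Three

open Subgroup Pkg'

variable {G : Type*} [Group G]

theorem card_inf_cent_conj (g a b : G) :
    Nat.card ↥(centralizer ({g * a * g⁻¹} : Set G) ⊓ centralizer ({g * b * g⁻¹} : Set G)) =
      Nat.card ↥(centralizer ({a} : Set G) ⊓ centralizer ({b} : Set G)) := by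
  symm
  refine Nat.card_congr (Equiv.subtypeEquiv (MulAut.conj g).toEquiv ?_)
  intro x
  have key : ∀ c : G, x * c = c * x ↔ (g * x * g⁻¹) * (g * c * g⁻¹) = (g * c * g⁻¹) * (g * x * g⁻¹) := by
    intro c
    constructor
    · intro h
      calc g * x * g⁻¹ * (g * c * g⁻¹) = g * (x * c) * g⁻¹ := by group
        _ = g * (c * x) * g⁻¹ := by rw [h]
        _ = g * c * g⁻¹ * (g * x * g⁻¹) := by group
    · intro h
      have h2 : g * (x * c) * g⁻¹ = g * (c * x) * g⁻¹ := by
        calc g * (x * c) * g⁻¹ = g * x * g⁻¹ * (g * c * g⁻¹) := by group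
          _ = g * c * g⁻¹ * (g * x * g⁻¹) := h
          _ = g * (c * x) * g⁻¹ := by group
      exact mul_left_cancel (mul_right_cancel h2)
  simp only [Subgroup.mem_inf, mem_centralizer_singleton_iff, MulEquiv.toEquiv_eq_coe,
    MulEquiv.coe_toEquiv, MulAut.conj_apply]
  rw [key a, key b]

theorem comm_conj {a b : G} (g : G) (h : a * b = b * a) :
    (g * a * g⁻¹) * (g * b * g⁻¹) = (g * b * g⁻¹) * (g * a * g⁻¹) := by
  calc g * a * g⁻¹ * (g * b * g⁻¹) = g * (a * b) * g⁻¹ := by group
    _ = g * (b * a) * g⁻¹ := by rw [h]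
    _ = g * b * g⁻¹ * (g * a * g⁻¹) := by group

theorem comm_unconj {a b : G} (g : G) (h : (g * a * g⁻¹) * (g * b * g⁻¹) = (g * b * g⁻¹) * (g * a * g⁻¹)) :
    a * b = b * a := by
  have h2 : g * (a * b) * g⁻¹ = g * (b * a) * g⁻¹ := by
    calc g * (a * b) * g⁻¹ = g * a * g⁻¹ * (g * b * g⁻¹) := by group
      _ = g * b * g⁻¹ * (g * a * g⁻¹) := h
      _ = g * (b * a) * g⁻¹ := by group
  exact mul_left_cancel (mul_right_cancel h2)

theorem order_conj (g x : G) : orderOf (g * x * g⁻¹) = orderOf x :=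
  (Cfsg.Agent.Lib.Basic.ConjCount.orderOf_eq_of_isConj (isConj_iff.2 ⟨g, rfl⟩)).symm

/-- `|C(u) ∩ C(y)| = 24` for a conjugate `u` of `z` and `y` of order `3` commuting with `u`. -/
theorem cent3_conj (p : Pkg G) {u y : G} (hu : IsConj u p.z) (hy : orderOf y = 3)
    (hc : y * u = u * y) :
    Nat.card ↥(centralizer ({u} : Set G) ⊓ centralizer ({y} : Set G)) = 24 := by
  obtain ⟨c, hcz⟩ := isConj_iff.1 hu
  have h1 : c * y * c⁻¹ * p.z = p.z * (c * y * c⁻¹) := by
    rw [← hcz]
    exact comm_conj c hc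
  have h2 := p.cent3 (c * y * c⁻¹) h1 (by rw [order_conj]; exact hy)
  rw [← hcz, card_inf_cent_conj] at h2
  exact h2

/-- `|C(u) ∩ C(f)| = 10` for a conjugate `u` of `z` and `f` of order `5` commuting with `u`. -/
theorem cent5_conj (p : Pkg G) {u f : G} (hu : IsConj u p.z) (hy : orderOf f = 5)
    (hc : f * u = u * f) :
    Nat.card ↥(centralizer ({u} : Set G) ⊓ centralizer ({f} : Set G)) = 10 := by
  obtain ⟨c, hcz⟩ := isConj_iff.1 hu
  have h1 : c * f * c⁻¹ * p.z = p.z * (c * f * c⁻¹) := by
    rw [← hcz]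
    exact comm_conj c hc
  have h2 := p.cent5 (c * f * c⁻¹) h1 (by rw [order_conj]; exact hy)
  rw [← hcz, card_inf_cent_conj] at h2
  exact h2

theorem T1_le_L (p : Pkg G) : p.T1 ≤ centralizer ({p.y'} : Set G) := fun x hx =>
  mem_centralizer_singleton_iff.2 (p.y'_comm x hx).symm

theorem sixty_dvd [Finite G] (p : Pkg G) : 60 ∣ Nat.card (centralizer ({p.y'} : Set G)) := by
  rw [← card_T1 p]
  exact Subgroup.card_dvd_of_le (T1_le_L p)

/-- The involutions of `L = C(y')` are conjugate to `z`. -/
theorem invol_L [Finite G] (p : Pkg G) (hf : FiveFacts p) {u : G} (hu : u * p.y' = p.y' * u)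
    (h2 : u * u = 1) (h1 : u ≠ 1) : IsConj u p.z := by
  rcases p.all_inv u h2 h1 with h | h
  · exact h
  exfalso
  obtain ⟨c, hc⟩ := isConj_iff.1 h
  -- `c y' c⁻¹` commutes with `t`
  set y₁ := c * p.y' * c⁻¹ with hy₁
  have hy₁t : y₁ * p.t = p.t * y₁ := by
    rw [← hc, hy₁]
    exact comm_conj c hu.symm
  obtain ⟨v, s, hv, hs, hvs⟩ := mem_Ct' p hy₁t
  have hcube : y₁ * y₁ * y₁ = 1 := by
    rw [hy₁]
    calc c * p.y' * c⁻¹ * (c * p.y' * c⁻¹) * (c * p.y' * c⁻¹) = c * (p.y' * p.y' * p.y') * c⁻¹ := by group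
      _ = 1 := by rw [p.y'_cube]; group
  have hvs' : v * s = s * v := isV_comm_T1 p hv hs
  have h3 : v * (s * s * s) = 1 := by
    have := hcube
    rw [hvs] at this
    calc v * (s * s * s) = v * v * v * (s * s * s) := by rw [isV_sq p hv, one_mul]
      _ = (v * s) * (v * s) * (v * s) := by
        have e1 : v * s * (v * s) = v * v * (s * s) := by
          calc v * s * (v * s) = v * (s * v) * s := by group
            _ = v * (v * s) * s := by rw [hvs']
            _ = v * v * (s * s) := by group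
        rw [e1]
        calc v * v * v * (s * s * s) = v * v * (v * (s * s)) * s := by group
          _ = v * v * ((s * s) * v) * s := by
            have : v * (s * s) = (s * s) * v := by
              calc v * (s * s) = (v * s) * s := by group
                _ = (s * v) * s := by rw [hvs']
                _ = s * (v * s) := by group
                _ = s * (s * v) := by rw [hvs']
                _ = (s * s) * v := by group
            rw [this]
          _ = v * v * (s * s) * (v * s) := by group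
      _ = 1 := this
  have hv1 : v = 1 := by
    have hm : v ∈ p.T1 := by
      have : v = (s * s * s)⁻¹ := eq_inv_of_mul_eq_one_left h3
      rw [this]
      exact inv_mem (mul_mem (mul_mem hs hs) hs)
    exact isV_mem_T1 p hv hm
  subst hv1
  rw [one_mul] at hvs
  have hord : orderOf s = 3 := by
    rw [← hvs, hy₁, order_conj]
    exact orderOf_y' p
  have h36 := card_C_ell p hf hs hord
  rw [← hvs, hy₁, card_cent_conj] at h36
  have := sixty_dvd p
  rw [h36] at this
  norm_num at this

theorem not_16_dvd [Finite G] (p : Pkg G) (hf : FiveFacts p) :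
    ¬ 16 ∣ Nat.card (centralizer ({p.y'} : Set G)) := by
  intro h16
  have : Fact (Nat.Prime 2) := ⟨Nat.prime_two⟩
  obtain ⟨S, hS⟩ := Sylow.exists_subgroup_card_pow_prime (G := centralizer ({p.y'} : Set G)) 2 (n := 4)
    (by norm_num; exact h16)
  have hSp : IsPGroup 2 S := IsPGroup.of_card hS
  have : Nontrivial S := by
    rw [← Finite.one_lt_card_iff_nontrivial, hS]
    norm_num
  have hZ := hSp.center_nontrivial
  have hZp : IsPGroup 2 (center S) := hSp.to_subgroup _
  obtain ⟨n, hn⟩ := hZp.exists_card_eq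
  have hn0 : n ≠ 0 := by
    rintro rfl
    rw [pow_zero] at hn
    have := Finite.one_lt_card_iff_nontrivial.2 hZ
    omega
  obtain ⟨u, hu⟩ := exists_prime_orderOf_dvd_card' (G := center S) 2 (by
    rw [hn]; exact dvd_pow_self 2 hn0)
  -- the element of `G`
  set u₀ : G := u.1.1.1 with hu₀
  have hord : orderOf u₀ = 2 := by
    rw [hu₀, Subgroup.orderOf_coe, Subgroup.orderOf_coe, Subgroup.orderOf_coe]
    exact hu
  have hne : u₀ ≠ 1 := by
    intro h
    rw [h, orderOf_one] at hord
    omega
  have hsq : u₀ * u₀ = 1 := by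
    have := pow_orderOf_eq_one u₀
    rwa [hord, pow_two] at this
  have hcom : u₀ * p.y' = p.y' * u₀ := mem_centralizer_singleton_iff.1 u.1.1.2
  have hconj := invol_L p hf hcom hsq hne
  have h24 := cent3_conj p hconj (orderOf_y' p) hcom.symm
  have hle : S.map (centralizer ({p.y'} : Set G)).subtype ≤
      centralizer ({u₀} : Set G) ⊓ centralizer ({p.y'} : Set G) := by
    rintro _ ⟨x, hx, rfl⟩
    refine ⟨mem_centralizer_singleton_iff.2 ?_, x.2⟩
    have := (mem_center_iff.1 u.2) ⟨x, hx⟩
    have h2 := congrArg (fun w : S => ((w : centralizer ({p.y'} : Set G)) : G)) this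
    exact h2
  have hcd := Subgroup.card_dvd_of_le hle
  rw [h24, Subgroup.card_map_of_injective (Subgroup.subtype_injective _), hS] at hcd
  norm_num at hcd

theorem not_25_dvd [Finite G] (p : Pkg G) (hf : FiveFacts p) (hG : Nat.card G = 604800) :
    ¬ 25 ∣ Nat.card (centralizer ({p.y'} : Set G)) := by
  intro h25
  have : Fact (Nat.Prime 5) := ⟨Nat.prime_five⟩
  have : Fact (Nat.Prime 3) := ⟨Nat.prime_three⟩
  obtain ⟨S, hS⟩ := Sylow.exists_subgroup_card_pow_prime (G := centralizer ({p.y'} : Set G)) 5 (n := 2)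
    (by norm_num; exact h25)
  set S' := S.map (centralizer ({p.y'} : Set G)).subtype with hS'
  have hc' : Nat.card S' = 5 ^ 2 := by
    rw [hS', Subgroup.card_map_of_injective (Subgroup.subtype_injective _), hS]
  have hp : IsPGroup 5 S' := IsPGroup.of_card hc'
  have hidx : ¬ 5 ∣ S'.index := by
    have h := Subgroup.card_mul_index S'
    rw [hc', hG] at h
    have : S'.index = 24192 := by omega
    rw [this]
    norm_num
  let P : Sylow 5 G := hp.toSylow hidx
  have hcP := hf.cent_P P
  have hmem : p.y' ∈ centralizer ((P : Subgroup G) : Set G) := by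
    rw [mem_centralizer_iff]
    intro h hh
    have hh' : h ∈ S' := hh
    obtain ⟨x, _, rfl⟩ := hh'
    exact mem_centralizer_singleton_iff.1 x.2
  rw [hcP] at hmem
  have hd : orderOf (⟨p.y', hmem⟩ : (P : Subgroup G)) ∣ Nat.card (P : Subgroup G) := orderOf_dvd_natCard _
  rw [Subgroup.orderOf_mk, orderOf_y' p] at hd
  have hcc : Nat.card (P : Subgroup G) = 25 := hc'
  rw [hcc] at hd
  norm_num at hd

/-- `|C_L(f)| = 15` -/
theorem card_K [Finite G] (p : Pkg G) (hf : FiveFacts p) (hG : Nat.card G = 604800) {f : G}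
    (hfT : f ∈ p.T1) (hf5 : orderOf f = 5) :
    Nat.card ↥(centralizer ({f} : Set G) ⊓ centralizer ({p.y'} : Set G)) = 15 := by
  set K := centralizer ({f} : Set G) ⊓ centralizer ({p.y'} : Set G) with hK
  have hdvd : Nat.card K ∣ 300 := by
    rw [← hf.card_C f hfT hf5]
    exact Subgroup.card_dvd_of_le inf_le_left
  have hyc : p.y' * f = f * p.y' := p.y'_comm f hfT
  have hfK : f ∈ K := ⟨mem_centralizer_singleton_iff.2 rfl, mem_centralizer_singleton_iff.2 hyc.symm⟩
  have hyK : p.y' ∈ K := ⟨mem_centralizer_singleton_iff.2 hyc, mem_centralizer_singleton_iff.2 rfl⟩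
  have h5 : 5 ∣ Nat.card K := by
    have := orderOf_dvd_natCard (⟨f, hfK⟩ : K)
    rwa [Subgroup.orderOf_mk, hf5] at this
  have h3 : 3 ∣ Nat.card K := by
    have := orderOf_dvd_natCard (⟨p.y', hyK⟩ : K)
    rwa [Subgroup.orderOf_mk, orderOf_y' p] at this
  have h2 : ¬ 2 ∣ Nat.card K := by
    intro h2
    have : Fact (Nat.Prime 2) := ⟨Nat.prime_two⟩
    obtain ⟨u, hu⟩ := exists_prime_orderOf_dvd_card' (G := K) 2 h2
    have hord : orderOf (u : G) = 2 := by rw [Subgroup.orderOf_coe]; exact hu
    have hne : (u : G) ≠ 1 := by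
      intro h
      rw [h, orderOf_one] at hord
      omega
    have hsq : (u : G) * u = 1 := by
      have := pow_orderOf_eq_one (u : G)
      rwa [hord, pow_two] at this
    have huy : (u : G) * p.y' = p.y' * u := mem_centralizer_singleton_iff.1 u.2.2
    have huf : (u : G) * f = f * u := mem_centralizer_singleton_iff.1 u.2.1
    have hconj := invol_L p hf huy hsq hne
    have h10 := cent5_conj p hconj hf5 huf.symm
    have hym : p.y' ∈ centralizer ({(u : G)} : Set G) ⊓ centralizer ({f} : Set G) :=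
      ⟨mem_centralizer_singleton_iff.2 huy.symm, mem_centralizer_singleton_iff.2 hyc⟩
    have := orderOf_dvd_natCard (⟨p.y', hym⟩ : ↥(centralizer ({(u : G)} : Set G) ⊓ centralizer ({f} : Set G)))
    rw [Subgroup.orderOf_mk, orderOf_y' p, h10] at this
    norm_num at this
  have h25 : ¬ 25 ∣ Nat.card K := fun h =>
    not_25_dvd p hf hG (h.trans (Subgroup.card_dvd_of_le inf_le_right))
  have hle : Nat.card K ≤ 300 := Nat.le_of_dvd (by norm_num) hdvd
  generalize Nat.card K = n at *
  clear_value K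
  interval_cases n <;> omega

end Cfsg.Agent.Lib.HallJanko.Three
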