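import Mathlib
import Cfsg.Agent.Lib.HallJanko.ThreeL

/-!
# Hall-Janko type groups: `|C(y')| = 1080`
-/

set_option autoImplicit false
set_option linter.unusedSectionVars false
set_option linter.unusedVariables false

namespace Cfsg.Agent.Lib.HallJanko.Three

open Subgroup Pkg'

variable {G : Type*} [Group G]

/-- An element inverting `f` normalizes `⟨f⟩`. -/
theorem mem_normalizer_of_inv {f d : G} (h : d * f * d⁻¹ = f⁻¹) :
    d ∈ normalizer ((zpowers f : Subgroup G) : Set G) := by
  rw [mem_normalizer_iff]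
  intro x
  have h' : d⁻¹ * f * d = f⁻¹ := by
    have : f = d⁻¹ * f⁻¹ * d := by rw [← h]; group
    calc d⁻¹ * f * d = (d⁻¹ * f⁻¹ * d)⁻¹ := by group
      _ = f⁻¹ := by rw [← this]
  constructor
  · intro hx
    obtain ⟨k, rfl⟩ := mem_zpowers_iff.1 hx
    have : d * f ^ k * d⁻¹ = (d * f * d⁻¹) ^ k := by
      rw [conj_zpow]
    rw [this, h]
    exact zpow_mem (inv_mem (mem_zpowers f)) k
  · intro hx
    obtain ⟨k, hk⟩ := mem_zpowers_iff.1 hx
    have : x = (d⁻¹ * f * d) ^ k := by
      have h2 : x = d⁻¹ * (d * x * d⁻¹) * d := by group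
      rw [h2, ← hk]
      have h3 : (d⁻¹ * f * d) = d⁻¹ * f * d⁻¹⁻¹ := by rw [inv_inv]
      rw [h3, conj_zpow, inv_inv]
    rw [this, h']
    exact zpow_mem (inv_mem (mem_zpowers f)) k

theorem centralizer_le_normalizer_zpowers (f : G) :
    centralizer ({f} : Set G) ≤ normalizer ((zpowers f : Subgroup G) : Set G) := by
  intro x hx
  have hc : x * f = f * x := mem_centralizer_singleton_iff.1 hx
  rw [mem_normalizer_iff]
  intro y
  have hcz : ∀ k : ℤ, x * f ^ k * x⁻¹ = f ^ k := by
    intro k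
    have : Commute x f := hc
    rw [(this.zpow_right k).eq, mul_inv_cancel_right]
  constructor
  · intro hy
    obtain ⟨k, rfl⟩ := mem_zpowers_iff.1 hy
    rw [hcz]
    exact zpow_mem (mem_zpowers f) k
  · intro hy
    obtain ⟨k, hk⟩ := mem_zpowers_iff.1 hy
    have : y = f ^ k := by
      have h2 : x * f ^ k * x⁻¹ = x * y * x⁻¹ := (hcz k).trans hk
      exact (mul_left_cancel (mul_right_cancel h2)).symm
    rw [this]
    exact zpow_mem (mem_zpowers f) k

theorem card_subgroupOf (A L : Subgroup G) : Nat.card (A.subgroupOf L) = Nat.card ↥(A ⊓ L) := by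
  rw [← inf_subgroupOf_right]
  exact Nat.card_congr (subgroupOfEquivOfLe inf_le_right).toEquiv

/-- `|N_L(⟨f⟩)| = 30`. -/
theorem card_A' [Finite G] (p : Pkg G) (hf : FiveFacts p) (hG : Nat.card G = 604800) {f d : G}
    (hfT : f ∈ p.T1) (hf5 : orderOf f = 5) (hdT : d ∈ p.T1) (hd : d * f * d⁻¹ = f⁻¹) :
    Nat.card ↥(normalizer ((zpowers f : Subgroup G) : Set G) ⊓ centralizer ({p.y'} : Set G)) = 30 := by
  set L := centralizer ({p.y'} : Set G) with hL
  set A := normalizer ((zpowers f : Subgroup G) : Set G) with hA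
  set B := centralizer ({f} : Set G) with hB
  have hBA : B ≤ A := centralizer_le_normalizer_zpowers f
  have hcA : Nat.card A = 600 := hf.card_N f hfT hf5
  have hcB : Nat.card B = 300 := hf.card_C f hfT hf5
  have hrel : B.relIndex A = 2 := by
    have h1 := Subgroup.card_mul_index (B.subgroupOf A)
    rw [card_subgroupOf, inf_eq_left.2 hBA, hcA, hcB] at h1
    change 300 * B.relIndex A = 600 at h1
    omega
  set A' := A ⊓ L with hA'
  set K := B ⊓ L with hK
  have hcK : Nat.card K = 15 := card_K p hf hG hfT hf5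
  have hKA : K ≤ A' := inf_le_inf_right _ hBA
  have hrel' : K.relIndex A' ≤ 2 := by
    have e1 : K = B ⊓ A' := by
      rw [hK, hA', ← inf_assoc, inf_eq_left.2 hBA]
    have e2 : K.relIndex A' = B.relIndex A' := by
      rw [e1, inf_relIndex_right]
    rw [e2, ← hrel]
    apply relIndex_le_of_le_right inf_le_left
    rw [hrel]
    norm_num
  have hne1 : K.relIndex A' ≠ 1 := by
    intro h
    have hle := relIndex_eq_one.1 h
    have hdm : d ∈ A' := ⟨mem_normalizer_of_inv hd, T1_le_L p hdT⟩
    have hdK := hle hdm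
    have hdc : d * f = f * d := mem_centralizer_singleton_iff.1 hdK.1
    rw [hdc, mul_inv_cancel_right] at hd
    have h2 : f * f = 1 := by
      nth_rewrite 1 [hd]
      exact inv_mul_cancel f
    have h5 : f ^ 2 = 1 := by rw [pow_two]; exact h2
    have := orderOf_dvd_of_pow_eq_one h5
    rw [hf5] at this
    norm_num at this
  have hne0 : K.relIndex A' ≠ 0 := by
    have : (K.subgroupOf A').FiniteIndex := inferInstance
    exact Subgroup.FiniteIndex.index_ne_zero
  have h2 : K.relIndex A' = 2 := by omega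
  have h1 := Subgroup.card_mul_index (K.subgroupOf A')
  rw [card_subgroupOf, inf_eq_left.2 hKA, hcK] at h1
  change 15 * K.relIndex A' = _ at h1
  rw [h2] at h1
  exact h1.symm

theorem arith_L (n m : ℕ) (hmul : 30 * m = n) (hmod : m ≡ 1 [MOD 5]) (hdvd : n ∣ 604800) (h16 : ¬ 16 ∣ n)
    (h24 : 24 ∣ n) (h60 : 60 ∣ n) (h25 : ¬ 25 ∣ n) : n = 1080 := by
  have hmod' : m % 5 = 1 := hmod
  obtain ⟨w, hw⟩ : 120 ∣ n := Nat.lcm_dvd h24 h60
  have hw189 : w ∣ 5040 := by
    have : 120 * w ∣ 120 * 5040 := by rw [← hw]; exact hdvd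
    exact Nat.dvd_of_mul_dvd_mul_left (by norm_num) this
  have hw2 : ¬ 2 ∣ w := by
    rintro ⟨c, rfl⟩
    apply h16
    rw [hw]
    exact ⟨15 * c, by ring⟩
  have hw5 : ¬ 5 ∣ w := by
    rintro ⟨c, rfl⟩
    apply h25
    rw [hw]
    exact ⟨24 * c, by ring⟩
  have hm4 : m = 4 * w := by omega
  subst hm4
  have hw63 : w ∣ 63 := by
    have h80 : Nat.Coprime w 80 := by
      have : Nat.Coprime w 2 := (Nat.Prime.coprime_iff_not_dvd Nat.prime_two).2 hw2 |>.symm
      have h5' : Nat.Coprime w 5 := (Nat.Prime.coprime_iff_not_dvd Nat.prime_five).2 hw5 |>.symm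
      have h80' : 80 = 2 ^ 4 * 5 := by norm_num
      rw [h80']
      exact Nat.Coprime.mul_right (Nat.Coprime.pow_right 4 this) h5'
    have : w ∣ 80 * 63 := by norm_num; exact hw189
    exact h80.dvd_of_dvd_mul_left this
  have hle63 : w ≤ 63 := Nat.le_of_dvd (by norm_num) hw63
  rw [hw]
  clear hw hw189 hdvd h24 h60 h16 h25 hmul hmod
  interval_cases w <;> omega

/-- `|C(y')| = 1080`. -/
theorem card_L [Finite G] (p : Pkg G) (hf : FiveFacts p) :
    Nat.card (centralizer ({p.y'} : Set G)) = 1080 := by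
  have hG := p.card_G
  obtain ⟨f, hfT, d, hdT, hf5, hd⟩ := exists_five p
  have : Fact (Nat.Prime 5) := ⟨Nat.prime_five⟩
  set L := centralizer ({p.y'} : Set G) with hL
  set A := normalizer ((zpowers f : Subgroup G) : Set G) with hA
  have hfL : f ∈ L := T1_le_L p hfT
  let Q : Subgroup L := zpowers ⟨f, hfL⟩
  have hQc : Nat.card Q = 5 := by
    rw [Nat.card_zpowers, Subgroup.orderOf_mk, hf5]
  have hn := Subgroup.card_mul_index Q
  have hn25 := not_25_dvd p hf hG
  have hQp : IsPGroup 5 Q := IsPGroup.of_card (n := 1) (by rw [hQc, pow_one])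
  have hidx : ¬ 5 ∣ Q.index := by
    rw [hQc] at hn
    intro h
    apply hn25
    rw [← hL, ← hn]
    exact mul_dvd_mul_left 5 h
  let P : Sylow 5 L := hQp.toSylow hidx
  have hnorm : (normalizer (Q : Set L) : Subgroup L) = A.subgroupOf L := by
    have h1 := Subgroup.comap_normalizer_eq_of_le_range (f := L.subtype) (H := zpowers f) (by
      rw [range_subtype]
      exact (zpowers_le.2 hfL))
    have h2 : (zpowers f).comap L.subtype = Q := by
      ext x
      simp only [mem_comap, subtype_apply, mem_zpowers_iff, Q]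
      constructor
      · rintro ⟨k, hk⟩
        exact ⟨k, Subtype.ext (by simpa using hk)⟩
      · rintro ⟨k, hk⟩
        exact ⟨k, by rw [← hk]; simp⟩
    rw [h2] at h1
    rw [← h1]
    rfl
  have hNc : Nat.card (normalizer (Q : Set L) : Subgroup L) = 30 := by
    rw [hnorm, card_subgroupOf]
    exact card_A' p hf hG hfT hf5 hdT hd
  have hsyl := card_sylow_modEq_one 5 L
  have hPn : Nat.card (Sylow 5 L) = (normalizer (Q : Set L)).index := P.card_eq_index_normalizer
  have hmul := Subgroup.card_mul_index (normalizer (Q : Set L) : Subgroup L)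
  rw [hNc, ← hPn] at hmul
  have hdvd : Nat.card L ∣ 604800 := by
    rw [← hG]
    exact Subgroup.card_subgroup_dvd_card L
  exact arith_L _ _ hmul hsyl hdvd (not_16_dvd p hf) (y'_dvd p) (sixty_dvd p) hn25

end Cfsg.Agent.Lib.HallJanko.Three
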