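import Mathlib
import Cfsg.Agent.Lib.HallJanko.ThreeL2

/-!
# Hall-Janko type groups: ten Sylow `3`-subgroups in `C(y')`
-/

set_option autoImplicit false
set_option linter.unusedSectionVars false
set_option linter.unusedVariables false

namespace Cfsg.Agent.Lib.HallJanko.Three

open Subgroup Pkg'

/-- A group of order `360` containing `A₅` has exactly ten Sylow `3`-subgroups. -/
theorem sylow3_index_ten {X : Type*} [Group X] [Finite X] (hX : Nat.card X = 360) (T : Subgroup X)
    (e : T ≃* alternatingGroup (Fin 5)) (R : Sylow 3 X) :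
    (normalizer ((R : Subgroup X) : Set X)).index = 10 := by
  have : Fact (Nat.Prime 3) := ⟨Nat.prime_three⟩
  have hR9 : Nat.card (R : Subgroup X) = 3 ^ 2 :=
    sylow_card R (a := 2) (m := 40) (by rw [hX]; norm_num) (by norm_num)
  have hRidx : (R : Subgroup X).index = 40 := by
    have := Subgroup.card_mul_index (R : Subgroup X)
    rw [hR9, hX] at this
    omega
  have hsimple : IsSimpleGroup T := by
    have : IsSimpleGroup (alternatingGroup (Fin 5)) := alternatingGroup.isSimpleGroup (by simp)
    exact e.isSimpleGroup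
  have hT60 : Nat.card T = 60 := by rw [Nat.card_congr e.toEquiv, card_a5]
  -- a `3`-element in `T`
  obtain ⟨x₀, hx₀3, hx₀1⟩ := a5_exists3
  set ℓ : X := (e.symm x₀).1 with hℓ
  have hℓT : ℓ ∈ T := (e.symm x₀).2
  have hℓ1 : ℓ ≠ 1 := by
    intro h
    apply hx₀1
    have : e.symm x₀ = 1 := Subtype.ext h
    have h2 := congrArg e this
    simpa using h2
  have hℓ3 : ℓ ^ 3 = 1 := by
    rw [hℓ, ← Subgroup.coe_pow, ← map_pow]
    have : x₀ ^ 3 = 1 := by rw [pow_succ, pow_two]; exact hx₀3
    rw [this]
    simp
  have hℓord : orderOf ℓ = 3 := orderOf_eq_prime hℓ3 hℓ1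
  have hnot : ¬ T ≤ normalizer ((R : Subgroup X) : Set X) := by
    intro hT
    have hz : IsPGroup 3 (zpowers ℓ) := IsPGroup.of_card (n := 1) (by
      rw [Nat.card_zpowers, hℓord, pow_one])
    have hzle : zpowers ℓ ≤ normalizer ((R : Subgroup X) : Set X) := zpowers_le.2 (hT hℓT)
    have hsup := hz.to_sup_of_normal_right' R.2 hzle
    have heq := R.3 hsup le_sup_right
    have hℓR : ℓ ∈ (R : Subgroup X) := by
      have : ℓ ∈ zpowers ℓ ⊔ (R : Subgroup X) := (le_sup_left : zpowers ℓ ≤ _) (mem_zpowers ℓ)
      rwa [heq] at this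
    have hnm : ((R : Subgroup X).subgroupOf T).Normal := by
      constructor
      intro n hn g
      rw [mem_subgroupOf] at hn ⊢
      have := (mem_normalizer_iff.1 (hT g.2) n.1).1 hn
      simpa using this
    rcases hnm.eq_bot_or_eq_top with h | h
    · have hm : (⟨ℓ, hℓT⟩ : T) ∈ (R : Subgroup X).subgroupOf T := mem_subgroupOf.2 hℓR
      rw [h, mem_bot] at hm
      exact hℓ1 (congrArg Subtype.val hm)
    · have hle : T ≤ (R : Subgroup X) := subgroupOf_eq_top.1 h
      have := Subgroup.card_dvd_of_le hle
      rw [hT60, hR9] at this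
      norm_num at this
  -- the index
  set n := (normalizer ((R : Subgroup X) : Set X)).index with hn
  have hnsyl : Nat.card (Sylow 3 X) = n := R.card_eq_index_normalizer
  have hmod : n % 3 = 1 := by
    have h := card_sylow_modEq_one 3 X
    rw [hnsyl] at h
    exact h
  have hdvd : n ∣ 40 := by
    rw [← hRidx]
    exact Subgroup.index_dvd_of_le le_normalizer
  have hle : n ≤ 40 := Nat.le_of_dvd (by norm_num) hdvd
  have hcases : n = 1 ∨ n = 4 ∨ n = 10 ∨ n = 40 := by
    clear_value n
    interval_cases n <;> omega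
  rcases hcases with h | h | h | h
  · exfalso
    apply hnot
    have : normalizer ((R : Subgroup X) : Set X) = ⊤ := Subgroup.index_eq_one.1 h
    rw [this]
    exact le_top
  · exfalso
    have hψ := (MulAction.toPermHom X (Sylow 3 X)).comp T.subtype
    let ψ : T →* Equiv.Perm (Sylow 3 X) := (MulAction.toPermHom X (Sylow 3 X)).comp T.subtype
    rcases (inferInstance : (ψ.ker).Normal).eq_bot_or_eq_top with hk | hk
    · have hinj : Function.Injective ψ := (MonoidHom.ker_eq_bot_iff ψ).1 hk
      have := Subgroup.card_dvd_of_injective ψ hinj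
      rw [hT60, Nat.card_perm, hnsyl, h] at this
      norm_num [Nat.factorial] at this
    · apply hnot
      intro t ht
      have h1 : (⟨t, ht⟩ : T) ∈ ψ.ker := by rw [hk]; trivial
      have h2 : ψ ⟨t, ht⟩ = 1 := h1
      have h3 : t • R = R := by
        have := congrArg (fun σ : Equiv.Perm (Sylow 3 X) => σ R) h2
        exact this
      exact Sylow.smul_eq_iff_mem_normalizer.1 h3
  · exact h
  · exfalso
    have hNcard : Nat.card (normalizer ((R : Subgroup X) : Set X)) = 9 := by
      have := Subgroup.card_mul_index (normalizer ((R : Subgroup X) : Set X))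
      rw [← hn, h, hX] at this
      omega
    have hNeq : (R : Subgroup X) = normalizer ((R : Subgroup X) : Set X) := by
      apply Subgroup.eq_of_le_of_card_ge le_normalizer
      rw [hNcard, hR9]
      norm_num
    have hcomm : IsMulCommutative (R : Subgroup X) := IsPGroup.isMulCommutative_of_card_eq_prime_sq hR9
    have hP : normalizer ((R : Subgroup X) : Set X) ≤ centralizer ((R : Subgroup X) : Set X) := by
      rw [← hNeq]
      intro a ha
      rw [mem_centralizer_iff]
      intro b hb
      have := hcomm.is_comm.comm ⟨b, hb⟩ ⟨a, ha⟩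
      exact congrArg Subtype.val this
    let φ : X →* (R : Subgroup X) := MonoidHom.transferSylow R hP
    have hcomp := MonoidHom.ker_transferSylow_isComplement' R hP
    have hker : Nat.card φ.ker = 40 := by
      have := hcomp.card_mul_card
      rw [hR9, hX] at this
      change Nat.card φ.ker * 3 ^ 2 = 360 at this
      omega
    let ψ : T →* (R : Subgroup X) := φ.comp T.subtype
    rcases (inferInstance : (ψ.ker).Normal).eq_bot_or_eq_top with hk | hk
    · have hinj : Function.Injective ψ := (MonoidHom.ker_eq_bot_iff ψ).1 hk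
      have := Subgroup.card_dvd_of_injective ψ hinj
      rw [hT60, hR9] at this
      norm_num at this
    · have hle : T ≤ φ.ker := by
        intro t ht
        have h1 : (⟨t, ht⟩ : T) ∈ ψ.ker := by rw [hk]; trivial
        exact h1
      have := Subgroup.card_dvd_of_le hle
      rw [hT60, hker] at this
      norm_num at this

variable {G : Type*} [Group G]

/-- Ten Sylow `3`-subgroups in `L = C(y')`. -/
theorem L_sylow_index_aux [Finite G] (p : Pkg G) (hf : FiveFacts p) (L : Subgroup G)
    (hL : L = centralizer ({p.y'} : Set G)) (P : Sylow 3 L) :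
    (normalizer (((P : Subgroup L) : Set L))).index = 10 := by
  have : Fact (Nat.Prime 3) := ⟨Nat.prime_three⟩
  have hLc : Nat.card L = 1080 := by rw [hL]; exact card_L p hf
  have mem_L : ∀ {x : G}, x ∈ L ↔ x * p.y' = p.y' * x := fun {x} => by
    rw [hL]; exact mem_centralizer_singleton_iff
  have hTL : p.T1 ≤ L := by rw [hL]; exact T1_le_L p
  let yL : L := ⟨p.y', mem_L.2 rfl⟩
  have hcen : ∀ x : L, x * yL = yL * x := fun x => Subtype.ext (mem_L.1 x.2)
  have hN : (zpowers yL).Normal := by
    constructor
    intro n hn g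
    obtain ⟨k, rfl⟩ := mem_zpowers_iff.1 hn
    have hcm : Commute g (yL ^ k) := (show Commute g yL from hcen g).zpow_right k
    rw [hcm.eq, mul_inv_cancel_right]
    exact zpow_mem (mem_zpowers yL) k
  have hord : orderOf yL = 3 := by
    rw [Subgroup.orderOf_mk]
    exact orderOf_y' p
  have hZc : Nat.card (zpowers yL) = 3 := by rw [Nat.card_zpowers, hord]
  let π : L →* L ⧸ zpowers yL := QuotientGroup.mk' _
  have hπs : Function.Surjective π := QuotientGroup.mk'_surjective _
  have hker : π.ker = zpowers yL := QuotientGroup.ker_mk' _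
  have hXc : Nat.card (L ⧸ zpowers yL) = 360 := by
    have h := Subgroup.card_eq_card_quotient_mul_card_subgroup (zpowers yL)
    rw [hLc, hZc] at h
    omega
  -- `T1` embeds in the quotient
  let φ : p.T1 →* L ⧸ zpowers yL := π.comp (Subgroup.inclusion hTL)
  have hφ : Function.Injective φ := by
    rw [injective_iff_map_eq_one]
    intro x hx
    have h1 : Subgroup.inclusion hTL x ∈ π.ker := hx
    rw [hker] at h1
    obtain ⟨k, hk⟩ := mem_zpowers_iff.1 h1
    have hk' : p.y' ^ k = x.1 := by
      have := congrArg Subtype.val hk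
      simpa [yL] using this
    have hcube : p.y' ^ 3 = 1 := by rw [pow_succ, pow_two]; exact p.y'_cube
    by_contra hne
    have hne' : x.1 ≠ 1 := fun h => hne (Subtype.ext h)
    obtain ⟨q, r, hr, rfl⟩ : ∃ q r : ℤ, (r = 0 ∨ r = 1 ∨ r = 2) ∧ k = 3 * q + r :=
      ⟨k / 3, k % 3, by omega, by omega⟩
    have hpw : p.y' ^ (3 * q + r) = p.y' ^ r := by
      rw [zpow_add, zpow_mul]
      have : p.y' ^ (3 : ℤ) = 1 := by exact_mod_cast hcube
      rw [this, one_zpow, one_mul]
    rw [hpw] at hk'
    rcases hr with rfl | rfl | rfl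
    · simp at hk'
      exact hne' hk'.symm
    · rw [zpow_one] at hk'
      exact y'_notMem p (hk' ▸ x.2)
    · apply y'_notMem p
      have h2 : p.y' = x.1 * x.1 := by
        rw [← hk']
        have : p.y' ^ (2 : ℤ) * p.y' ^ (2 : ℤ) = p.y' ^ (4 : ℤ) := by rw [← zpow_add]; rfl
        rw [this]
        have h4 : p.y' ^ (4 : ℤ) = p.y' ^ (3 : ℤ) * p.y' := by
          rw [show (4 : ℤ) = 3 + 1 by norm_num, zpow_add, zpow_one]
        have h3 : p.y' ^ (3 : ℤ) = 1 := by exact_mod_cast hcube
        rw [h4, h3, one_mul]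
      rw [h2]
      exact mul_mem x.2 x.2
  let e : φ.range ≃* alternatingGroup (Fin 5) := (MonoidHom.ofInjective hφ).symm.trans p.θ
  let R : Sylow 3 (L ⧸ zpowers yL) := P.mapSurjective hπs
  have hten := sylow3_index_ten hXc φ.range e R
  have hRc : (R : Subgroup (L ⧸ zpowers yL)) = (P : Subgroup L).map π := Sylow.coe_mapSurjective hπs P
  have hzp : IsPGroup 3 (zpowers yL) := IsPGroup.of_card (n := 1) (by rw [hZc, pow_one])
  have hsup := P.2.to_sup_of_normal_right hzp
  have hPeq := P.3 hsup le_sup_left
  have hcomap : ((P : Subgroup L).map π).comap π = P := by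
    rw [Subgroup.comap_map_eq, hker]
    exact hPeq
  have hnorm := Subgroup.comap_normalizer_eq_of_surjective ((P : Subgroup L).map π) hπs
  rw [hcomap] at hnorm
  rw [← hnorm, Subgroup.index_comap_of_surjective _ hπs, ← hRc]
  exact hten

theorem L_sylow_index [Finite G] (p : Pkg G) (hf : FiveFacts p)
    (P : Sylow 3 (centralizer ({p.y'} : Set G))) :
    (normalizer (((P : Subgroup (centralizer ({p.y'} : Set G))) : Set (centralizer ({p.y'} : Set G))))).index = 10 :=
  L_sylow_index_aux p hf _ rfl P

end Cfsg.Agent.Lib.HallJanko.Three
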