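import Mathlib
import Cfsg.Agent.Lib.HallJanko.ThreeN

/-!
# Hall-Janko type groups: the Sylow `3`-subgroups, their normalizers
-/

set_option autoImplicit false
set_option linter.unusedSectionVars false
set_option linter.unusedVariables false

namespace Cfsg.Agent.Lib.HallJanko.Three

open Subgroup Pkg'

variable {G : Type*} [Group G]

theorem card_P27 [Finite G] (p : Pkg G) (P : Sylow 3 G) : Nat.card (P : Subgroup G) = 27 := by
  have : Fact (Nat.Prime 3) := ⟨Nat.prime_three⟩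
  have := sylow_card P (a := 3) (m := 22400) (by rw [p.card_G]; norm_num) (by norm_num)
  rw [this]; norm_num

/-- A Sylow `3`-subgroup of `G` is not abelian. -/
theorem nonabelian [Finite G] (p : Pkg G) (hf : FiveFacts p) (P : Sylow 3 G) :
    ∃ a b : (P : Subgroup G), a * b ≠ b * a := by
  have : Fact (Nat.Prime 3) := ⟨Nat.prime_three⟩
  by_contra hcon
  push Not at hcon
  obtain ⟨ℓ, hℓT, hℓ3, hℓc⟩ := exists_ell p
  have hz : IsPGroup 3 (zpowers ℓ) := IsPGroup.of_card (n := 1) (by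
    rw [Nat.card_zpowers, hℓ3, pow_one])
  obtain ⟨Q, hQ⟩ := hz.exists_le_sylow
  obtain ⟨g, hg⟩ := sylow_conj Q P
  have hm := hg ℓ (hQ (mem_zpowers ℓ))
  have hle : (P : Subgroup G) ≤ centralizer ({g * ℓ * g⁻¹} : Set G) := by
    intro x hx
    rw [mem_centralizer_singleton_iff]
    have := hcon ⟨x, hx⟩ ⟨_, hm⟩
    exact congrArg Subtype.val this
  have hd := Subgroup.card_dvd_of_le hle
  rw [card_P27 p, card_cent_conj, card_C_ell p hf hℓT hℓ3] at hd
  norm_num at hd

/-- S1723, first part. -/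
theorem extraspecial_P [Finite G] (p : Pkg G) (hf : FiveFacts p) (P : Sylow 3 G) :
    Cfsg.IsExtraspecial 3 (P : Subgroup G) := by
  have : Fact (Nat.Prime 3) := ⟨Nat.prime_three⟩
  exact (Fusion.EssentialCube.extraspecial_of_card_cube (p := 3) (by rw [card_P27 p]; norm_num)
    (nonabelian p hf P)).1

/-- If conjugation by `d` maps a subgroup into itself, `d` normalizes it. -/
theorem mem_normalizer_of_conj_subset [Finite G] {S : Subgroup G} {d : G}
    (h : ∀ x ∈ S, d * x * d⁻¹ ∈ S) : d ∈ normalizer ((S : Subgroup G) : Set G) := by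
  have hle : S.map (MulAut.conj d).toMonoidHom ≤ S := by
    rintro _ ⟨x, hx, rfl⟩
    exact h x hx
  have hcard : Nat.card (S.map (MulAut.conj d).toMonoidHom) = Nat.card S :=
    Subgroup.card_map_of_injective (MulAut.conj d).injective
  have heq : S.map (MulAut.conj d).toMonoidHom = S :=
    Subgroup.eq_of_le_of_card_ge hle hcard.ge
  rw [mem_normalizer_iff]
  intro x
  refine ⟨h x, fun hx => ?_⟩
  rw [← heq] at hx
  obtain ⟨y, hy, hyx⟩ := hx
  have : y = x := by
    have h2 : d * y * d⁻¹ = d * x * d⁻¹ := hyx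
    exact mul_left_cancel (mul_right_cancel h2)
  exact this ▸ hy

/-- `y'` lies in every Sylow `3`-subgroup of `L`. -/
theorem y'_mem_sylow [Finite G] (p : Pkg G) (L : Subgroup G)
    (hL : L = centralizer ({p.y'} : Set G)) (P : Sylow 3 L) (hy : p.y' ∈ L) :
    (⟨p.y', hy⟩ : L) ∈ (P : Subgroup L) := by
  have : Fact (Nat.Prime 3) := ⟨Nat.prime_three⟩
  let yL : L := ⟨p.y', hy⟩
  have hcen : ∀ x : L, x * yL = yL * x := fun x => Subtype.ext (by
    have : x.1 ∈ centralizer ({p.y'} : Set G) := hL ▸ x.2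
    exact mem_centralizer_singleton_iff.1 this)
  have hN : (zpowers yL).Normal := by
    constructor
    intro n hn g
    obtain ⟨k, rfl⟩ := mem_zpowers_iff.1 hn
    have hcm : Commute g (yL ^ k) := (show Commute g yL from hcen g).zpow_right k
    rw [hcm.eq, mul_inv_cancel_right]
    exact zpow_mem (mem_zpowers yL) k
  have hzp : IsPGroup 3 (zpowers yL) := IsPGroup.of_card (n := 1) (by
    rw [Nat.card_zpowers, Subgroup.orderOf_mk, orderOf_y' p, pow_one])
  have hsup := P.2.to_sup_of_normal_right hzp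
  have hPeq := P.3 hsup le_sup_left
  have : yL ∈ (P : Subgroup L) ⊔ zpowers yL := (le_sup_right : zpowers yL ≤ _) (mem_zpowers yL)
  rwa [hPeq] at this

/-- An element of the normalizer of a Sylow `3`-subgroup `S ≤ L` of `G` containing `y'` maps `y'` to `y'` or its inverse. -/
theorem conj_y'_cases [Finite G] (p : Pkg G) (hf : FiveFacts p) {S : Subgroup G} (hS : IsPGroup 3 S)
    (hSc : Nat.card S = 27) (hSL : S ≤ centralizer ({p.y'} : Set G)) (hyS : p.y' ∈ S) {b : G}
    (hb : b ∈ normalizer ((S : Subgroup G) : Set G)) :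
    b * p.y' * b⁻¹ = p.y' ∨ b * p.y' * b⁻¹ = p.y'⁻¹ := by
  have : Fact (Nat.Prime 3) := ⟨Nat.prime_three⟩
  have hidx : ¬ 3 ∣ S.index := by
    have h := Subgroup.card_mul_index S
    rw [hSc, p.card_G] at h
    have : S.index = 22400 := by omega
    rw [this]
    norm_num
  let P : Sylow 3 G := hS.toSylow hidx
  have hPS : (P : Subgroup G) = S := rfl
  have hex : Cfsg.IsExtraspecial 3 S := by
    have := extraspecial_P p hf P
    rwa [hPS] at this
  have hZ3 : Nat.card (center S) = 3 := hex.2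
  -- `y'` is central in `S`
  let y₀ : S := ⟨p.y', hyS⟩
  have hy₀ : y₀ ∈ center S := by
    rw [mem_center_iff]
    intro x
    apply Subtype.ext
    exact mem_centralizer_singleton_iff.1 (hSL x.2)
  have hord : orderOf (⟨y₀, hy₀⟩ : center S) = 3 := by
    rw [Subgroup.orderOf_mk, Subgroup.orderOf_mk, orderOf_y' p]
  have hm : b * p.y' * b⁻¹ ∈ S := (mem_normalizer_iff.1 hb _).1 hyS
  have hmc : (⟨b * p.y' * b⁻¹, hm⟩ : S) ∈ center S := by
    rw [mem_center_iff]
    intro x
    apply Subtype.ext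
    -- `b⁻¹ x b ∈ S` commutes with `y'`
    have hx' : b⁻¹ * x.1 * b ∈ S := by
      have h1 := (mem_normalizer_iff.1 hb (b⁻¹ * x.1 * b))
      have : b * (b⁻¹ * x.1 * b) * b⁻¹ = x.1 := by group
      rw [this] at h1
      exact h1.2 x.2
    have hc : b⁻¹ * x.1 * b * p.y' = p.y' * (b⁻¹ * x.1 * b) :=
      mem_centralizer_singleton_iff.1 (hSL hx')
    have := comm_conj b hc
    have e : b * (b⁻¹ * x.1 * b) * b⁻¹ = x.1 := by group
    rw [e] at this
    exact this
  -- the centre is `⟨y'⟩`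
  have hzc : (zpowers (⟨y₀, hy₀⟩ : center S) : Subgroup (center S)) = ⊤ := by
    apply Subgroup.eq_top_of_card_eq
    rw [Nat.card_zpowers, hord, hZ3]
  have hmem : (⟨⟨b * p.y' * b⁻¹, hm⟩, hmc⟩ : center S) ∈ zpowers (⟨y₀, hy₀⟩ : center S) := by
    rw [hzc]; trivial
  obtain ⟨k, hk⟩ := mem_zpowers_iff.1 hmem
  have hk' : p.y' ^ k = b * p.y' * b⁻¹ := by
    have := congrArg (fun w : center S => ((w : S) : G)) hk
    simpa [y₀] using this
  have hcube : p.y' ^ (3 : ℤ) = 1 := by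
    have : p.y' ^ 3 = 1 := by rw [pow_succ, pow_two]; exact p.y'_cube
    exact_mod_cast this
  obtain ⟨q, r, hr, rfl⟩ : ∃ q r : ℤ, (r = 0 ∨ r = 1 ∨ r = 2) ∧ k = 3 * q + r :=
    ⟨k / 3, k % 3, by omega, by omega⟩
  have hpw : p.y' ^ (3 * q + r) = p.y' ^ r := by
    rw [zpow_add, zpow_mul, hcube, one_zpow, one_mul]
  rw [hpw] at hk'
  rcases hr with rfl | rfl | rfl
  · exfalso
    rw [zpow_zero] at hk'
    apply p.y'_ne
    have h2 : p.y' = b⁻¹ * (b * p.y' * b⁻¹) * b := by group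
    rw [h2, ← hk']
    group
  · left
    rw [zpow_one] at hk'
    exact hk'.symm
  · right
    rw [← hk']
    have h3 : p.y' ^ (2 : ℤ) * p.y' = 1 := by
      rw [← zpow_add_one]
      exact hcube
    exact eq_inv_of_mul_eq_one_left h3

/-- `|N(P)| = 216` -/
theorem card_normalizer_aux [Finite G] (p : Pkg G) (hf : FiveFacts p) (L : Subgroup G)
    (hL : L = centralizer ({p.y'} : Set G)) (P₀ : Sylow 3 L) :
    Nat.card (normalizer (((P₀ : Subgroup L).map L.subtype : Subgroup G) : Set G)) = 216 := by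
  have : Fact (Nat.Prime 3) := ⟨Nat.prime_three⟩
  have hLc : Nat.card L = 1080 := by rw [hL]; exact card_L p hf
  have mem_L : ∀ {x : G}, x ∈ L ↔ x * p.y' = p.y' * x := fun {x} => by
    rw [hL]; exact mem_centralizer_singleton_iff
  have hyL : p.y' ∈ L := mem_L.2 rfl
  set Pg : Subgroup G := (P₀ : Subgroup L).map L.subtype with hPg
  have hP₀c : Nat.card (P₀ : Subgroup L) = 27 := by
    have := sylow_card P₀ (a := 3) (m := 40) (by rw [hLc]; norm_num) (by norm_num)
    rw [this]; norm_num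
  have hPgc : Nat.card Pg = 27 := by
    rw [hPg, Subgroup.card_map_of_injective (Subgroup.subtype_injective _), hP₀c]
  have hPgL : Pg ≤ L := by
    rintro _ ⟨x, _, rfl⟩
    exact x.2
  have hPgL' : Pg ≤ centralizer ({p.y'} : Set G) := hL ▸ hPgL
  have hyPg : p.y' ∈ Pg := ⟨⟨p.y', hyL⟩, y'_mem_sylow p L hL P₀ hyL, rfl⟩
  have hPgp : IsPGroup 3 Pg := IsPGroup.of_card (n := 3) (by rw [hPgc]; norm_num)
  set A := normalizer ((Pg : Subgroup G) : Set G) with hA
  -- `|A ∩ L| = 108`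
  have hnormL : normalizer (((P₀ : Subgroup L) : Set L)) = A.subgroupOf L := by
    have h1 := Subgroup.comap_normalizer_eq_of_le_range (f := L.subtype) (H := Pg) (by
      rw [range_subtype]
      exact hPgL)
    have h2 : Pg.comap L.subtype = (P₀ : Subgroup L) :=
      Subgroup.comap_map_eq_self_of_injective (Subgroup.subtype_injective _) _
    rw [h2] at h1
    rw [← h1]
    rfl
  have hAL : Nat.card ↥(L ⊓ A) = 108 := by
    have h1 := L_sylow_index_aux p hf L hL P₀
    have h2 := Subgroup.card_mul_index (normalizer (((P₀ : Subgroup L) : Set L)))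
    rw [h1, hLc, hnormL, card_subgroupOf, inf_comm] at h2
    omega
  -- an element of `A` inverting `y'`
  obtain ⟨c, hcz, hc⟩ := p.y'_inv
  have hcL : ∀ x ∈ Pg, c * x * c⁻¹ ∈ L := by
    intro x hx
    have h1 : x * p.y' = p.y' * x := mem_L.1 (hPgL hx)
    have h2 := comm_conj c h1
    rw [hc] at h2
    rw [mem_L]
    have h3 : c * x * c⁻¹ * p.y'⁻¹ * p.y' = c * x * c⁻¹ := inv_mul_cancel_right _ _
    calc c * x * c⁻¹ * p.y' = p.y' * (p.y'⁻¹ * (c * x * c⁻¹)) * p.y' := by group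
      _ = p.y' * (c * x * c⁻¹ * p.y'⁻¹) * p.y' := by rw [h2]
      _ = p.y' * (c * x * c⁻¹) := by group
  set Q₁ : Subgroup G := Pg.map (MulAut.conj c).toMonoidHom with hQ₁
  have hQ₁c : Nat.card Q₁ = 27 := by
    rw [hQ₁, Subgroup.card_map_of_injective (MulAut.conj c).injective, hPgc]
  have hQ₁L : Q₁ ≤ L := by
    rintro _ ⟨x, hx, rfl⟩
    exact hcL x hx
  have hQLc : Nat.card (Q₁.subgroupOf L) = 27 := by
    rw [card_subgroupOf, inf_eq_left.2 hQ₁L, hQ₁c]
  have hQLp : IsPGroup 3 (Q₁.subgroupOf L) := IsPGroup.of_card (n := 3) (by rw [hQLc]; norm_num)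
  have hQLidx : ¬ 3 ∣ (Q₁.subgroupOf L).index := by
    have h := Subgroup.card_mul_index (Q₁.subgroupOf L)
    rw [hQLc, hLc] at h
    have : (Q₁.subgroupOf L).index = 40 := by omega
    rw [this]
    norm_num
  let Q₁S : Sylow 3 L := hQLp.toSylow hQLidx
  obtain ⟨l, hl⟩ := sylow_conj Q₁S P₀
  set d := l.1 * c with hd
  have hdA : d ∈ A := by
    apply mem_normalizer_of_conj_subset
    intro x hx
    have h1 : c * x * c⁻¹ ∈ Q₁ := ⟨x, hx, rfl⟩
    have h2 : (⟨c * x * c⁻¹, hcL x hx⟩ : L) ∈ (Q₁S : Subgroup L) := mem_subgroupOf.2 h1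
    have h3 := hl _ h2
    refine ⟨_, h3, ?_⟩
    simp only [Subgroup.coe_subtype, Subgroup.coe_mul, Subgroup.coe_inv, hd]
    group
  have hdy : d * p.y' * d⁻¹ = p.y'⁻¹ := by
    have hl1 : l.1 * p.y' = p.y' * l.1 := mem_L.1 l.2
    have hl2 : l.1 * p.y'⁻¹ = p.y'⁻¹ * l.1 := by
      calc l.1 * p.y'⁻¹ = p.y'⁻¹ * (p.y' * l.1) * p.y'⁻¹ := by group
        _ = p.y'⁻¹ * (l.1 * p.y') * p.y'⁻¹ := by rw [hl1]
        _ = p.y'⁻¹ * l.1 := by group
    calc d * p.y' * d⁻¹ = l.1 * (c * p.y' * c⁻¹) * l.1⁻¹ := by rw [hd]; group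
      _ = l.1 * p.y'⁻¹ * l.1⁻¹ := by rw [hc]
      _ = p.y'⁻¹ * l.1 * l.1⁻¹ := by rw [hl2]
      _ = p.y'⁻¹ := by group
  have hy2 : p.y'⁻¹ ≠ p.y' := by
    intro h
    have h3 : p.y' ^ 2 = 1 := by
      rw [pow_two]
      nth_rewrite 1 [← h]
      exact inv_mul_cancel _
    have := orderOf_dvd_of_pow_eq_one h3
    rw [orderOf_y' p] at this
    norm_num at this
  -- the index
  have hcases : ∀ b ∈ A, b * p.y' * b⁻¹ = p.y' ∨ b * p.y' * b⁻¹ = p.y'⁻¹ := fun b hb =>
    conj_y'_cases p hf hPgp hPgc hPgL' hyPg hb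
  have hmemL : ∀ b : G, b ∈ L ↔ b * p.y' * b⁻¹ = p.y' := by
    intro b
    rw [mem_L, mul_inv_eq_iff_eq_mul]
  have hidx : (L.subgroupOf A).index = 2 := by
    rw [Subgroup.index_eq_two_iff]
    refine ⟨⟨d, hdA⟩, fun b => ?_⟩
    simp only [mem_subgroupOf, Subgroup.coe_mul]
    have e1 : (b.1 * d) * p.y' * (b.1 * d)⁻¹ = (b.1 * p.y' * b.1⁻¹)⁻¹ := by
      calc (b.1 * d) * p.y' * (b.1 * d)⁻¹ = b.1 * (d * p.y' * d⁻¹) * b.1⁻¹ := by group
        _ = b.1 * p.y'⁻¹ * b.1⁻¹ := by rw [hdy]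
        _ = (b.1 * p.y' * b.1⁻¹)⁻¹ := by group
    rw [hmemL, hmemL, e1]
    rcases hcases b.1 b.2 with h | h
    · right
      rw [h]
      exact ⟨rfl, hy2⟩
    · left
      rw [h, inv_inv]
      exact ⟨rfl, hy2⟩
  have h1 := Subgroup.card_mul_index (L.subgroupOf A)
  rw [card_subgroupOf, hAL, hidx] at h1
  exact h1.symm

/-- `|N(P)| = 216` for every Sylow `3`-subgroup. -/
theorem card_normalizer [Finite G] (p : Pkg G) (hf : FiveFacts p) (P : Sylow 3 G) :
    Nat.card (normalizer ((P : Subgroup G) : Set G)) = 216 := by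
  have : Fact (Nat.Prime 3) := ⟨Nat.prime_three⟩
  set L := centralizer ({p.y'} : Set G) with hL
  let P₀ : Sylow 3 L := default
  have h216 := card_normalizer_aux p hf L hL P₀
  set Pg : Subgroup G := (P₀ : Subgroup L).map L.subtype with hPg
  have hLc : Nat.card L = 1080 := card_L p hf
  have hP₀c : Nat.card (P₀ : Subgroup L) = 27 := by
    have := sylow_card P₀ (a := 3) (m := 40) (by rw [hLc]; norm_num) (by norm_num)
    rw [this]; norm_num
  have hPgc : Nat.card Pg = 27 := by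
    rw [hPg, Subgroup.card_map_of_injective (Subgroup.subtype_injective _), hP₀c]
  have hPgp : IsPGroup 3 Pg := IsPGroup.of_card (n := 3) (by rw [hPgc]; norm_num)
  have hidx : ¬ 3 ∣ Pg.index := by
    have h := Subgroup.card_mul_index Pg
    rw [hPgc, p.card_G] at h
    have : Pg.index = 22400 := by omega
    rw [this]
    norm_num
  let PS : Sylow 3 G := hPgp.toSylow hidx
  have h1 : Nat.card (Sylow 3 G) = (normalizer ((P : Subgroup G) : Set G)).index := P.card_eq_index_normalizer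
  have h2 : Nat.card (Sylow 3 G) = (normalizer ((Pg : Subgroup G) : Set G)).index := PS.card_eq_index_normalizer
  have h3 := Subgroup.card_mul_index (normalizer ((P : Subgroup G) : Set G))
  have h4 := Subgroup.card_mul_index (normalizer ((Pg : Subgroup G) : Set G))
  rw [← h1] at h3
  rw [← h2, h216] at h4
  have hpos : 0 < Nat.card (Sylow 3 G) := Nat.card_pos
  exact Nat.eq_of_mul_eq_mul_right hpos (h3.trans h4.symm)

end Cfsg.Agent.Lib.HallJanko.Three
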