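import Mathlib
import Cfsg.Agent.Lib.HallJanko.ThreeP

/-!
# Hall-Janko type groups: two classes of elements of order `3`
-/

set_option autoImplicit false
set_option linter.unusedSectionVars false
set_option linter.unusedVariables false

namespace Cfsg.Agent.Lib.HallJanko.Three

open Subgroup Pkg'

variable {G : Type*} [Group G]

/-- The count of commuting elements of a conjugation-invariant set does not depend on the representative. -/
theorem card_filter_conj_le [DecidableEq G] (S : Finset G) (hS : ∀ g x, x ∈ S → g * x * g⁻¹ ∈ S) (a g : G) 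
    [DecidablePred fun x => x * a = a * x] [DecidablePred fun x => x * (g * a * g⁻¹) = (g * a * g⁻¹) * x] :
    (S.filter (fun x => x * a = a * x)).card ≤
      (S.filter (fun x => x * (g * a * g⁻¹) = (g * a * g⁻¹) * x)).card := by
  apply Finset.card_le_card_of_injOn (fun x => g * x * g⁻¹)
  · intro x hx
    have hx' := Finset.mem_filter.1 hx
    exact Finset.mem_filter.2 ⟨hS g x hx'.1, comm_conj g hx'.2⟩
  · intro x _ y _ h
    exact mul_left_cancel (mul_right_cancel h)

/-- `V y'` consists of conjugates of `y'`. -/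
theorem v_mul_y'_conj (p : Pkg G) {v : G} (hv : IsV p v) : IsConj p.y' (v * p.y') := by
  have h1 : p.y' * p.t = p.t₂ * p.y' := by
    rw [← p.y'_t]; group
  have h2 : p.y' * p.t₂ = p.t * p.t₂ * p.y' := by
    rw [← p.y'_t₂]; group
  have hti := t_inv p
  have ht₂i := t₂_inv p
  rcases hv with rfl | rfl | rfl | rfl
  · rw [one_mul]
  · -- `t y' = t₂ y' t₂`
    refine isConj_iff.2 ⟨p.t₂, ?_⟩
    rw [ht₂i]
    calc p.t₂ * p.y' * p.t₂ = p.t₂ * (p.y' * p.t₂) := by group
      _ = p.t₂ * (p.t * p.t₂ * p.y') := by rw [h2]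
      _ = (p.t₂ * p.t) * p.t₂ * p.y' := by group
      _ = (p.t * p.t₂) * p.t₂ * p.y' := by rw [p.t_t₂]
      _ = p.t * (p.t₂ * p.t₂) * p.y' := by group
      _ = p.t * p.y' := by rw [p.t₂_sq, mul_one]
  · -- `t₂ y' = (t t₂) y' (t t₂)`
    refine isConj_iff.2 ⟨p.t * p.t₂, ?_⟩
    have hinv : (p.t * p.t₂)⁻¹ = p.t * p.t₂ := inv_eq_of_mul_eq_one_left (tt₂_sq p)
    rw [hinv]
    calc p.t * p.t₂ * p.y' * (p.t * p.t₂) = p.t * p.t₂ * (p.y' * p.t) * p.t₂ := by group
      _ = p.t * p.t₂ * (p.t₂ * p.y') * p.t₂ := by rw [h1]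
      _ = p.t * (p.t₂ * p.t₂) * p.y' * p.t₂ := by group
      _ = p.t * p.y' * p.t₂ := by rw [p.t₂_sq, mul_one]
      _ = p.t * (p.y' * p.t₂) := by group
      _ = p.t * (p.t * p.t₂ * p.y') := by rw [h2]
      _ = (p.t * p.t) * p.t₂ * p.y' := by group
      _ = p.t₂ * p.y' := by rw [p.t_sq, one_mul]
  · -- `(t t₂) y' = t y' t`
    refine isConj_iff.2 ⟨p.t, ?_⟩
    rw [hti]
    calc p.t * p.y' * p.t = p.t * (p.y' * p.t) := by group
      _ = p.t * (p.t₂ * p.y') := by rw [h1]
      _ = p.t * p.t₂ * p.y' := by group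

theorem y'_inv_conj (p : Pkg G) : IsConj p.y' p.y'⁻¹ := by
  obtain ⟨c, _, hc⟩ := p.y'_inv
  exact isConj_iff.2 ⟨c, hc⟩

theorem isConj_inv_of {a b : G} (h : IsConj a b) : IsConj a⁻¹ b⁻¹ := by
  obtain ⟨c, hc⟩ := isConj_iff.1 h
  exact isConj_iff.2 ⟨c, by rw [← hc]; group⟩

theorem isV_conj_y' (p : Pkg G) {v : G} (hv : IsV p v) : IsV p (p.y' * v * p.y'⁻¹) := by
  rcases hv with rfl | rfl | rfl | rfl
  · left; group
  · right; right; left; exact p.y'_t
  · right; right; right; exact p.y'_t₂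
  · right; left
    calc p.y' * (p.t * p.t₂) * p.y'⁻¹ = (p.y' * p.t * p.y'⁻¹) * (p.y' * p.t₂ * p.y'⁻¹) := by group
      _ = p.t₂ * (p.t * p.t₂) := by rw [p.y'_t, p.y'_t₂]
      _ = (p.t₂ * p.t) * p.t₂ := by group
      _ = (p.t * p.t₂) * p.t₂ := by rw [p.t_t₂]
      _ = p.t * (p.t₂ * p.t₂) := by group
      _ = p.t := by rw [p.t₂_sq, mul_one]

/-- `ℓ ∈ T1` commutes with at least `8` conjugates of `y'`. -/
theorem eight_le [Finite G] [Fintype G] [DecidableEq G] (p : Pkg G) {ℓ : G} (hℓ : ℓ ∈ p.T1)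
    [DecidablePred fun c => IsConj p.y' c] [DecidablePred fun x => x * ℓ = ℓ * x] :
    8 ≤ ((Finset.univ.filter fun c => IsConj p.y' c).filter (fun x => x * ℓ = ℓ * x)).card := by
  classical
  set V₄ : Finset G := {1, p.t, p.t₂, p.t * p.t₂} with hV₄
  have hVmem : ∀ v ∈ V₄, IsV p v := by
    intro v hv
    simpa [hV₄, IsV] using hv
  have h1 : (1 : G) ≠ p.t := p.t_ne.symm
  have h2 : (1 : G) ≠ p.t₂ := p.t₂_ne.symm
  have h4 : p.t ≠ p.t₂ := p.t₂_ne_t.symm
  have h3 : (1 : G) ≠ p.t * p.t₂ := by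
    intro h
    apply h4
    have := eq_inv_of_mul_eq_one_left h.symm
    rw [t₂_inv p] at this
    exact this
  have h5 : p.t ≠ p.t * p.t₂ := by
    intro h
    apply p.t₂_ne
    have h' : p.t * 1 = p.t * p.t₂ := by rw [mul_one]; exact h
    exact (mul_left_cancel h').symm
  have h6 : p.t₂ ≠ p.t * p.t₂ := by
    intro h
    apply p.t_ne
    have h' : 1 * p.t₂ = p.t * p.t₂ := by rw [one_mul]; exact h
    exact (mul_right_cancel h').symm
  have hVc : V₄.card = 4 := by
    rw [hV₄, Finset.card_insert_of_notMem (by simp [h1, h2, h3]),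
      Finset.card_insert_of_notMem (by simp [h4, h5]), Finset.card_pair h6]
  set E₁ : Finset G := V₄.image (fun v => v * p.y') with hE₁
  set E₂ : Finset G := V₄.image (fun v => p.y'⁻¹ * v) with hE₂
  have hE₁c : E₁.card = 4 := by
    rw [hE₁, Finset.card_image_of_injective _ (mul_left_injective _), hVc]
  have hE₂c : E₂.card = 4 := by
    rw [hE₂, Finset.card_image_of_injective _ (mul_right_injective _), hVc]
  have hdisj : Disjoint E₁ E₂ := by
    rw [Finset.disjoint_left]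
    intro x hx1 hx2
    obtain ⟨v, hv, rfl⟩ := Finset.mem_image.1 hx1
    obtain ⟨w, hw, hvw⟩ := Finset.mem_image.1 hx2
    have hvV := hVmem v hv
    have hwV := hVmem w hw
    -- `y' v y' = w`, so `y'⁻¹ ∈ V`
    have hvw' : p.y'⁻¹ * w = v * p.y' := hvw
    set v₁ := p.y' * v * p.y'⁻¹ with hv₁
    have hv₁V : IsV p v₁ := isV_conj_y' p hvV
    have hcube : p.y' * p.y' * p.y' = 1 := p.y'_cube
    have hy2 : p.y' * p.y' = p.y'⁻¹ := eq_inv_of_mul_eq_one_left hcube
    have e2 : w = v₁ * p.y'⁻¹ := by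
      calc w = p.y' * (p.y'⁻¹ * w) := by group
        _ = p.y' * (v * p.y') := by rw [hvw']
        _ = v₁ * (p.y' * p.y') := by rw [hv₁]; group
        _ = v₁ * p.y'⁻¹ := by rw [hy2]
    have e3 : p.y'⁻¹ = v₁ * w := by
      have hs := isV_sq p hv₁V
      calc p.y'⁻¹ = v₁ * v₁ * p.y'⁻¹ := by rw [hs, one_mul]
        _ = v₁ * (v₁ * p.y'⁻¹) := by group
        _ = v₁ * w := by rw [← e2]
    have e4 : IsV p p.y'⁻¹ := e3 ▸ isV_mul p hv₁V hwV
    have e5 := isV_sq p e4
    have e6 : p.y' ^ 2 = 1 := by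
      have h7 : (p.y' * p.y')⁻¹ = 1 := by
        rw [mul_inv_rev]; exact e5
      rw [pow_two]
      exact inv_eq_one.1 h7
    have := orderOf_dvd_of_pow_eq_one e6
    rw [orderOf_y' p] at this
    norm_num at this
  have hsub : E₁ ∪ E₂ ⊆ (Finset.univ.filter fun c => IsConj p.y' c).filter (fun x => x * ℓ = ℓ * x) := by
    intro x hx
    rcases Finset.mem_union.1 hx with hx | hx
    · obtain ⟨v, hv, rfl⟩ := Finset.mem_image.1 hx
      have hvV := hVmem v hv
      refine Finset.mem_filter.2 ⟨Finset.mem_filter.2 ⟨Finset.mem_univ _, v_mul_y'_conj p hvV⟩, ?_⟩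
      have c1 : v * ℓ = ℓ * v := isV_comm_T1 p hvV hℓ
      have c2 : p.y' * ℓ = ℓ * p.y' := p.y'_comm ℓ hℓ
      calc v * p.y' * ℓ = v * (p.y' * ℓ) := by group
        _ = v * (ℓ * p.y') := by rw [c2]
        _ = (v * ℓ) * p.y' := by group
        _ = (ℓ * v) * p.y' := by rw [c1]
        _ = ℓ * (v * p.y') := by group
    · obtain ⟨v, hv, rfl⟩ := Finset.mem_image.1 hx
      have hvV := hVmem v hv
      have hinv : v⁻¹ = v := inv_eq_of_mul_eq_one_left (isV_sq p hvV)
      have e : p.y'⁻¹ * v = (v * p.y')⁻¹ := by rw [mul_inv_rev, hinv]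
      refine Finset.mem_filter.2 ⟨Finset.mem_filter.2 ⟨Finset.mem_univ _, ?_⟩, ?_⟩
      · rw [e]
        exact (y'_inv_conj p).trans (isConj_inv_of (v_mul_y'_conj p hvV))
      · have c1 : v * ℓ = ℓ * v := isV_comm_T1 p hvV hℓ
        have c2 : p.y' * ℓ = ℓ * p.y' := p.y'_comm ℓ hℓ
        have c3 : p.y'⁻¹ * ℓ = ℓ * p.y'⁻¹ := by
          calc p.y'⁻¹ * ℓ = p.y'⁻¹ * (ℓ * p.y') * p.y'⁻¹ := by group
            _ = p.y'⁻¹ * (p.y' * ℓ) * p.y'⁻¹ := by rw [c2]
            _ = ℓ * p.y'⁻¹ := by group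
        calc p.y'⁻¹ * v * ℓ = p.y'⁻¹ * (v * ℓ) := by group
          _ = p.y'⁻¹ * (ℓ * v) := by rw [c1]
          _ = (p.y'⁻¹ * ℓ) * v := by group
          _ = (ℓ * p.y'⁻¹) * v := by rw [c3]
          _ = ℓ * (p.y'⁻¹ * v) := by group
  have := Finset.card_le_card hsub
  rw [Finset.card_union_of_disjoint hdisj, hE₁c, hE₂c] at this
  exact this

/-- The elements of order `3` of `L` outside `⟨y'⟩` number at most `240`. -/
theorem T3_card [Finite G] (p : Pkg G) (hf : FiveFacts p) (L : Subgroup G)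
    (hL : L = centralizer ({p.y'} : Set G)) [Fintype L] [DecidableEq L]
    [DecidablePred fun x : L => x ^ 3 = 1 ∧ x.1 ≠ 1 ∧ x.1 ≠ p.y' ∧ x.1 ≠ p.y'⁻¹] :
    (Finset.univ.filter fun x : L => x ^ 3 = 1 ∧ x.1 ≠ 1 ∧ x.1 ≠ p.y' ∧ x.1 ≠ p.y'⁻¹).card ≤ 240 := by
  classical
  have : Fact (Nat.Prime 3) := ⟨Nat.prime_three⟩
  have hLc : Nat.card L = 1080 := by rw [hL]; exact card_L p hf
  have hyL : p.y' ∈ L := by rw [hL]; exact mem_centralizer_singleton_iff.2 rfl
  let yL : L := ⟨p.y', hyL⟩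
  set ZF : Finset L := {1, yL, yL⁻¹} with hZF
  have hne1 : (1 : L) ≠ yL := fun h => p.y'_ne (congrArg Subtype.val h).symm
  have hne2 : (1 : L) ≠ yL⁻¹ := fun h => by
    apply p.y'_ne
    have h2 : yL⁻¹ = 1 := h.symm
    exact congrArg Subtype.val (inv_eq_one.1 h2)
  have hne3 : yL ≠ yL⁻¹ := by
    intro h
    have h1 : p.y' = p.y'⁻¹ := congrArg Subtype.val h
    have h3 : p.y' ^ 2 = 1 := by
      rw [pow_two]
      nth_rewrite 2 [h1]
      exact mul_inv_cancel _
    have := orderOf_dvd_of_pow_eq_one h3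
    rw [orderOf_y' p] at this
    norm_num at this
  have hZc : ZF.card = 3 := by
    rw [hZF, Finset.card_insert_of_notMem (by simp [hne1, hne2]), Finset.card_pair hne3]
  let QF : Sylow 3 L → Finset L := fun Q => Finset.univ.filter fun x => x ∈ (Q : Subgroup L)
  have hQc : ∀ Q, (QF Q).card = 27 := by
    intro Q
    have h1 := sylow_card Q (a := 3) (m := 40) (by rw [hLc]; norm_num) (by norm_num)
    have h2 : (QF Q).card = Nat.card (Q : Subgroup L) := by
      rw [Nat.card_eq_fintype_card, Fintype.card_subtype]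
    rw [h2, h1]
    norm_num
  have hZsub : ∀ Q, ZF ⊆ QF Q := by
    intro Q x hx
    have hy := y'_mem_sylow p L hL Q hyL
    have hm : x ∈ (Q : Subgroup L) := by
      simp only [hZF, Finset.mem_insert, Finset.mem_singleton] at hx
      rcases hx with rfl | rfl | rfl
      · exact one_mem _
      · exact hy
      · exact inv_mem hy
    exact Finset.mem_filter.2 ⟨Finset.mem_univ _, hm⟩
  have hdiff : ∀ Q, (QF Q \ ZF).card ≤ 24 := by
    intro Q
    rw [Finset.card_sdiff_of_subset (hZsub Q), hQc, hZc]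
  have hsub : (Finset.univ.filter fun x : L => x ^ 3 = 1 ∧ x.1 ≠ 1 ∧ x.1 ≠ p.y' ∧ x.1 ≠ p.y'⁻¹) ⊆
      (Finset.univ : Finset (Sylow 3 L)).biUnion fun Q => QF Q \ ZF := by
    intro x hx
    obtain ⟨h3, h1, h2, h4⟩ := (Finset.mem_filter.1 hx).2
    have hord : orderOf x = 3 := orderOf_eq_prime h3 (fun h => h1 (congrArg Subtype.val h))
    have hz : IsPGroup 3 (zpowers x) := IsPGroup.of_card (n := 1) (by
      rw [Nat.card_zpowers, hord, pow_one])
    obtain ⟨Q, hQ⟩ := hz.exists_le_sylow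
    refine Finset.mem_biUnion.2 ⟨Q, Finset.mem_univ _, Finset.mem_sdiff.2 ⟨?_, ?_⟩⟩
    · exact Finset.mem_filter.2 ⟨Finset.mem_univ _, hQ (mem_zpowers x)⟩
    · simp only [hZF, Finset.mem_insert, Finset.mem_singleton, not_or]
      refine ⟨fun h => h1 (congrArg Subtype.val h), fun h => h2 (congrArg Subtype.val h), fun h => h4 (congrArg Subtype.val h)⟩
  have hcardS : (Finset.univ : Finset (Sylow 3 L)).card = 10 := by
    rw [Finset.card_univ, ← Nat.card_eq_fintype_card]
    let P₀ : Sylow 3 L := default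
    rw [P₀.card_eq_index_normalizer]
    exact L_sylow_index_aux p hf L hL P₀
  calc _ ≤ ((Finset.univ : Finset (Sylow 3 L)).biUnion fun Q => QF Q \ ZF).card := Finset.card_le_card hsub
    _ ≤ (Finset.univ : Finset (Sylow 3 L)).card * 24 :=
        Finset.card_biUnion_le_card_mul _ _ _ (fun Q _ => hdiff Q)
    _ = 240 := by rw [hcardS]

/-- The elements of order `3` form two classes. -/
theorem classes_main [Finite G] (p : Pkg G) (hf : FiveFacts p) {ℓ : G} (hℓ : ℓ ∈ p.T1)
    (h3 : orderOf ℓ = 3) (c : G) (hc : orderOf c = 3) : IsConj c p.y' ∨ IsConj c ℓ := by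
  classical
  have : Fact (Nat.Prime 3) := ⟨Nat.prime_three⟩
  have : Fintype G := Fintype.ofFinite G
  set L := centralizer ({p.y'} : Set G) with hL
  have : Fintype L := Fintype.ofFinite L
  have hLc : Nat.card L = 1080 := card_L p hf
  set A := Finset.univ.filter fun c => IsConj p.y' c with hA
  set B := Finset.univ.filter fun c => IsConj ℓ c with hB
  have hAc : A.card = 560 := by
    have h := Cfsg.Agent.Lib.Basic.ConjCount.card_isConj_mul_card_centralizer p.y'
    have e : Nat.card {y // IsConj p.y' y} = A.card := by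
      rw [Nat.card_eq_fintype_card]; exact Fintype.card_subtype _
    rw [p.card_G, hLc, e] at h
    omega
  have hBc : B.card = 16800 := by
    have h := Cfsg.Agent.Lib.Basic.ConjCount.card_isConj_mul_card_centralizer ℓ
    have e : Nat.card {y // IsConj ℓ y} = B.card := by
      rw [Nat.card_eq_fintype_card]; exact Fintype.card_subtype _
    rw [p.card_G, card_C_ell p hf hℓ h3, e] at h
    omega
  have hAinv : ∀ g x, x ∈ A → g * x * g⁻¹ ∈ A := by
    intro g x hx
    have := (Finset.mem_filter.1 hx).2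
    exact Finset.mem_filter.2 ⟨Finset.mem_univ _, this.trans (isConj_iff.2 ⟨g, rfl⟩)⟩
  have hBinv : ∀ g x, x ∈ B → g * x * g⁻¹ ∈ B := by
    intro g x hx
    have := (Finset.mem_filter.1 hx).2
    exact Finset.mem_filter.2 ⟨Finset.mem_univ _, this.trans (isConj_iff.2 ⟨g, rfl⟩)⟩
  -- double count
  have hdc := Finset.sum_card_bipartiteAbove_eq_sum_card_bipartiteBelow (s := B) (t := A)
    (fun d c : G => c * d = d * c)
  have hlow : ∀ d ∈ B, 8 ≤ (Finset.bipartiteAbove (fun d c : G => c * d = d * c) A d).card := by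
    intro d hd
    obtain ⟨g, rfl⟩ := isConj_iff.1 (Finset.mem_filter.1 hd).2
    exact (eight_le p hℓ).trans (card_filter_conj_le A hAinv ℓ g)
  set S₁ := B.filter (fun x => x * p.y' = p.y' * x) with hS₁
  have hup : ∀ c ∈ A, (Finset.bipartiteBelow (fun d c : G => c * d = d * c) B c).card ≤ S₁.card := by
    intro a ha
    obtain ⟨g, hg⟩ := isConj_iff.1 (Finset.mem_filter.1 ha).2
    have hg' : p.y' = g⁻¹ * a * g⁻¹⁻¹ := by rw [← hg]; group
    rw [hS₁, hg']
    have heq : Finset.bipartiteBelow (fun d c : G => c * d = d * c) B a = B.filter (fun x => x * a = a * x) := by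
      ext x
      simp only [Finset.mem_bipartiteBelow, Finset.mem_filter]
      exact and_congr_right fun _ => eq_comm
    rw [heq]
    exact card_filter_conj_le B hBinv a g⁻¹
  have hS₁low : 240 ≤ S₁.card := by
    have h1 : B.card * 8 ≤ ∑ d ∈ B, (Finset.bipartiteAbove (fun d c : G => c * d = d * c) A d).card := by
      rw [← smul_eq_mul]
      exact Finset.card_nsmul_le_sum _ _ _ hlow
    have h2 : ∑ c ∈ A, (Finset.bipartiteBelow (fun d c : G => c * d = d * c) B c).card ≤ A.card * S₁.card := by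
      rw [← smul_eq_mul]
      exact Finset.sum_le_card_nsmul _ _ _ hup
    rw [hdc] at h1
    have := h1.trans h2
    rw [hAc, hBc] at this
    omega
  -- the elements of order `3` of `L`
  set T₃ := Finset.univ.filter fun x : L => x ^ 3 = 1 ∧ x.1 ≠ 1 ∧ x.1 ≠ p.y' ∧ x.1 ≠ p.y'⁻¹ with hT₃
  have hT₃c : T₃.card ≤ 240 := T3_card p hf L hL
  set S₂ := T₃.image (fun x : L => x.1) with hS₂
  have hS₂c : S₂.card ≤ 240 := Finset.card_image_le.trans hT₃c
  have hcube : ℓ * ℓ * ℓ = 1 := by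
    have := pow_orderOf_eq_one ℓ
    rw [h3, pow_succ, pow_two] at this
    exact this
  have hsub : S₁ ⊆ S₂ := by
    intro d hd
    obtain ⟨hdB, hdc'⟩ := Finset.mem_filter.1 hd
    obtain ⟨g, rfl⟩ := isConj_iff.1 (Finset.mem_filter.1 hdB).2
    refine Finset.mem_image.2 ⟨⟨g * ℓ * g⁻¹, mem_centralizer_singleton_iff.2 hdc'⟩, ?_, rfl⟩
    have hcard : Nat.card (centralizer ({g * ℓ * g⁻¹} : Set G)) = 36 := by
      rw [card_cent_conj]
      exact card_C_ell p hf hℓ h3
    have hord : orderOf (g * ℓ * g⁻¹) = 3 := by rw [order_conj, h3]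
    refine Finset.mem_filter.2 ⟨Finset.mem_univ _, ?_, ?_, ?_, ?_⟩
    · apply Subtype.ext
      simp only [Subgroup.coe_pow, OneMemClass.coe_one]
      rw [← hord]
      exact pow_orderOf_eq_one _
    · intro h
      change g * ℓ * g⁻¹ = 1 at h
      rw [h, orderOf_one] at hord
      omega
    · intro h
      change g * ℓ * g⁻¹ = p.y' at h
      rw [h, ← hL, hLc] at hcard
      omega
    · intro h
      change g * ℓ * g⁻¹ = p.y'⁻¹ at h
      rw [h, card_cent_inv, ← hL, hLc] at hcard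
      omega
  have hS₁₂ : S₁ = S₂ := Finset.eq_of_subset_of_card_le hsub (hS₂c.trans hS₁low)
  -- conjugate `c` into `L`
  have hz : IsPGroup 3 (zpowers c) := IsPGroup.of_card (n := 1) (by
    rw [Nat.card_zpowers, hc, pow_one])
  obtain ⟨Q, hQ⟩ := hz.exists_le_sylow
  let P₀ : Sylow 3 L := default
  set Pg : Subgroup G := (P₀ : Subgroup L).map L.subtype with hPg
  have hP₀c : Nat.card (P₀ : Subgroup L) = 27 := by
    have := sylow_card P₀ (a := 3) (m := 40) (by rw [hLc]; norm_num) (by norm_num)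
    rw [this]; norm_num
  have hPgc : Nat.card Pg = 27 := by
    rw [hPg, Subgroup.card_map_of_injective (Subgroup.subtype_injective _), hP₀c]
  have hPgp : IsPGroup 3 Pg := IsPGroup.of_card (n := 3) (by rw [hPgc]; norm_num)
  have hidx : ¬ 3 ∣ Pg.index := by
    have h := Subgroup.card_mul_index Pg
    rw [hPgc, p.card_G] at h
    have : Pg.index = 22400 := by omega
    rw [this]
    norm_num
  let PS : Sylow 3 G := hPgp.toSylow hidx
  obtain ⟨g, hg⟩ := sylow_conj Q PS
  have hm : g * c * g⁻¹ ∈ Pg := hg c (hQ (mem_zpowers c))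
  obtain ⟨x, hx, hxg⟩ := hm
  have hxg' : x.1 = g * c * g⁻¹ := hxg
  have hcx : IsConj c x.1 := by rw [hxg']; exact isConj_iff.2 ⟨g, rfl⟩
  have hordx : orderOf x.1 = 3 := by rw [hxg', order_conj, hc]
  by_cases h1 : x.1 = p.y'
  · left
    rw [← h1]
    exact hcx
  by_cases h2 : x.1 = p.y'⁻¹
  · left
    rw [h2] at hcx
    exact hcx.trans (y'_inv_conj p).symm
  right
  have hx3 : x ^ 3 = 1 := by
    apply Subtype.ext
    simp only [Subgroup.coe_pow, OneMemClass.coe_one]
    rw [← hordx]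
    exact pow_orderOf_eq_one _
  have hx1 : x.1 ≠ 1 := by
    intro h
    rw [h, orderOf_one] at hordx
    omega
  have hmemT : x ∈ T₃ := Finset.mem_filter.2 ⟨Finset.mem_univ _, hx3, hx1, h1, h2⟩
  have hmemS : x.1 ∈ S₂ := Finset.mem_image.2 ⟨x, hmemT, rfl⟩
  rw [← hS₁₂] at hmemS
  have hb := (Finset.mem_filter.1 (Finset.mem_filter.1 hmemS).1).2
  exact hcx.trans hb.symm

/-- S1723: the conclusion from `Pkg G`. -/
theorem sylow3 [Finite G] (p : Pkg G) (hf : FiveFacts p) (P : Sylow 3 G) :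
    Cfsg.IsExtraspecial 3 (P : Subgroup G) ∧ Nat.card P = 27 ∧
      Nat.card (normalizer ((P : Subgroup G) : Set G)) = 216 ∧
      ∃ a b : G, orderOf a = 3 ∧ orderOf b = 3 ∧ ¬ IsConj a b ∧
        ∀ c : G, orderOf c = 3 → IsConj c a ∨ IsConj c b := by
  refine ⟨extraspecial_P p hf P, card_P27 p P, card_normalizer p hf P, ?_⟩
  obtain ⟨ℓ, hℓT, hℓ3, _⟩ := exists_ell p
  refine ⟨p.y', ℓ, orderOf_y' p, hℓ3, ?_, classes_main p hf hℓT hℓ3⟩
  intro h
  obtain ⟨g, hg⟩ := isConj_iff.1 h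
  have h1 := card_C_ell p hf hℓT hℓ3
  rw [← hg, card_cent_conj, card_L p hf] at h1
  omega

end Cfsg.Agent.Lib.HallJanko.Three
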