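import Mathlib
import Cfsg.Agent.Lib.HallJanko.ThreeClasses

/-!
# Hall-Janko type groups: the Sylow `7`-structure (S1724), from `Pkg G` and `FiveFacts`
-/

set_option autoImplicit false
set_option linter.unusedSectionVars false
set_option linter.unusedVariables false

namespace Cfsg.Agent.Lib.HallJanko.Seven

open Subgroup Three Three.Pkg'

variable {G : Type*} [Group G]

theorem seven_not_dvd [Finite G] (p : Pkg G) (hf : FiveFacts p) {x : G}
    (hr : orderOf x = 2 ∨ orderOf x = 3 ∨ orderOf x = 5) :
    ¬ 7 ∣ Nat.card (centralizer ({x} : Set G)) := by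
  rcases hr with h | h | h
  · have h2 : x * x = 1 := by
      have := pow_orderOf_eq_one x
      rwa [h, pow_two] at this
    have h1 : x ≠ 1 := by
      rintro rfl
      simp at h
    rcases p.all_inv x h2 h1 with hc | hc
    · obtain ⟨g, hg⟩ := isConj_iff.1 hc
      have := p.card_Cz
      rw [← hg, card_cent_conj] at this
      rw [this]
      norm_num
    · obtain ⟨g, hg⟩ := isConj_iff.1 hc
      have := p.card_Ct
      rw [← hg, card_cent_conj] at this
      rw [this]
      norm_num
  · obtain ⟨ℓ, hℓT, hℓ3, _⟩ := exists_ell p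
    rcases classes_main p hf hℓT hℓ3 x h with hc | hc
    · obtain ⟨g, hg⟩ := isConj_iff.1 hc
      have := card_L p hf
      rw [← hg, card_cent_conj] at this
      rw [this]
      norm_num
    · obtain ⟨g, hg⟩ := isConj_iff.1 hc
      have := card_C_ell p hf hℓT hℓ3
      rw [← hg, card_cent_conj] at this
      rw [this]
      norm_num
  · rcases hf.classes x h with h50 | ⟨f, hfT, hf5, hc⟩
    · rw [h50]
      norm_num
    · obtain ⟨g, hg⟩ := isConj_iff.1 hc
      have := hf.card_C f hfT hf5
      rw [← hg, card_cent_conj] at this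
      rw [this]
      norm_num

theorem prime_cases {r : ℕ} (hr : r.Prime) (h : r ∣ 604800) : r = 2 ∨ r = 3 ∨ r = 5 ∨ r = 7 := by
  have e : (604800 : ℕ) = 2 ^ 7 * 3 ^ 3 * 5 ^ 2 * 7 := by norm_num
  rw [e] at h
  rcases (Nat.Prime.dvd_mul hr).1 h with h | h
  · rcases (Nat.Prime.dvd_mul hr).1 h with h | h
    · rcases (Nat.Prime.dvd_mul hr).1 h with h | h
      · left
        exact (Nat.prime_dvd_prime_iff_eq hr Nat.prime_two).1 (hr.dvd_of_dvd_pow h)
      · right; left
        exact (Nat.prime_dvd_prime_iff_eq hr Nat.prime_three).1 (hr.dvd_of_dvd_pow h)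
    · right; right; left
      exact (Nat.prime_dvd_prime_iff_eq hr Nat.prime_five).1 (hr.dvd_of_dvd_pow h)
  · right; right; right
    exact (Nat.prime_dvd_prime_iff_eq hr (by norm_num)).1 h

/-- S1724: the conclusion from `Pkg G`. -/
theorem sylow7 [Finite G] (p : Pkg G) (hf : FiveFacts p) (D : Sylow 7 G) :
    centralizer ((D : Subgroup G) : Set G) = D ∧
      Nat.card (normalizer ((D : Subgroup G) : Set G)) = 42 ∧
      ¬ IsMulCommutative (normalizer ((D : Subgroup G) : Set G)) := by
  have : Fact (Nat.Prime 7) := ⟨by norm_num⟩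
  have hD7 : Nat.card (D : Subgroup G) = 7 := by
    have := sylow_card D (a := 1) (m := 86400) (by rw [p.card_G]; norm_num) (by norm_num)
    rw [this]; norm_num
  have hcomm : IsMulCommutative (D : Subgroup G) := by
    have : IsCyclic (D : Subgroup G) := isCyclic_of_prime_card hD7
    exact IsCyclic.isMulCommutative
  set C := centralizer ((D : Subgroup G) : Set G) with hC
  have hDC : (D : Subgroup G) ≤ C := by
    intro a ha
    rw [hC, mem_centralizer_iff]
    intro b hb
    have := hcomm.is_comm.comm ⟨b, hb⟩ ⟨a, ha⟩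
    exact congrArg Subtype.val this
  have hdvd : 7 ∣ Nat.card C := by
    rw [← hD7]
    exact Subgroup.card_dvd_of_le hDC
  obtain ⟨k, hk⟩ := hdvd
  have hCG : Nat.card C ∣ 604800 := by
    rw [← p.card_G]
    exact Subgroup.card_subgroup_dvd_card C
  have hk1 : k = 1 := by
    by_contra hk1
    obtain ⟨r, hr, hrk⟩ := Nat.exists_prime_and_dvd hk1
    have hrC : r ∣ Nat.card C := hk ▸ Dvd.dvd.mul_left hrk 7
    have hr604800 := hrC.trans hCG
    have : Fact r.Prime := ⟨hr⟩
    obtain ⟨x, hx⟩ := exists_prime_orderOf_dvd_card' (G := C) r hrC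
    have hxord : orderOf (x : G) = r := by rw [Subgroup.orderOf_coe]; exact hx
    have hDx : (7 : ℕ) ∣ Nat.card (centralizer ({(x : G)} : Set G)) := by
      rw [← hD7]
      apply Subgroup.card_dvd_of_le
      intro a ha
      rw [mem_centralizer_singleton_iff]
      exact (mem_centralizer_iff.1 x.2 a ha).symm ▸ rfl
    rcases prime_cases hr hr604800 with rfl | rfl | rfl | rfl
    · exact seven_not_dvd p hf (Or.inl hxord) hDx
    · exact seven_not_dvd p hf (Or.inr (Or.inl hxord)) hDx
    · exact seven_not_dvd p hf (Or.inr (Or.inr hxord)) hDx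
    · have h49 : 49 ∣ Nat.card C := by
        rw [hk]
        exact mul_dvd_mul_left 7 hrk
      have := h49.trans hCG
      norm_num at this
  have hC7 : Nat.card C = 7 := by rw [hk, hk1]
  have hCD : C = D := (Subgroup.eq_of_le_of_card_ge hDC (by rw [hC7, hD7])).symm
  set N := normalizer ((D : Subgroup G) : Set G) with hN
  have hCN : C ≤ N := by
    rw [hCD]
    exact le_normalizer
  have hcyc : IsCyclic (D : Subgroup G) := isCyclic_of_prime_card hD7
  have hkey : C.relIndex N ∣ 6 := by
    have key := Subgroup.card_dvd_of_injective _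
      (QuotientGroup.kerLift_injective (D : Subgroup G).normalizerMonoidHom)
    rw [normalizerMonoidHom_ker, ← index, ← relIndex, IsCyclic.card_mulAut, hD7] at key
    have h6 : Nat.totient 7 = 6 := by decide
    rwa [h6] at key
  have h1 := Subgroup.card_mul_index (C.subgroupOf N)
  rw [card_subgroupOf, inf_eq_left.2 hCN, hC7] at h1
  change 7 * C.relIndex N = _ at h1
  set m := C.relIndex N with hm
  have hsyl : Nat.card (Sylow 7 G) = N.index := D.card_eq_index_normalizer
  have hmod : N.index % 7 = 1 := by
    have h := card_sylow_modEq_one 7 G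
    rw [hsyl] at h
    exact h
  have h2 := Subgroup.card_mul_index N
  rw [p.card_G, ← h1] at h2
  have hm6 : m ≤ 6 := Nat.le_of_dvd (by norm_num) hkey
  have hm42 : m = 6 := by
    clear_value m
    generalize N.index = n at *
    interval_cases m <;> omega
  have hN42 : Nat.card N = 42 := by rw [← h1, hm42]
  refine ⟨hCD, hN42, ?_⟩
  intro hab
  have hle : N ≤ C := by
    intro a ha
    rw [hC, mem_centralizer_iff]
    intro b hb
    have hbN : b ∈ N := (le_normalizer : (D : Subgroup G) ≤ _) hb
    have := hab.is_comm.comm ⟨b, hbN⟩ ⟨a, ha⟩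
    exact congrArg Subtype.val this
  have := Subgroup.card_dvd_of_le hle
  rw [hN42, hC7] at this
  norm_num at this

end Cfsg.Agent.Lib.HallJanko.Seven
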